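import Cfsg.Agent.Lib.Steinberg.AutPres
import Cfsg.Prelude.Def_KGroupFacts

/-!
Automorphisms of Chevalley groups: the order of the outer automorphism group.
-/

set_option autoImplicit false
set_option linter.unusedSectionVars false
set_option linter.unusedVariables false

namespace Cfsg.Agent.Lib.Steinberg.AutCount

open scoped MatrixGroups Matrix
open Cfsg _root_.Cfsg.Lie ChevalleyDatum
open Cfsg.Agent.Lib.Chev
open Tables Tables2 Tables3 Raise Basic AxBasic Torus Products Products2 Mono1 Mono2 Mono3 Order1 Parab Bn Unipotent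
open _root_.Cfsg.Agent.Lib.Steinberg.AutNorm _root_.Cfsg.Agent.Lib.Steinberg.AutRoot
open _root_.Cfsg.Agent.Lib.Steinberg.AutShape _root_.Cfsg.Agent.Lib.Steinberg.AutAdj
open _root_.Cfsg.Agent.Lib.Steinberg.AutExist _root_.Cfsg.Agent.Lib.Steinberg.AutMain
open _root_.Cfsg.Agent.Lib.Steinberg.AutTilde _root_.Cfsg.Agent.Lib.Steinberg.AutPres
open Cfsg.Agent.Lib.Lie.Facts (IsData)

universe u

variable {D : ChevalleyDatum} {F : Type u} [Field F]

/-- The automorphisms preserving `U` and `V`. -/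
def normSub (D : ChevalleyDatum) (F : Type u) [Field F] : Subgroup (MulAut ↥(D.group F)) where
  carrier := {σ | (∀ u, u ∈ Ug D F ↔ σ u ∈ Ug D F) ∧ (∀ v, v ∈ Vg D F ↔ σ v ∈ Vg D F)}
  one_mem' := ⟨fun u => Iff.rfl, fun u => Iff.rfl⟩
  mul_mem' := by
    rintro a b ⟨ha, ha'⟩ ⟨hb, hb'⟩
    exact ⟨fun u => (hb u).trans (ha _), fun u => (hb' u).trans (ha' _)⟩
  inv_mem' := by
    rintro a ⟨ha, ha'⟩
    constructor
    · intro u
      rw [ha (a⁻¹ u)]
      simp
    · intro u
      rw [ha' (a⁻¹ u)]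
      simp

lemma mem_normSub {σ : MulAut ↥(D.group F)} :
    σ ∈ normSub D F ↔ (∀ u, u ∈ Ug D F ↔ σ u ∈ Ug D F) ∧ (∀ v, v ∈ Vg D F ↔ σ v ∈ Vg D F) := Iff.rfl

/-- The map from the normalized automorphisms to the outer automorphisms. -/
noncomputable def toOut (D : ChevalleyDatum) (F : Type u) [Field F] : normSub D F →* Out ↥(D.group F) :=
  (QuotientGroup.mk' (Inn ↥(D.group F))).comp (normSub D F).subtype

lemma toOut_surj [Finite F] (hD : IsData D) : Function.Surjective (toOut D F) := by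
  intro q
  obtain ⟨θ, rfl⟩ := QuotientGroup.mk'_surjective (Inn ↥(D.group F)) q
  obtain ⟨x, σ, hx, hU, hV⟩ := exists_normalized hD θ
  refine ⟨⟨σ, hU, hV⟩, ?_⟩
  show (QuotientGroup.mk' (Inn ↥(D.group F))) σ = _
  have e : θ = MulAut.conj x * σ := by
    ext y
    rw [hx]
    rfl
  rw [e, map_mul]
  have : (QuotientGroup.mk' (Inn ↥(D.group F))) (MulAut.conj x) = 1 := by
    rw [QuotientGroup.mk'_apply, QuotientGroup.eq_one_iff]
    exact ⟨x, rfl⟩
  rw [this, one_mul]

theorem card_out_mul [Finite F] (hD : IsData D) :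
    Nat.card (toOut D F).ker * Nat.card (Out ↥(D.group F)) = Nat.card (normSub D F) := by
  have h1 := Subgroup.card_mul_index (toOut D F).ker
  rw [Subgroup.index_ker, MonoidHom.range_eq_top.mpr (toOut_surj hD), Nat.card_congr (Subgroup.topEquiv).toEquiv] at h1
  exact h1

/-- An element normalizing `U` and `V` lies in `H`. -/
theorem mem_H_of_normalizes (hD : IsData D) {x : ↥(D.group F)} (hU : ∀ u, u ∈ Ug D F ↔ x * u * x⁻¹ ∈ Ug D F)
    (hV : ∀ v, v ∈ Vg D F ↔ x * v * x⁻¹ ∈ Vg D F) : (x : GL D.Idx F) ∈ D.diagonalSubgroup F := by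
  have ax := Cfsg.Agent.Lib.Lie.AxOf.ax_of_mem (F := F) hD
  have h := tab_of_mem hD
  have h2 := tab2_of_mem hD
  have h3 := tab3_of_mem hD
  have hB : (x : GL D.Idx F) ∈ D.borelSubgroup F := by
    have := (mem_Bg_iff h h2 ax x).mpr hU
    exact this
  have hB' : (x : GL D.Idx F) ∈ D.negUnipotent F ⊔ D.diagonalSubgroup F := by
    set m := n0 h h2 ax h3 with hm
    have hy : (m⁻¹ * x * m : ↥(D.group F)) ∈ (D.borelSubgroup F).subgroupOf (D.group F) := by
      rw [mem_Bg_iff h h2 ax]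
      intro w
      have e1 : m * (m⁻¹ * x * m * w * (m⁻¹ * x * m)⁻¹) * m⁻¹ = x * (m * w * m⁻¹) * x⁻¹ := by group
      have e2 : ∀ z : ↥(D.group F), z ∈ Ug D F ↔ m * z * m⁻¹ ∈ Vg D F := by
        intro z
        rw [mem_Vg_iff h h2 ax h3, ← hm]
        have : m⁻¹ * (m * z * m⁻¹) * m = z := by group
        rw [this]
      rw [e2 w, e2 (m⁻¹ * x * m * w * (m⁻¹ * x * m)⁻¹), e1]
      exact hV _
    have hle : D.borelSubgroup F ≤ (D.negUnipotent F ⊔ D.diagonalSubgroup F).comap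
        (MulAut.conj (m : GL D.Idx F)).toMonoidHom := by
      apply sup_le
      · intro u hu
        rw [Subgroup.mem_comap]
        apply (le_sup_left : D.negUnipotent F ≤ _)
        rw [← w0_conj h h2 ax h3]
        exact ⟨u, hu, rfl⟩
      · intro a ha
        rw [Subgroup.mem_comap]
        apply (le_sup_right : D.diagonalSubgroup F ≤ _)
        obtain ⟨c, hc⟩ := exists_isNor_nw h h2 ax (F := F) h3.w0_lt
        exact hc.conj_mem_H h ax ha
    have := hle hy
    rw [Subgroup.mem_comap] at this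
    have e3 : (MulAut.conj (m : GL D.Idx F)).toMonoidHom ((m⁻¹ * x * m : ↥(D.group F)) : GL D.Idx F) = (x : GL D.Idx F) := by
      simp only [MulEquiv.coe_toMonoidHom, MulAut.conj_apply, Subgroup.coe_mul, Subgroup.coe_inv]
      group
    have this' : (MulAut.conj (m : GL D.Idx F)).toMonoidHom ((m⁻¹ * x * m : ↥(D.group F)) : GL D.Idx F) ∈
        D.negUnipotent F ⊔ D.diagonalSubgroup F := this
    rwa [e3] at this'
  have hxH : (x : GL D.Idx F) ∈ D.diagonalSubgroup F := by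
    rw [← borel_inf_VH ax h]
    exact ⟨hB, hB'⟩
  exact hxH

/-- The diagonal elements give the inner automorphisms in `normSub`. -/
theorem card_ker [Finite F] (hD : IsData D) : Nat.card (toOut D F).ker = Nat.card (D.diagonalSubgroup F) := by
  classical
  have ax := Cfsg.Agent.Lib.Lie.AxOf.ax_of_mem (F := F) hD
  have h := tab_of_mem hD
  have h2 := tab2_of_mem hD
  have h3 := tab3_of_mem hD
  have hHG : ∀ a, a ∈ D.diagonalSubgroup F → a ∈ D.group F := fun a ha =>
    borel_le_group h ax ((le_sup_right : D.diagonalSubgroup F ≤ _) ha)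
  have hHU : ∀ (a : ↥(D.group F)), (a : GL D.Idx F) ∈ D.diagonalSubgroup F → ∀ k, k < D.rank →
      a * xg ax (D.simple k) 1 * a⁻¹ ∈ Ug D F := by
    intro a ha k hk
    apply H_conj_U h ax ha
    rw [posUnipotent_eq ax]
    exact xG_mem_rootClosure ax (simple_isPos h hk) _
  have hHV : ∀ (a : ↥(D.group F)), (a : GL D.Idx F) ∈ D.diagonalSubgroup F → ∀ k, k < D.rank → ∀ t,
      a * xg ax (D.neg (D.simple k)) t * a⁻¹ ∈ Vg D F := by
    intro a ha k hk t
    obtain ⟨y, hy⟩ := exists_tor_of_mem ax h ha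
    have hn := h.neg_lt _ (h.simple_lt k hk)
    rw [Subgroup.mem_subgroupOf]
    show (a : GL D.Idx F) * xG ax (D.neg (D.simple k)) t * (a : GL D.Idx F)⁻¹ ∈ D.negUnipotent F
    rw [hy, tor_conj_xG ax h y hn t, negUnipotent_eq ax]
    apply xG_mem_rootClosure ax
    exact (isPosRoot_neg h hn).mp (by
      rw [h.neg_neg _ (h.simple_lt k hk)]
      exact simple_isPos h hk)
  have hconj : ∀ a : ↥(D.diagonalSubgroup F), MulAut.conj (⟨a.1, hHG _ a.2⟩ : ↥(D.group F)) ∈ normSub D F := by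
    intro a
    exact ⟨fun u => normalizes_iff hD ax (hHU _ a.2) u, fun v => normalizes_V_iff hD ax (hHV _ a.2) v⟩
  have hker : ∀ σ : normSub D F, σ ∈ (toOut D F).ker ↔ (σ : MulAut ↥(D.group F)) ∈ Inn ↥(D.group F) := by
    intro σ
    rw [MonoidHom.mem_ker]
    show (QuotientGroup.mk' (Inn ↥(D.group F))) (σ : MulAut ↥(D.group F)) = 1 ↔ _
    rw [QuotientGroup.mk'_apply, QuotientGroup.eq_one_iff]
  let f : ↥(D.diagonalSubgroup F) → ↥(toOut D F).ker := fun a =>
    ⟨⟨MulAut.conj (⟨a.1, hHG _ a.2⟩ : ↥(D.group F)), hconj a⟩, (hker _).mpr ⟨_, rfl⟩⟩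
  apply Eq.symm
  apply Nat.card_congr
  refine Equiv.ofBijective f ⟨?_, ?_⟩
  · -- injective: the centre of the group is trivial
    intro a b e
    have e1 : MulAut.conj (⟨a.1, hHG _ a.2⟩ : ↥(D.group F)) = MulAut.conj (⟨b.1, hHG _ b.2⟩ : ↥(D.group F)) :=
      congrArg (fun s : ↥(toOut D F).ker => ((s : normSub D F) : MulAut ↥(D.group F))) e
    have e2 : (⟨a.1, hHG _ a.2⟩ : ↥(D.group F))⁻¹ * ⟨b.1, hHG _ b.2⟩ ∈ Subgroup.center ↥(D.group F) := by
      rw [Subgroup.mem_center_iff]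
      intro g
      have e3 := DFunLike.congr_fun e1 g
      simp only [MulAut.conj_apply] at e3
      calc g * ((⟨a.1, hHG _ a.2⟩ : ↥(D.group F))⁻¹ * ⟨b.1, hHG _ b.2⟩)
          = (⟨a.1, hHG _ a.2⟩ : ↥(D.group F))⁻¹ * ((⟨a.1, hHG _ a.2⟩ : ↥(D.group F)) * g * (⟨a.1, hHG _ a.2⟩ : ↥(D.group F))⁻¹) * ⟨b.1, hHG _ b.2⟩ := by group
        _ = (⟨a.1, hHG _ a.2⟩ : ↥(D.group F))⁻¹ * ((⟨b.1, hHG _ b.2⟩ : ↥(D.group F)) * g * (⟨b.1, hHG _ b.2⟩ : ↥(D.group F))⁻¹) * ⟨b.1, hHG _ b.2⟩ := by rw [e3]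
        _ = _ := by group
    rw [Steinberg.Center.center_group hD, Subgroup.mem_bot, inv_mul_eq_one] at e2
    exact Subtype.ext (Subtype.mk.inj e2)
  · -- surjective
    rintro ⟨⟨σ, hU, hV⟩, hσ⟩
    obtain ⟨x, hx⟩ := (hker _).mp hσ
    simp only at hx
    subst hx
    have hxH := mem_H_of_normalizes hD hU hV
    refine ⟨⟨x.1, hxH⟩, ?_⟩
    apply Subtype.ext
    apply Subtype.ext
    rfl

lemma rank_pos (hD : IsData D) : 0 < D.rank := by
  simp only [IsData, List.mem_cons, List.not_mem_nil, or_false] at hD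
  rcases hD with rfl | rfl | rfl | rfl | rfl | rfl | rfl <;> decide

/-- The data for the count. -/
structure CountData (ax : Ax D F) (Γ : Type) where
  rhoG : Γ → ℕ → ℕ
  graph : Γ → (↥(D.group F) ≃* ↥(D.group F))
  spec : ∀ γ, GraphSpec ax (rhoG γ) (graph γ)
  lt : ∀ γ j, j < D.rank → rhoG γ j < D.rank
  inj : ∀ γ γ', (∀ j, j < D.rank → rhoG γ j = rhoG γ' j) → γ = γ'
  surj : ∀ (σ : ↥(D.group F) ≃* ↥(D.group F)) (ρ : ℕ → ℕ) (c : ℕ → Fˣ) (τ : ℕ → F ≃+* F), Shape ax σ ρ c τ →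
    ∃ γ, ∀ j, j < D.rank → ρ j = rhoG γ j

section count

variable [Finite F] (hD : IsData D) (ax : Ax D F) {Γ : Type} (T : CountData ax Γ)

/-- The extension of a function on the nodes. -/
def extC (D : ChevalleyDatum) (F : Type u) [Field F] (c : Fin D.rank → Fˣ) : ℕ → Fˣ :=
  fun i => if hi : i < D.rank then c ⟨i, hi⟩ else 1

/-- The automorphism attached to the data. -/
noncomputable def autOf (γ : Γ) (τ : F ≃+* F) (c : Fin D.rank → Fˣ) : ↥(D.group F) ≃* ↥(D.group F) :=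
  (fieldAut (tab_of_mem hD) ax τ).trans ((T.graph γ).trans (diagAut hD ax (isRootCharacter_psiN hD (extC D F c))))

lemma autOf_pos (γ : Γ) (τ : F ≃+* F) (c : Fin D.rank → Fˣ) {j : ℕ} (hj : j < D.rank) (t : F) :
    autOf hD ax T γ τ c (xg ax (D.simple j) t) = xg ax (D.simple (T.rhoG γ j))
      ((extC D F c (T.rhoG γ j) : F) * (τ t) ^ D.graphExp (ringChar F) j (T.rhoG γ j)) := by
  have h := tab_of_mem hD
  simp only [autOf, MulEquiv.trans_apply]
  rw [fieldAut_xg, (T.spec γ j hj _).1, diagAut_xg hD ax _ (h.simple_lt _ (T.lt γ j hj)),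
    psiN_simple hD _ (T.lt γ j hj)]

lemma autOf_neg (γ : Γ) (τ : F ≃+* F) (c : Fin D.rank → Fˣ) {j : ℕ} (hj : j < D.rank) (t : F) :
    autOf hD ax T γ τ c (xg ax (D.neg (D.simple j)) t) = xg ax (D.neg (D.simple (T.rhoG γ j)))
      ((extC D F c (T.rhoG γ j) : F)⁻¹ * (τ t) ^ D.graphExp (ringChar F) j (T.rhoG γ j)) := by
  have h := tab_of_mem hD
  simp only [autOf, MulEquiv.trans_apply]
  rw [fieldAut_xg, (T.spec γ j hj _).2, diagAut_xg hD ax _ (h.neg_lt _ (h.simple_lt _ (T.lt γ j hj))),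
    (isRootCharacter_psiN hD (extC D F c)).1 _ (h.simple_lt _ (T.lt γ j hj)),
    psiN_simple hD _ (T.lt γ j hj)]
  simp

/-- The `E`-th power map on a finite field when `E` is `1` or the characteristic, as a ring automorphism. -/
lemma exists_powEquiv (E : ℕ) (hE : E = 1 ∨ E = ringChar F) : ∃ φ : F ≃+* F, ∀ t, φ t = t ^ E := by
  classical
  rcases hE with rfl | rfl
  · exact ⟨RingEquiv.refl F, fun t => by simp⟩
  · obtain ⟨p, hp⟩ := CharP.exists F
    have hpr : p = ringChar F := (ringChar.eq F p).symm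
    subst hpr
    have : Fintype F := Fintype.ofFinite F
    have hp' : Fact (ringChar F).Prime := ⟨CharP.char_is_prime F _⟩
    exact ⟨frobeniusEquiv F (ringChar F), fun t => rfl⟩

lemma graphExp_cases (c i j : ℕ) : D.graphExp c i j = 1 ∨ D.graphExp c i j = c := by
  unfold graphExp
  split_ifs
  · exact Or.inr rfl
  · exact Or.inl rfl

/-- The automorphisms of `autOf` have a shape. -/
lemma autOf_shape (γ : Γ) (τ : F ≃+* F) (c : Fin D.rank → Fˣ) :
    ∃ τ', Shape ax (autOf hD ax T γ τ c) (T.rhoG γ) (fun j => extC D F c (T.rhoG γ j)) τ' := by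
  classical
  have hφ : ∀ j, ∃ φ : F ≃+* F, ∀ t, φ t = t ^ D.graphExp (ringChar F) j (T.rhoG γ j) := fun j =>
    exists_powEquiv _ (graphExp_cases _ _ _)
  choose φ hφ using hφ
  refine ⟨fun j => τ.trans (φ j), T.lt γ, fun j hj t => ?_, fun j hj t => ?_⟩
  · rw [autOf_pos hD ax T γ τ c hj]
    simp [hφ]
  · rw [autOf_neg hD ax T γ τ c hj]
    simp [hφ]

/-- The bijection. -/
theorem autOf_bij : Function.Bijective (fun x : Γ × (F ≃+* F) × (Fin D.rank → Fˣ) =>
    (⟨autOf hD ax T x.1 x.2.1 x.2.2, by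
      obtain ⟨τ', hS⟩ := autOf_shape hD ax T x.1 x.2.1 x.2.2
      exact shape_preserves hD ax hS⟩ : normSub D F)) := by
  classical
  have h := tab_of_mem hD
  have h2 := tab2_of_mem hD
  have h3 := tab3_of_mem hD
  constructor
  · rintro ⟨γ, τ, c⟩ ⟨γ', τ', c'⟩ e
    have e0 : autOf hD ax T γ τ c = autOf hD ax T γ' τ' c' := congrArg Subtype.val e
    have key : ∀ j (hj : j < D.rank) t, t ≠ 0 → T.rhoG γ j = T.rhoG γ' j ∧
        (extC D F c (T.rhoG γ j) : F) * (τ t) ^ D.graphExp (ringChar F) j (T.rhoG γ j) =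
          (extC D F c' (T.rhoG γ' j) : F) * (τ' t) ^ D.graphExp (ringChar F) j (T.rhoG γ' j) := by
      intro j hj t ht
      have e1 := DFunLike.congr_fun e0 (xg ax (D.simple j) t)
      rw [autOf_pos hD ax T γ τ c hj, autOf_pos hD ax T γ' τ' c' hj] at e1
      have e2 := congrArg Subtype.val e1
      simp only [xg_coe] at e2
      have hne : (extC D F c (T.rhoG γ j) : F) * (τ t) ^ D.graphExp (ringChar F) j (T.rhoG γ j) ≠ 0 :=
        mul_ne_zero (Units.ne_zero _) (pow_ne_zero _ (by simpa using ht))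
      obtain ⟨e3, e4⟩ := xG_eq_iff ax h h2 (h.simple_lt _ (T.lt γ j hj)) (h.simple_lt _ (T.lt γ' j hj)) hne e2
      have e5 : T.rhoG γ j = T.rhoG γ' j := by
        by_contra hne'
        have e6 := h.coef_simple _ (T.lt γ j hj) _ (T.lt γ j hj)
        rw [e3, h.coef_simple _ (T.lt γ' j hj) _ (T.lt γ j hj), if_pos rfl, if_neg hne'] at e6
        exact absurd e6 (by decide)
      exact ⟨e5, e4⟩
    have hγ : γ = γ' := T.inj γ γ' fun j hj => (key j hj 1 one_ne_zero).1
    subst hγ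
    have hc : ∀ j (hj : j < D.rank), extC D F c (T.rhoG γ j) = extC D F c' (T.rhoG γ j) := by
      intro j hj
      have e1 := (key j hj 1 one_ne_zero).2
      simp only [map_one, one_pow, mul_one] at e1
      exact Units.ext e1
    obtain ⟨τ₁, hS⟩ := autOf_shape hD ax T γ τ c
    obtain ⟨π, hπ⟩ := exists_perm h h2 ax hS
    have hcc : c = c' := by
      funext i
      obtain ⟨j, rfl⟩ := π.surjective i
      have e1 := hc j j.2
      rw [← hπ j] at e1
      simpa [extC] using e1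
    subst hcc
    have hττ : τ = τ' := by
      apply RingEquiv.ext
      intro t
      by_cases ht : t = 0
      · simp [ht]
      obtain ⟨φ, hφ⟩ := exists_powEquiv (F := F) (D.graphExp (ringChar F) 0 (T.rhoG γ 0)) (graphExp_cases _ _ _)
      have hr0 : 0 < D.rank := rank_pos hD
      have e1 := (key 0 hr0 t ht).2
      have e2 := mul_left_cancel₀ (Units.ne_zero _) e1
      rw [← hφ, ← hφ] at e2
      exact φ.injective e2
    subst hττ
    rfl
  · rintro ⟨σ, hU, hV⟩
    obtain ⟨ρ, c, τ, hS⟩ := exists_shape h h2 h3 ax hD hU hV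
    obtain ⟨τ₀, hτ₀⟩ := exists_tilde ax hD hS
    obtain ⟨γ, hγ⟩ := T.surj σ ρ c τ hS
    obtain ⟨π, hπ⟩ := exists_perm h h2 ax hS
    let c' : Fin D.rank → Fˣ := fun i => c (π.symm i)
    have hval : ∀ j, j < D.rank → extC D F c' (ρ j) = c j := by
      intro j hj
      have e5 : π.symm ⟨ρ j, hS.lt j hj⟩ = ⟨j, hj⟩ := by
        rw [Equiv.symm_apply_eq]
        exact Fin.ext (hπ ⟨j, hj⟩).symm
      simp only [extC, hS.lt j hj, dif_pos, c', e5]
    refine ⟨(γ, τ₀, c'), ?_⟩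
    apply Subtype.ext
    symm
    exact shape_decomp ax hD hS hτ₀ (graphSpec_congr ax hγ (T.spec γ)) (isRootCharacter_psiN hD (extC D F c')) (by
      intro j hj
      rw [psiN_simple hD _ (hS.lt j hj), hval j hj])

/-- The order of the outer automorphism group. -/
theorem card_out (hD : IsData D) (ax : Ax D F) (T : CountData ax Γ) [Finite Γ] : Nat.card (Out ↥(D.group F)) * Nat.card (D.diagonalSubgroup F) =
    Nat.card Γ * (Nat.card (F ≃+* F) * Nat.card Fˣ ^ D.rank) := by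
  have e1 := card_out_mul (F := F) hD
  rw [card_ker hD, ← Nat.card_congr (Equiv.ofBijective _ (autOf_bij hD ax T)), Nat.card_prod, Nat.card_prod, Nat.card_fun,
    Nat.card_fin] at e1
  rw [← e1, mul_comm]

end count

end Cfsg.Agent.Lib.Steinberg.AutCount
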