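import Cfsg.Agent.Lib.Steinberg.AutCount

/-!
The permutations of the nodes for each type, and the order of the outer automorphism groups of `E₆`, `E₇`, `E₈`.
-/

set_option autoImplicit false
set_option linter.unusedSectionVars false
set_option linter.unusedVariables false

namespace Cfsg.Agent.Lib.Steinberg.AutE

open scoped MatrixGroups Matrix
open Cfsg _root_.Cfsg.Lie ChevalleyDatum
open Cfsg.Agent.Lib.Chev
open Tables Tables2 Tables3 Raise Basic AxBasic Torus Products Products2 Mono1 Mono2 Mono3 Order1 Parab Bn Unipotent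
open _root_.Cfsg.Agent.Lib.Steinberg.AutNorm _root_.Cfsg.Agent.Lib.Steinberg.AutRoot
open _root_.Cfsg.Agent.Lib.Steinberg.AutShape _root_.Cfsg.Agent.Lib.Steinberg.AutAdj
open _root_.Cfsg.Agent.Lib.Steinberg.AutExist _root_.Cfsg.Agent.Lib.Steinberg.AutMain
open _root_.Cfsg.Agent.Lib.Steinberg.AutTilde _root_.Cfsg.Agent.Lib.Steinberg.AutPres _root_.Cfsg.Agent.Lib.Steinberg.AutCount
open _root_.Cfsg.Agent.Lib.Steinberg.AutTab2 _root_.Cfsg.Agent.Lib.Steinberg.AutTab3
open Cfsg.Agent.Lib.Lie.Facts (IsData)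

universe u

variable {F : Type u} [Field F]

/-- The permutation of the nodes for `E₈`. -/
theorem rho_E8 (ax : Ax chevE8 F) {σ : ↥(chevE8.group F) ≃* ↥(chevE8.group F)} {ρ : ℕ → ℕ} {c : ℕ → Fˣ} {τ : ℕ → F ≃+* F}
    (hS : Shape ax σ ρ c τ) : ∀ j, j < chevE8.rank → ρ j = j := by
  have hD : IsData chevE8 := by simp [IsData]
  have h := tab_of_mem hD
  have h2 := tab2_of_mem hD
  have hinj : ∀ i j : ℕ, i < 8 → j < 8 → i ≠ j → ρ i ≠ ρ j :=
    fun i j hi hj hij e => hij (rho_inj h h2 ax hS hi hj e)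
  have hbd : ∀ i j : ℕ, i < 8 → j < 8 → i ≠ j → chevE8.bonds i j ≠ 0 → chevE8.bonds (ρ i) (ρ j) ≠ 0 :=
    fun i j hi hj hij hb e => hb ((bonds_iff h h2 ax hD hS hi hj hij).mp e)
  have hlt : ∀ i : ℕ, i < 8 → ρ i < 8 := fun i hi => hS.lt i hi
  have hp := perm_E8 ⟨ρ 0, hlt 0 (by decide)⟩
    ⟨ρ 2, hlt 2 (by decide)⟩
    (fun e => hinj 0 2 (by decide) (by decide) (by decide) (Fin.mk.inj e))
    (hbd 0 2 (by decide) (by decide) (by decide) (by decide +kernel))
    ⟨ρ 3, hlt 3 (by decide)⟩
    (fun e => hinj 0 3 (by decide) (by decide) (by decide) (Fin.mk.inj e))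
    (fun e => hinj 2 3 (by decide) (by decide) (by decide) (Fin.mk.inj e))
    (hbd 2 3 (by decide) (by decide) (by decide) (by decide +kernel))
    ⟨ρ 1, hlt 1 (by decide)⟩
    (fun e => hinj 0 1 (by decide) (by decide) (by decide) (Fin.mk.inj e))
    (fun e => hinj 2 1 (by decide) (by decide) (by decide) (Fin.mk.inj e))
    (fun e => hinj 3 1 (by decide) (by decide) (by decide) (Fin.mk.inj e))
    (hbd 3 1 (by decide) (by decide) (by decide) (by decide +kernel))
    ⟨ρ 4, hlt 4 (by decide)⟩
    (fun e => hinj 0 4 (by decide) (by decide) (by decide) (Fin.mk.inj e))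
    (fun e => hinj 2 4 (by decide) (by decide) (by decide) (Fin.mk.inj e))
    (fun e => hinj 3 4 (by decide) (by decide) (by decide) (Fin.mk.inj e))
    (fun e => hinj 1 4 (by decide) (by decide) (by decide) (Fin.mk.inj e))
    (hbd 3 4 (by decide) (by decide) (by decide) (by decide +kernel))
    ⟨ρ 5, hlt 5 (by decide)⟩
    (fun e => hinj 0 5 (by decide) (by decide) (by decide) (Fin.mk.inj e))
    (fun e => hinj 2 5 (by decide) (by decide) (by decide) (Fin.mk.inj e))
    (fun e => hinj 3 5 (by decide) (by decide) (by decide) (Fin.mk.inj e))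
    (fun e => hinj 1 5 (by decide) (by decide) (by decide) (Fin.mk.inj e))
    (fun e => hinj 4 5 (by decide) (by decide) (by decide) (Fin.mk.inj e))
    (hbd 4 5 (by decide) (by decide) (by decide) (by decide +kernel))
    ⟨ρ 6, hlt 6 (by decide)⟩
    (fun e => hinj 0 6 (by decide) (by decide) (by decide) (Fin.mk.inj e))
    (fun e => hinj 2 6 (by decide) (by decide) (by decide) (Fin.mk.inj e))
    (fun e => hinj 3 6 (by decide) (by decide) (by decide) (Fin.mk.inj e))
    (fun e => hinj 1 6 (by decide) (by decide) (by decide) (Fin.mk.inj e))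
    (fun e => hinj 4 6 (by decide) (by decide) (by decide) (Fin.mk.inj e))
    (fun e => hinj 5 6 (by decide) (by decide) (by decide) (Fin.mk.inj e))
    (hbd 5 6 (by decide) (by decide) (by decide) (by decide +kernel))
    ⟨ρ 7, hlt 7 (by decide)⟩
    (fun e => hinj 0 7 (by decide) (by decide) (by decide) (Fin.mk.inj e))
    (fun e => hinj 2 7 (by decide) (by decide) (by decide) (Fin.mk.inj e))
    (fun e => hinj 3 7 (by decide) (by decide) (by decide) (Fin.mk.inj e))
    (fun e => hinj 1 7 (by decide) (by decide) (by decide) (Fin.mk.inj e))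
    (fun e => hinj 4 7 (by decide) (by decide) (by decide) (Fin.mk.inj e))
    (fun e => hinj 5 7 (by decide) (by decide) (by decide) (Fin.mk.inj e))
    (fun e => hinj 6 7 (by decide) (by decide) (by decide) (Fin.mk.inj e))
    (hbd 6 7 (by decide) (by decide) (by decide) (by decide +kernel))
  obtain ⟨e0, e1, e2, e3, e4, e5, e6, e7⟩ := hp
  have e0' := congrArg Fin.val e0
  have e1' := congrArg Fin.val e1
  have e2' := congrArg Fin.val e2
  have e3' := congrArg Fin.val e3
  have e4' := congrArg Fin.val e4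
  have e5' := congrArg Fin.val e5
  have e6' := congrArg Fin.val e6
  have e7' := congrArg Fin.val e7
  simp only at e0' e1' e2' e3' e4' e5' e6' e7'
  intro j hj
  have hj' : j < 8 := hj
  interval_cases j <;> assumption

/-- The permutation of the nodes for `E₇`. -/
theorem rho_E7 (ax : Ax chevE7 F) {σ : ↥(chevE7.group F) ≃* ↥(chevE7.group F)} {ρ : ℕ → ℕ} {c : ℕ → Fˣ} {τ : ℕ → F ≃+* F}
    (hS : Shape ax σ ρ c τ) : ∀ j, j < chevE7.rank → ρ j = j := by
  have hD : IsData chevE7 := by simp [IsData]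
  have h := tab_of_mem hD
  have h2 := tab2_of_mem hD
  have hinj : ∀ i j : ℕ, i < 7 → j < 7 → i ≠ j → ρ i ≠ ρ j :=
    fun i j hi hj hij e => hij (rho_inj h h2 ax hS hi hj e)
  have hbd : ∀ i j : ℕ, i < 7 → j < 7 → i ≠ j → chevE7.bonds i j ≠ 0 → chevE7.bonds (ρ i) (ρ j) ≠ 0 :=
    fun i j hi hj hij hb e => hb ((bonds_iff h h2 ax hD hS hi hj hij).mp e)
  have hlt : ∀ i : ℕ, i < 7 → ρ i < 7 := fun i hi => hS.lt i hi
  have hp := perm_E7 ⟨ρ 0, hlt 0 (by decide)⟩
    ⟨ρ 2, hlt 2 (by decide)⟩
    (fun e => hinj 0 2 (by decide) (by decide) (by decide) (Fin.mk.inj e))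
    (hbd 0 2 (by decide) (by decide) (by decide) (by decide +kernel))
    ⟨ρ 3, hlt 3 (by decide)⟩
    (fun e => hinj 0 3 (by decide) (by decide) (by decide) (Fin.mk.inj e))
    (fun e => hinj 2 3 (by decide) (by decide) (by decide) (Fin.mk.inj e))
    (hbd 2 3 (by decide) (by decide) (by decide) (by decide +kernel))
    ⟨ρ 1, hlt 1 (by decide)⟩
    (fun e => hinj 0 1 (by decide) (by decide) (by decide) (Fin.mk.inj e))
    (fun e => hinj 2 1 (by decide) (by decide) (by decide) (Fin.mk.inj e))
    (fun e => hinj 3 1 (by decide) (by decide) (by decide) (Fin.mk.inj e))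
    (hbd 3 1 (by decide) (by decide) (by decide) (by decide +kernel))
    ⟨ρ 4, hlt 4 (by decide)⟩
    (fun e => hinj 0 4 (by decide) (by decide) (by decide) (Fin.mk.inj e))
    (fun e => hinj 2 4 (by decide) (by decide) (by decide) (Fin.mk.inj e))
    (fun e => hinj 3 4 (by decide) (by decide) (by decide) (Fin.mk.inj e))
    (fun e => hinj 1 4 (by decide) (by decide) (by decide) (Fin.mk.inj e))
    (hbd 3 4 (by decide) (by decide) (by decide) (by decide +kernel))
    ⟨ρ 5, hlt 5 (by decide)⟩
    (fun e => hinj 0 5 (by decide) (by decide) (by decide) (Fin.mk.inj e))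
    (fun e => hinj 2 5 (by decide) (by decide) (by decide) (Fin.mk.inj e))
    (fun e => hinj 3 5 (by decide) (by decide) (by decide) (Fin.mk.inj e))
    (fun e => hinj 1 5 (by decide) (by decide) (by decide) (Fin.mk.inj e))
    (fun e => hinj 4 5 (by decide) (by decide) (by decide) (Fin.mk.inj e))
    (hbd 4 5 (by decide) (by decide) (by decide) (by decide +kernel))
    ⟨ρ 6, hlt 6 (by decide)⟩
    (fun e => hinj 0 6 (by decide) (by decide) (by decide) (Fin.mk.inj e))
    (fun e => hinj 2 6 (by decide) (by decide) (by decide) (Fin.mk.inj e))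
    (fun e => hinj 3 6 (by decide) (by decide) (by decide) (Fin.mk.inj e))
    (fun e => hinj 1 6 (by decide) (by decide) (by decide) (Fin.mk.inj e))
    (fun e => hinj 4 6 (by decide) (by decide) (by decide) (Fin.mk.inj e))
    (fun e => hinj 5 6 (by decide) (by decide) (by decide) (Fin.mk.inj e))
    (hbd 5 6 (by decide) (by decide) (by decide) (by decide +kernel))
  obtain ⟨e0, e1, e2, e3, e4, e5, e6⟩ := hp
  have e0' := congrArg Fin.val e0
  have e1' := congrArg Fin.val e1
  have e2' := congrArg Fin.val e2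
  have e3' := congrArg Fin.val e3
  have e4' := congrArg Fin.val e4
  have e5' := congrArg Fin.val e5
  have e6' := congrArg Fin.val e6
  simp only at e0' e1' e2' e3' e4' e5' e6'
  intro j hj
  have hj' : j < 7 := hj
  interval_cases j <;> assumption

/-- The permutation of the nodes for `E₆`. -/
theorem rho_E6 (ax : Ax chevE6 F) {σ : ↥(chevE6.group F) ≃* ↥(chevE6.group F)} {ρ : ℕ → ℕ} {c : ℕ → Fˣ} {τ : ℕ → F ≃+* F}
    (hS : Shape ax σ ρ c τ) : (∀ j, j < chevE6.rank → ρ j = j) ∨ (∀ j, j < chevE6.rank → ρ j = [5, 1, 4, 3, 2, 0].getD j 0) := by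
  have hD : IsData chevE6 := by simp [IsData]
  have h := tab_of_mem hD
  have h2 := tab2_of_mem hD
  have hinj : ∀ i j : ℕ, i < 6 → j < 6 → i ≠ j → ρ i ≠ ρ j :=
    fun i j hi hj hij e => hij (rho_inj h h2 ax hS hi hj e)
  have hbd : ∀ i j : ℕ, i < 6 → j < 6 → i ≠ j → chevE6.bonds i j ≠ 0 → chevE6.bonds (ρ i) (ρ j) ≠ 0 :=
    fun i j hi hj hij hb e => hb ((bonds_iff h h2 ax hD hS hi hj hij).mp e)
  have hlt : ∀ i : ℕ, i < 6 → ρ i < 6 := fun i hi => hS.lt i hi
  have hp := perm_E6 ⟨ρ 0, hlt 0 (by decide)⟩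
    ⟨ρ 2, hlt 2 (by decide)⟩
    (fun e => hinj 0 2 (by decide) (by decide) (by decide) (Fin.mk.inj e))
    (hbd 0 2 (by decide) (by decide) (by decide) (by decide +kernel))
    ⟨ρ 3, hlt 3 (by decide)⟩
    (fun e => hinj 0 3 (by decide) (by decide) (by decide) (Fin.mk.inj e))
    (fun e => hinj 2 3 (by decide) (by decide) (by decide) (Fin.mk.inj e))
    (hbd 2 3 (by decide) (by decide) (by decide) (by decide +kernel))
    ⟨ρ 1, hlt 1 (by decide)⟩
    (fun e => hinj 0 1 (by decide) (by decide) (by decide) (Fin.mk.inj e))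
    (fun e => hinj 2 1 (by decide) (by decide) (by decide) (Fin.mk.inj e))
    (fun e => hinj 3 1 (by decide) (by decide) (by decide) (Fin.mk.inj e))
    (hbd 3 1 (by decide) (by decide) (by decide) (by decide +kernel))
    ⟨ρ 4, hlt 4 (by decide)⟩
    (fun e => hinj 0 4 (by decide) (by decide) (by decide) (Fin.mk.inj e))
    (fun e => hinj 2 4 (by decide) (by decide) (by decide) (Fin.mk.inj e))
    (fun e => hinj 3 4 (by decide) (by decide) (by decide) (Fin.mk.inj e))
    (fun e => hinj 1 4 (by decide) (by decide) (by decide) (Fin.mk.inj e))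
    (hbd 3 4 (by decide) (by decide) (by decide) (by decide +kernel))
    ⟨ρ 5, hlt 5 (by decide)⟩
    (fun e => hinj 0 5 (by decide) (by decide) (by decide) (Fin.mk.inj e))
    (fun e => hinj 2 5 (by decide) (by decide) (by decide) (Fin.mk.inj e))
    (fun e => hinj 3 5 (by decide) (by decide) (by decide) (Fin.mk.inj e))
    (fun e => hinj 1 5 (by decide) (by decide) (by decide) (Fin.mk.inj e))
    (fun e => hinj 4 5 (by decide) (by decide) (by decide) (Fin.mk.inj e))
    (hbd 4 5 (by decide) (by decide) (by decide) (by decide +kernel))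
  rcases hp with ⟨e0, e1, e2, e3, e4, e5⟩ | ⟨e0, e1, e2, e3, e4, e5⟩
  · left
    have e0' := congrArg Fin.val e0
    have e1' := congrArg Fin.val e1
    have e2' := congrArg Fin.val e2
    have e3' := congrArg Fin.val e3
    have e4' := congrArg Fin.val e4
    have e5' := congrArg Fin.val e5
    simp only at e0' e1' e2' e3' e4' e5'
    intro j hj
    have hj' : j < 6 := hj
    interval_cases j <;> assumption
  · right
    have e0' := congrArg Fin.val e0
    have e1' := congrArg Fin.val e1
    have e2' := congrArg Fin.val e2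
    have e3' := congrArg Fin.val e3
    have e4' := congrArg Fin.val e4
    have e5' := congrArg Fin.val e5
    simp only at e0' e1' e2' e3' e4' e5'
    intro j hj
    have hj' : j < 6 := hj
    interval_cases j <;> simp [e0', e1', e2', e3', e4', e5']

/-- The data for a type with no symmetry of the diagram. -/
noncomputable def dataUnit {D : ChevalleyDatum} (ax : Ax D F) (hρ : ∀ (σ : ↥(D.group F) ≃* ↥(D.group F)) (ρ : ℕ → ℕ) (c : ℕ → Fˣ) (τ : ℕ → F ≃+* F),
    Shape ax σ ρ c τ → ∀ j, j < D.rank → ρ j = j) : CountData ax Unit where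
  rhoG := fun _ j => j
  graph := fun _ => MulEquiv.refl _
  spec := fun _ => graphSpec_refl ax (fun _ _ => rfl)
  lt := fun _ _ hj => hj
  inj := fun _ _ _ => rfl
  surj := fun σ ρ c τ hS => ⟨(), hρ σ ρ c τ hS⟩

/-- The order in terms of the diagonal group. -/
theorem card_out_final {D : ChevalleyDatum} [Fintype F] (hD : IsData D) (ax : Ax D F) {Γ : Type} [Finite Γ] (T : CountData ax Γ) {d : ℕ}
    (hd : d * Nat.card (D.diagonalSubgroup F) = (Fintype.card F - 1) ^ D.rank) :
    Nat.card (Out ↥(D.group F)) = Nat.card Γ * (Nat.card (F ≃+* F) * d) := by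
  classical
  have e := card_out hD ax T
  have hcard : Nat.card Fˣ = Fintype.card F - 1 := by
    rw [Nat.card_eq_fintype_card, Fintype.card_units]
  rw [hcard, ← hd] at e
  have hpos : 0 < Nat.card (D.diagonalSubgroup F) := Nat.card_pos
  apply Nat.eq_of_mul_eq_mul_right hpos
  rw [e]
  ring

/-- The number of field automorphisms. -/
lemma card_aut {p f : ℕ} [Fintype F] [Fact p.Prime] (hF : Fintype.card F = p ^ f) : Nat.card (F ≃+* F) = f := by
  apply Cfsg.Agent.Lib.KS71.PSLAutGroup.card_ringEquiv hF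
  by_contra hf
  have hf0 : f = 0 := by omega
  rw [hf0, pow_zero] at hF
  have := Fintype.one_lt_card (α := F)
  omega

/-- `E₈`. -/
theorem card_out_E8 [Fintype F] (p f : ℕ) [Fact p.Prime] (hF : Fintype.card F = p ^ f) :
    Nat.card (Out ↥(chevE8.group F)) = f := by
  have hD : IsData chevE8 := by simp [IsData]
  have ax := Cfsg.Agent.Lib.Lie.AxOf.ax_of_mem (F := F) hD
  have hd := Diag.card_diagonal_final (F := F) rfl (chevE8, 1) (by simp) ax
  simp only at hd
  rw [card_out_final hD ax (dataUnit ax (fun σ ρ c τ hS => rho_E8 ax hS)) hd, Nat.card_unique, card_aut hF]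
  simp

/-- `E₇`. -/
theorem card_out_E7 [Fintype F] (p f : ℕ) [Fact p.Prime] (hF : Fintype.card F = p ^ f) :
    Nat.card (Out ↥(chevE7.group F)) = Nat.gcd 2 (p ^ f - 1) * f := by
  have hD : IsData chevE7 := by simp [IsData]
  have ax := Cfsg.Agent.Lib.Lie.AxOf.ax_of_mem (F := F) hD
  have hd := Diag.card_diagonal_final (F := F) rfl (chevE7, Nat.gcd 2 (Fintype.card F - 1)) (by simp) ax
  simp only at hd
  rw [card_out_final hD ax (dataUnit ax (fun σ ρ c τ hS => rho_E7 ax hS)) hd, Nat.card_unique, card_aut hF, hF]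
  ring

/-- The data for `E₆`. -/
noncomputable def dataE6 (ax : Ax chevE6 F) : CountData ax Bool :=
  have hD : IsData chevE6 := by simp [IsData]
  have hsl : ∀ i, i < chevE6.rank → chevE6.isLong (chevE6.simple i) = false := by
    intro i hi
    have := allBelow_spec slOK_E6 i hi
    simp only [Bool.and_eq_true, Bool.not_eq_true'] at this
    exact this.1
  have hex : ∃ g, GraphSpec ax (fun j => [5, 1, 4, 3, 2, 0].getD j 0) g :=
    graphSpec_of_matrix (L := [5, 1, 4, 3, 2, 0]) ax hsl (by
      intro i hi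
      have hi' : i < 6 := hi
      interval_cases i <;> decide) (Cfsg.Agent.S1081.result (F := F) (chevE6, [5, 1, 4, 3, 2, 0]) (by simp))
  { rhoG := fun b j => if b then [5, 1, 4, 3, 2, 0].getD j 0 else j
    graph := fun b => if b then hex.choose else MulEquiv.refl _
    spec := by
      intro b
      cases b
      · exact graphSpec_refl ax (fun _ _ => rfl)
      · exact hex.choose_spec
    lt := by
      intro b j hj
      have hj' : j < 6 := hj
      cases b
      · exact hj
      · show [5, 1, 4, 3, 2, 0].getD j 0 < 6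
        interval_cases j <;> decide
    inj := by
      intro b b' e
      have := e 0 (by decide)
      cases b <;> cases b' <;> first | rfl | (exact absurd this (by decide))
    surj := by
      intro σ ρ c τ hS
      rcases rho_E6 ax hS with h1 | h1
      · exact ⟨false, h1⟩
      · exact ⟨true, h1⟩ }

/-- `E₆`. -/
theorem card_out_E6 [Fintype F] (p f : ℕ) [Fact p.Prime] (hF : Fintype.card F = p ^ f) :
    Nat.card (Out ↥(chevE6.group F)) = 2 * Nat.gcd 3 (p ^ f - 1) * f := by
  have hD : IsData chevE6 := by simp [IsData]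
  have ax := Cfsg.Agent.Lib.Lie.AxOf.ax_of_mem (F := F) hD
  have hd := Diag.card_diagonal_final (F := F) rfl (chevE6, Nat.gcd 3 (Fintype.card F - 1)) (by simp) ax
  simp only at hd
  rw [card_out_final hD ax (dataE6 ax) hd, card_aut hF, hF, Nat.card_eq_fintype_card, Fintype.card_bool]
  ring

end Cfsg.Agent.Lib.Steinberg.AutE
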