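import Cfsg.Agent.Lib.Steinberg.AutExcTab
import Cfsg.Agent.Lib.Steinberg.AutE
import Cfsg.Agent.Lib.Steinberg.Universal

/-!
The exceptional graph automorphisms of `B₂`, `F₄` (characteristic 2) and `G₂` (characteristic 3) over a finite field:
`x_r(t) ↦ x_{ρ r}(t ^ λ r)`.
-/

set_option autoImplicit false
set_option linter.unusedSectionVars false
set_option linter.unusedVariables false

namespace Cfsg.Agent.Lib.Steinberg.AutExc

open scoped MatrixGroups Matrix
open Cfsg _root_.Cfsg.Lie ChevalleyDatum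
open Cfsg.Agent.Lib.Chev
open Tables Tables2 Tables3 Raise Basic AxBasic Torus Products Products2 Mono1 Mono2 Mono3
open _root_.Cfsg.Agent.Lib.Steinberg.Rel
open _root_.Cfsg.Agent.Lib.Steinberg.AutNorm _root_.Cfsg.Agent.Lib.Steinberg.AutRoot
open _root_.Cfsg.Agent.Lib.Steinberg.AutExist _root_.Cfsg.Agent.Lib.Steinberg.AutMain
open _root_.Cfsg.Agent.Lib.Steinberg.AutExcTab
open Cfsg.Agent.Lib.Lie.Facts (IsData)

universe u

variable {D : ChevalleyDatum} {F : Type u} [Field F]

/-- A system of relations in the group gives an automorphism of the group, over a finite field. -/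
theorem exists_aut_of_stRel [Finite F] (hD : IsData D) (ax : Ax D F) {y : ℕ → F → ↥(D.group F)} (hy : StRel D y)
    (hgen1 : ∀ k, k < D.rank → ∀ t, ∃ r t', r < D.nroots ∧ y r t' = xg ax (D.simple k) t)
    (hgen2 : ∀ k, k < D.rank → ∀ t, ∃ r t', r < D.nroots ∧ y r t' = xg ax (D.neg (D.simple k)) t) :
    ∃ α : ↥(D.group F) ≃* ↥(D.group F), ∀ r, r < D.nroots → ∀ t, α (xg ax r t) = y r t := by
  have h := tab_of_mem hD
  have h2 := tab2_of_mem hD
  set φ := Universal.homOf h hy with hφ
  have hgenφ : ∀ r t, r < D.nroots → φ (D.scGen F r t) = y r t := fun r t hr => Universal.homOf_gen h hy hr t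
  have hsurj : Function.Surjective φ := by
    have hle : Subgroup.closure (simpleSet ax) ≤ (φ.range).map (D.group F).subtype := by
      rw [Subgroup.closure_le]
      rintro g ⟨i, t, hi, rfl | rfl⟩
      · obtain ⟨r, t', hr, e⟩ := hgen1 i hi t
        exact ⟨xg ax _ t, ⟨_, (hgenφ r t' hr).trans e⟩, rfl⟩
      · obtain ⟨r, t', hr, e⟩ := hgen2 i hi t
        exact ⟨xg ax _ t, ⟨_, (hgenφ r t' hr).trans e⟩, rfl⟩
    rw [closure_simple h h2 ax] at hle
    intro g
    obtain ⟨g', hg', e⟩ := hle g.2
    have : g' = g := Subtype.ext e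
    rw [← this]
    exact hg'
  have hker : (Center.thAB hD F).ker ≤ φ.ker := by
    rw [Center.ker_thAB_eq hD]
    intro z hz
    rw [MonoidHom.mem_ker]
    have : φ z ∈ Subgroup.center ↥(D.group F) := by
      rw [Subgroup.mem_center_iff]
      intro g
      obtain ⟨g', rfl⟩ := hsurj g
      rw [← map_mul, ← map_mul, (Subgroup.mem_center_iff.mp hz g')]
    rwa [Center.center_group hD, Subgroup.mem_bot] at this
  let f : ↥(D.group F) →* ↥(D.group F) := (Center.thAB hD F).liftOfSurjective (Center.thAB_surj hD) ⟨φ, hker⟩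
  have hf : ∀ g, f (Center.thAB hD F g) = φ g := fun g =>
    (Center.thAB hD F).liftOfRightInverse_comp_apply _ _ ⟨φ, hker⟩ g
  have hxg : ∀ r t, Center.thAB hD F (D.scGen F r t) = xg ax r t := by
    intro r t
    apply Subtype.ext
    exact Present.thetaAB_gen _ r t
  have hfsurj : Function.Surjective f := by
    intro g
    obtain ⟨g', rfl⟩ := hsurj g
    exact ⟨_, hf g'⟩
  have hfbij : Function.Bijective f := Finite.injective_iff_bijective.mp (Finite.injective_iff_surjective.mpr hfsurj)
  refine ⟨MulEquiv.ofBijective f hfbij, fun r hr t => ?_⟩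
  show f (xg ax r t) = y r t
  rw [← hxg, hf, hgenφ r t hr]

section rel

variable (ax : Ax D F) (h : Tab D) (h2 : Tab2 D) {p : ℕ} [Fact p.Prime] [CharP F p] {ρ lam : ℕ → ℕ}

/-- The element attached to a term. -/
def ev (t u : F) (c : ℕ × ℤ × ℕ × ℕ) : ℕ × F := (c.1, (c.2.1 : F) * t ^ c.2.2.1 * u ^ c.2.2.2)

lemma intCast_mod (a : ℤ) : (((a % (p : ℤ)) : ℤ) : F) = (a : F) := by
  have e : (a % (p : ℤ)) = a - (p : ℤ) * (a / (p : ℤ)) := by
    have := Int.emod_add_mul_ediv a (p : ℤ)
    omega
  rw [e]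
  push_cast
  rw [CharP.cast_eq_zero F p]
  ring

lemma intCast_eq_zero_of_mod {a : ℤ} (e : a % (p : ℤ) = 0) : (a : F) = 0 := by
  rw [← intCast_mod (F := F) (p := p) a, e]
  simp

lemma wordG_nrm (t u : F) (L : List (ℕ × ℤ × ℕ × ℕ)) :
    wordG ax ((nrm (p : ℤ) L).map (ev t u)) = wordG ax (L.map (ev t u)) := by
  induction L with
  | nil => rfl
  | cons c L ih =>
    simp only [nrm, List.map_cons, List.filter_cons] at ih ⊢
    by_cases hc : c.2.1 % (p : ℤ) = 0
    · have h0 := intCast_eq_zero_of_mod (F := F) hc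
      simp only [hc, bne_self_eq_false, Bool.false_eq_true, if_false]
      rw [ih, wordG_cons]
      simp [ev, h0, xG_zero]
    · have : (c.2.1 % (p : ℤ) != 0) = true := by simpa using hc
      simp only [this, if_true, List.map_cons, wordG_cons]
      rw [ih]
      simp [ev, intCast_mod]

/-- Root elements commuting modulo `p`. -/
lemma xG_comm_of_terms {k l : ℕ} (hk : k < D.nroots) (hl : l < D.nroots) (hne : l ≠ k) (hneg : l ≠ D.neg k)
    (hall : (D.commTerms k l).all fun c => c.2.1 % (p : ℤ) == 0) (a b : F) :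
    xG ax l b * xG ax k a = xG ax k a * xG ax l b := by
  have e := xG_comm ax hk hl hne hneg a b
  have hw : wordG ax (D.commWord F k l a b) = 1 := by
    rw [commWord]
    simp only [List.all_eq_true, beq_iff_eq] at hall
    generalize D.commTerms k l = L at hall
    induction L with
    | nil => rfl
    | cons c L ih =>
      rw [List.map_cons, wordG_cons]
      have h0 := intCast_eq_zero_of_mod (F := F) (hall c (by simp))
      simp only [h0, zero_mul, xG_zero, one_mul]
      exact ih (fun x hx => hall x (by simp [hx]))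
  rw [hw, mul_one] at e
  exact e

/-- Commuting lists. -/
lemma wordG_perm {A B : List (ℕ × ℤ × ℕ × ℕ)} (hperm : A.isPerm B = true) (hc : comms D (p : ℤ) A = true)
    (hlt : ∀ c ∈ A, c.1 < D.nroots) (t u : F) :
    wordG ax (A.map (ev t u)) = wordG ax (B.map (ev t u)) := by
  have hP : A.Perm B := List.isPerm_iff.mp hperm
  unfold wordG
  apply List.Perm.prod_eq'
  · exact (hP.map _).map _
  · rw [List.pairwise_map, List.pairwise_map]
    apply List.pairwise_of_forall_mem_list
    intro x hx y hy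
    simp only [comms, List.all_eq_true, Bool.or_eq_true, beq_iff_eq, Bool.and_eq_true, decide_eq_true_eq] at hc
    rcases hc x hx y hy with e | ⟨e1, e2⟩
    · show Commute _ _
      simp only [ev]
      rw [← e]
      show xG ax x.1 _ * xG ax x.1 _ = xG ax x.1 _ * xG ax x.1 _
      rw [xG_add, xG_add, add_comm]
    · by_cases he : y.1 = x.1
      · show Commute _ _
        simp only [ev]
        rw [he]
        show xG ax x.1 _ * xG ax x.1 _ = xG ax x.1 _ * xG ax x.1 _
        rw [xG_add, xG_add, add_comm]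
      · have := xG_comm_of_terms (p := p) ax (hlt x hx) (hlt y hy) he e1 (by simpa using e2)
        exact (this _ _).symm

end rel

section main

variable (ax : Ax D F) {p : ℕ} [Fact p.Prime] [CharP F p] {ρ lam : ℕ → ℕ}

/-- The image of a root element. -/
noncomputable def yE (ax : Ax D F) (ρ lam : ℕ → ℕ) (r : ℕ) (t : F) : ↥(D.group F) := xg ax (ρ r) (t ^ lam r)

lemma intCast_pow {l : ℕ} (hl : l = 1 ∨ l = p) (C : ℤ) : (C : F) ^ l = (C : F) := by
  rcases hl with rfl | rfl
  · simp
  · have := map_intCast (frobenius F l) C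
    rwa [frobenius_def] at this

lemma add_pow_lam {l : ℕ} (hl : l = 1 ∨ l = p) (a b : F) : (a + b) ^ l = a ^ l + b ^ l := by
  rcases hl with rfl | rfl
  · simp
  · exact add_pow_char a b l

omit [Fact p.Prime] [CharP F p] in
lemma word_L (r s : ℕ) (t u : F) :
    wordG ax (D.commWord F (ρ r) (ρ s) (t ^ lam r) (u ^ lam s)) = wordG ax ((preL D ρ lam r s).map (ev t u)) := by
  rw [commWord, preL, List.map_map]
  congr 1
  apply List.map_congr_left
  intro c _
  simp only [ev, Function.comp]
  congr 1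
  push_cast
  rw [neg_pow (t ^ lam r), pow_mul, pow_mul, pow_right_comm t, pow_right_comm u]
  ring

lemma word_R_aux (hlam : ∀ r, r < D.nroots → lam r = 1 ∨ lam r = p) (t u : F) (L : List (ℕ × ℤ × ℕ × ℕ))
    (hL : ∀ c ∈ L, c.1 < D.nroots) :
    ((wY (yE ax ρ lam) (L.map fun c => (c.1, (c.2.1 : F) * (-t) ^ c.2.2.1 * u ^ c.2.2.2)) : ↥(D.group F)) : GL D.Idx F) =
      wordG ax ((L.map fun c => (ρ c.1, c.2.1 * (-1) ^ (c.2.2.1 * lam c.1), c.2.2.1 * lam c.1, c.2.2.2 * lam c.1)).map (ev t u)) := by
  induction L with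
  | nil => rfl
  | cons c L ih =>
    simp only [List.map_cons, wY_cons, wordG_cons, Subgroup.coe_mul]
    rw [ih (fun x hx => hL x (by simp [hx]))]
    congr 1
    have hl := hlam c.1 (hL c (by simp))
    show xG ax (ρ c.1) (((c.2.1 : F) * (-t) ^ c.2.2.1 * u ^ c.2.2.2) ^ lam c.1) = xG ax (ρ c.1) _
    congr 1
    simp only [ev]
    rw [mul_pow, mul_pow, intCast_pow hl, ← pow_mul, ← pow_mul, neg_pow t]
    push_cast
    ring

theorem stRel_yE {L : List ℕ} (hbasic : basicOK D ρ lam p L = true) (hpairs : allPairs D ρ lam (p : ℤ) = true) (h : Tab D) (h2 : Tab2 D) :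
    StRel D (yE ax ρ lam) := by
  simp only [basicOK, Bool.and_eq_true, Bool.or_eq_true, beq_iff_eq, decide_eq_true_eq] at hbasic
  have hb1 := allBelow_spec hbasic.1
  have hlt : ∀ r, r < D.nroots → ρ r < D.nroots := fun r hr => by
    have := hb1 r hr
    simp only [Bool.and_eq_true, Bool.or_eq_true, beq_iff_eq, decide_eq_true_eq] at this
    exact this.1.1.1
  have hneg : ∀ r, r < D.nroots → ρ (D.neg r) = D.neg (ρ r) := fun r hr => by
    have := hb1 r hr
    simp only [Bool.and_eq_true, Bool.or_eq_true, beq_iff_eq, decide_eq_true_eq] at this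
    exact this.1.1.2
  have hlam : ∀ r, r < D.nroots → lam r = 1 ∨ lam r = p := fun r hr => by
    have := hb1 r hr
    simp only [Bool.and_eq_true, Bool.or_eq_true, beq_iff_eq, decide_eq_true_eq] at this
    exact this.1.2
  have hinj : ∀ r s, r < D.nroots → s < D.nroots → ρ r = ρ s → r = s := fun r s hr hs e => by
    have := hb1 r hr
    simp only [Bool.and_eq_true, Bool.or_eq_true, beq_iff_eq, decide_eq_true_eq] at this
    have h5 := allBelow_spec this.2 s hs
    simp only [Bool.or_eq_true, beq_iff_eq, decide_eq_true_eq] at h5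
    rcases h5 with h5 | h5
    · exact h5
    · exact absurd e h5
  refine ⟨fun r hr a b => ?_, fun r s hr hs h3 h4 t u => ?_⟩
  · simp only [yE]
    rw [xg_add, add_pow_lam (hlam r hr)]
  · have hR := hlt r hr
    have hS := hlt s hs
    have hne : ρ s ≠ ρ r := fun e => h3 (hinj _ _ hs hr e)
    have hne' : ρ s ≠ D.neg (ρ r) := by
      rw [← hneg r hr]
      exact fun e => h4 (hinj _ _ hs (h.neg_lt r hr) e)
    have hp := allBelow_spec (allBelow_spec hpairs r hr) s hs
    simp only [Bool.or_eq_true, beq_iff_eq, h3, h4, false_or, pairOK, Bool.and_eq_true] at hp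
    obtain ⟨hp1, hp2⟩ := hp
    apply Subtype.ext
    simp only [Subgroup.coe_mul, yE, xg_coe]
    rw [xG_comm ax hR hS hne hne' (t ^ lam r) (u ^ lam s), word_L]
    congr 1
    rw [commWord]
    have hlt2 : ∀ c ∈ D.commTerms r s, c.1 < D.nroots := fun c hc => (commTerms_spec h hr hs hc).1
    rw [word_R_aux ax hlam t u _ hlt2, ← wordG_nrm (p := p) ax t u (preL D ρ lam r s)]
    have e3 := wordG_nrm (p := p) ax t u (preR D ρ lam r s)
    rw [preR] at e3
    rw [← e3, ← preR]
    refine wordG_perm (p := p) ax hp1 hp2 ?_ t u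
    intro c hc
    simp only [nrm, List.mem_filter, List.mem_map, preL] at hc
    obtain ⟨⟨c1, ⟨c2, hc2, rfl⟩, rfl⟩, -⟩ := hc
    exact (commTerms_spec h hR hS hc2).1

end main

section final

/-- The graph automorphism from the tables. -/
theorem exists_graph_of_tables [Finite F] (hD : IsData D) (ax : Ax D F) {p : ℕ} [Fact p.Prime] [CharP F p] {ρ lam : ℕ → ℕ}
    {L : List ℕ} (hbasic : basicOK D ρ lam p L = true) (hpairs : allPairs D ρ lam (p : ℤ) = true) :
    ∃ g, GraphSpec ax (fun j => L.getD j 0) g := by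
  have h := tab_of_mem hD
  have h2 := tab2_of_mem hD
  have hy := stRel_yE (p := p) ax hbasic hpairs h h2
  have hchar : ringChar F = p := ringChar.eq F p
  simp only [basicOK, Bool.and_eq_true] at hbasic
  have hb2 := allBelow_spec hbasic.2
  have hj : ∀ j, j < D.rank → L.getD j 0 < D.rank ∧ ρ (D.simple j) = D.simple (L.getD j 0) ∧
      lam (D.simple j) = D.graphExp p j (L.getD j 0) ∧ lam (D.neg (D.simple j)) = D.graphExp p j (L.getD j 0) := by
    intro j hj
    have := hb2 j hj
    simp only [Bool.and_eq_true, decide_eq_true_eq] at this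
    exact ⟨this.1.1.1.1, this.1.1.1.2, this.1.1.2, this.1.2⟩
  have hrn : ∀ j, j < D.rank → ρ (D.neg (D.simple j)) = D.neg (D.simple (L.getD j 0)) := by
    intro j hj'
    have h5 := allBelow_spec hbasic.1 (D.simple j) (h.simple_lt j hj')
    simp only [Bool.and_eq_true, Bool.or_eq_true, beq_iff_eq, decide_eq_true_eq] at h5
    rw [h5.1.1.2, (hj j hj').2.1]
  have hinj : Function.Injective (fun j : Fin D.rank => (⟨L.getD j 0, (hj j j.2).1⟩ : Fin D.rank)) := by
    intro a b e
    by_contra hne
    have h5 := hb2 a a.2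
    simp only [Bool.and_eq_true] at h5
    have h6 := allBelow_spec h5.2 b b.2
    simp only [Bool.or_eq_true, beq_iff_eq, decide_eq_true_eq] at h6
    rcases h6 with h6 | h6
    · exact hne (Fin.ext h6)
    · exact h6 (Fin.mk.inj e)
  have hsurj := Finite.injective_iff_surjective.mp hinj
  have hpow : ∀ j : ℕ, ∃ φ : F ≃+* F, ∀ t, φ t = t ^ D.graphExp p j (L.getD j 0) := by
    intro j
    apply AutCount.exists_powEquiv
    rw [hchar]
    exact AutCount.graphExp_cases _ _ _
  obtain ⟨α, hα⟩ := exists_aut_of_stRel hD ax hy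
    (by
      intro k hk t
      obtain ⟨j, hjk⟩ := hsurj ⟨k, hk⟩
      have e : L.getD j 0 = k := Fin.mk.inj hjk
      obtain ⟨φ, hφ⟩ := hpow j
      refine ⟨D.simple j, φ.symm t, h.simple_lt j j.2, ?_⟩
      simp only [yE]
      rw [(hj j j.2).2.1, (hj j j.2).2.2.1, ← hφ, RingEquiv.apply_symm_apply, e])
    (by
      intro k hk t
      obtain ⟨j, hjk⟩ := hsurj ⟨k, hk⟩
      have e : L.getD j 0 = k := Fin.mk.inj hjk
      obtain ⟨φ, hφ⟩ := hpow j
      refine ⟨D.neg (D.simple j), φ.symm t, h.neg_lt _ (h.simple_lt j j.2), ?_⟩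
      simp only [yE]
      rw [hrn j j.2, (hj j j.2).2.2.2, ← hφ, RingEquiv.apply_symm_apply, e])
  refine ⟨α, fun j hj' t => ?_⟩
  simp only
  rw [hchar, hα _ (h.simple_lt j hj') t, hα _ (h.neg_lt _ (h.simple_lt j hj')) t]
  simp only [yE]
  rw [(hj j hj').2.1, (hj j hj').2.2.1, hrn j hj', (hj j hj').2.2.2]
  exact ⟨rfl, rfl⟩

/-- The exceptional graph automorphisms exist over a finite field. -/
theorem exc_of_finite [Finite F] (hD : IsData D) : Exc D F := by
  intro ax L e hmem hc
  simp only [List.mem_cons, List.not_mem_nil, or_false, Prod.mk.injEq] at hmem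
  rcases hmem with ⟨rfl, rfl, rfl⟩ | ⟨rfl, rfl, rfl⟩ | ⟨rfl, rfl, rfl⟩
  · have : Fact (Nat.Prime 3) := ⟨Nat.prime_three⟩
    have : CharP F 3 := by
      rw [← hc]
      exact ringChar.charP F
    exact exists_graph_of_tables hD ax (p := 3) basic_G2 (by exact_mod_cast pairs_G2)
  · have : Fact (Nat.Prime 2) := ⟨Nat.prime_two⟩
    have : CharP F 2 := by
      rw [← hc]
      exact ringChar.charP F
    exact exists_graph_of_tables hD ax (p := 2) basic_B2 (by exact_mod_cast pairs_B2)
  · have : Fact (Nat.Prime 2) := ⟨Nat.prime_two⟩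
    have : CharP F 2 := by
      rw [← hc]
      exact ringChar.charP F
    exact exists_graph_of_tables hD ax (p := 2) basic_F4 (by exact_mod_cast pairs_F4)

end final

end Cfsg.Agent.Lib.Steinberg.AutExc
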