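import Cfsg.Agent.Lib.Steinberg.AutExc

/-!
The order of the outer automorphism groups of `G₂` and `F₄`.
-/

set_option autoImplicit false
set_option linter.unusedSectionVars false
set_option linter.unusedVariables false

namespace Cfsg.Agent.Lib.Steinberg.AutOut2

open scoped MatrixGroups Matrix
open Cfsg _root_.Cfsg.Lie ChevalleyDatum
open Cfsg.Agent.Lib.Chev
open Tables Tables2 Tables3 Raise Basic AxBasic Torus Products Products2 Mono1 Mono2 Mono3 Order1 Parab Bn Unipotent
open _root_.Cfsg.Agent.Lib.Steinberg.AutNorm _root_.Cfsg.Agent.Lib.Steinberg.AutRoot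
open _root_.Cfsg.Agent.Lib.Steinberg.AutShape _root_.Cfsg.Agent.Lib.Steinberg.AutAdj
open _root_.Cfsg.Agent.Lib.Steinberg.AutExist _root_.Cfsg.Agent.Lib.Steinberg.AutMain
open _root_.Cfsg.Agent.Lib.Steinberg.AutTilde _root_.Cfsg.Agent.Lib.Steinberg.AutPres _root_.Cfsg.Agent.Lib.Steinberg.AutCount
open _root_.Cfsg.Agent.Lib.Steinberg.AutTab2 _root_.Cfsg.Agent.Lib.Steinberg.AutTab3 _root_.Cfsg.Agent.Lib.Steinberg.AutE
open _root_.Cfsg.Agent.Lib.Steinberg.AutExc
open Cfsg.Agent.Lib.Lie.Facts (IsData)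

universe u

variable {F : Type u} [Field F]

/-- The permutations for `G₂`. -/
theorem rho_G2 (ax : Ax chevG2 F) {σ : ↥(chevG2.group F) ≃* ↥(chevG2.group F)} {ρ : ℕ → ℕ} {c : ℕ → Fˣ} {τ : ℕ → F ≃+* F}
    (hS : Shape ax σ ρ c τ) : (∀ j, j < chevG2.rank → ρ j = j) ∨
      ((∀ j, j < chevG2.rank → ρ j = [1, 0].getD j 0) ∧ ringChar F = 3) := by
  have hD : IsData chevG2 := by simp [IsData]
  have h := tab_of_mem hD
  have h2 := tab2_of_mem hD
  have h00 : ρ 0 < 2 := hS.lt 0 (by decide)
  have h01 : ρ 1 < 2 := hS.lt 1 (by decide)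
  have hne : ρ 0 ≠ ρ 1 := fun e => absurd (rho_inj h h2 ax hS (by decide) (by decide) e) (by decide)
  obtain ⟨hc1, hc2⟩ := cartan_G2
  have hcases : (ρ 0 = 0 ∧ ρ 1 = 1) ∨ (ρ 0 = 1 ∧ ρ 1 = 0) := by omega
  rcases hcases with ⟨e0, e1⟩ | ⟨e0, e1⟩
  · left
    intro j hj
    have hj' : j < 2 := hj
    interval_cases j <;> assumption
  · right
    have e3 := tau_pow_of h h2 ax hD hS (i := 0) (j := 1) (by decide) (by decide) 3 (by decide) (by simpa using hc1)
      (by rw [e0, e1]; exact hc2)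
    rcases char_of_cube e3 with hc | ⟨hc, hb⟩
    · refine ⟨fun j hj => ?_, hc⟩
      have hj' : j < 2 := hj
      interval_cases j <;> simpa
    · exact (no_swap_g2 ax h hS e0 e1 hc hb).elim

/-- The permutations for `F₄`. -/
theorem rho_F4 (ax : Ax chevF4 F) {σ : ↥(chevF4.group F) ≃* ↥(chevF4.group F)} {ρ : ℕ → ℕ} {c : ℕ → Fˣ} {τ : ℕ → F ≃+* F}
    (hS : Shape ax σ ρ c τ) : (∀ j, j < chevF4.rank → ρ j = j) ∨
      ((∀ j, j < chevF4.rank → ρ j = [3, 2, 1, 0].getD j 0) ∧ ringChar F = 2) := by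
  have hD : IsData chevF4 := by simp [IsData]
  have h := tab_of_mem hD
  have h2 := tab2_of_mem hD
  have hinj : ∀ i j : ℕ, i < 4 → j < 4 → i ≠ j → ρ i ≠ ρ j :=
    fun i j hi hj hij e => hij (rho_inj h h2 ax hS hi hj e)
  have hbd : ∀ i j : ℕ, i < 4 → j < 4 → i ≠ j → chevF4.bonds i j ≠ 0 → chevF4.bonds (ρ i) (ρ j) ≠ 0 :=
    fun i j hi hj hij hb e => hb ((bonds_iff h h2 ax hD hS hi hj hij).mp e)
  have hlt : ∀ i : ℕ, i < 4 → ρ i < 4 := fun i hi => hS.lt i hi
  have hp := perm_F4 ⟨ρ 0, hlt 0 (by decide)⟩ ⟨ρ 1, hlt 1 (by decide)⟩ ⟨ρ 2, hlt 2 (by decide)⟩ ⟨ρ 3, hlt 3 (by decide)⟩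
    (fun e => hinj 0 1 (by decide) (by decide) (by decide) (Fin.mk.inj e))
    (fun e => hinj 0 2 (by decide) (by decide) (by decide) (Fin.mk.inj e))
    (fun e => hinj 0 3 (by decide) (by decide) (by decide) (Fin.mk.inj e))
    (fun e => hinj 1 2 (by decide) (by decide) (by decide) (Fin.mk.inj e))
    (fun e => hinj 1 3 (by decide) (by decide) (by decide) (Fin.mk.inj e))
    (fun e => hinj 2 3 (by decide) (by decide) (by decide) (Fin.mk.inj e))
    (hbd 0 1 (by decide) (by decide) (by decide) (by decide +kernel))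
    (hbd 1 2 (by decide) (by decide) (by decide) (by decide +kernel))
    (hbd 2 3 (by decide) (by decide) (by decide) (by decide +kernel))
  obtain ⟨hc01, hc10, hc12, hc21, hc23, hc32⟩ := cartan_F4
  rcases hp with ⟨e0, e1, e2, e3⟩ | ⟨e0, e1, e2, e3⟩
  · left
    have e0' : ρ 0 = 0 := congrArg Fin.val e0
    have e1' : ρ 1 = 1 := congrArg Fin.val e1
    have e2' : ρ 2 = 2 := congrArg Fin.val e2
    have e3' : ρ 3 = 3 := congrArg Fin.val e3
    intro j hj
    have hj' : j < 4 := hj
    interval_cases j <;> assumption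
  · right
    have e0' : ρ 0 = 3 := congrArg Fin.val e0
    have e1' : ρ 1 = 2 := congrArg Fin.val e1
    have e2' : ρ 2 = 1 := congrArg Fin.val e2
    have e3' : ρ 3 = 0 := congrArg Fin.val e3
    have t3 := tau_pow_of h h2 ax hD hS (i := 1) (j := 2) (by decide) (by decide) 2 (by decide) (by simpa using hc12)
      (by rw [e1', e2']; exact hc21)
    refine ⟨fun j hj => ?_, char_of_sq t3⟩
    have hj' : j < 4 := hj
    interval_cases j <;> simpa

/-- The data for a type with one nontrivial symmetry. -/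
noncomputable def dataBool {D : ChevalleyDatum} (ax : Ax D F) (L : List ℕ) (hg : ∃ g, GraphSpec ax (fun j => L.getD j 0) g)
    (hL : ∀ j, j < D.rank → L.getD j 0 < D.rank) (hne : ∃ j, j < D.rank ∧ L.getD j 0 ≠ j)
    (hsurj : ∀ (σ : ↥(D.group F) ≃* ↥(D.group F)) (ρ : ℕ → ℕ) (c : ℕ → Fˣ) (τ : ℕ → F ≃+* F), Shape ax σ ρ c τ →
      (∀ j, j < D.rank → ρ j = j) ∨ (∀ j, j < D.rank → ρ j = L.getD j 0)) : CountData ax Bool where
  rhoG := fun b j => if b then L.getD j 0 else j
  graph := fun b => if b then hg.choose else MulEquiv.refl _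
  spec := by
    intro b
    cases b
    · exact graphSpec_refl ax (fun _ _ => rfl)
    · exact hg.choose_spec
  lt := by
    intro b j hj
    cases b
    · exact hj
    · exact hL j hj
  inj := by
    intro b b' e
    obtain ⟨j, hj, hne'⟩ := hne
    have e1 := e j hj
    cases b <;> cases b'
    · rfl
    · exact absurd e1.symm hne'
    · exact absurd e1 hne'
    · rfl
  surj := by
    intro σ ρ c τ hS
    rcases hsurj σ ρ c τ hS with h1 | h1
    · exact ⟨false, h1⟩
    · exact ⟨true, h1⟩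

/-- `G₂`. -/
theorem card_out_G2 [Fintype F] (p f : ℕ) [Fact p.Prime] [CharP F p] (hF : Fintype.card F = p ^ f) :
    Nat.card (Out ↥(chevG2.group F)) = if p = 3 then 2 * f else f := by
  have hD : IsData chevG2 := by simp [IsData]
  have ax := Cfsg.Agent.Lib.Lie.AxOf.ax_of_mem (F := F) hD
  have hd := Diag.card_diagonal_final (F := F) rfl (chevG2, 1) (by simp) ax
  simp only at hd
  have hchar : ringChar F = p := ringChar.eq F p
  split_ifs with hp
  · subst hp
    have hg := exc_of_finite (F := F) hD ax [1, 0] 3 (by simp) hchar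
    rw [card_out_final hD ax (dataBool ax [1, 0] hg (by
        intro j hj
        have hj' : j < 2 := hj
        interval_cases j <;> decide) ⟨0, by decide, by decide⟩ (fun σ ρ c τ hS => by
        rcases rho_G2 ax hS with h1 | ⟨h1, -⟩
        · exact Or.inl h1
        · exact Or.inr h1)) hd, card_aut hF, Nat.card_eq_fintype_card, Fintype.card_bool]
    ring
  · rw [card_out_final hD ax (dataUnit ax (fun σ ρ c τ hS => by
        rcases rho_G2 ax hS with h1 | ⟨-, h1⟩
        · exact h1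
        · exact absurd (hchar.symm.trans h1) hp)) hd, Nat.card_unique, card_aut hF]
    simp

/-- `F₄`. -/
theorem card_out_F4 [Fintype F] (p f : ℕ) [Fact p.Prime] [CharP F p] (hF : Fintype.card F = p ^ f) :
    Nat.card (Out ↥(chevF4.group F)) = Nat.gcd 2 p * f := by
  have hD : IsData chevF4 := by simp [IsData]
  have ax := Cfsg.Agent.Lib.Lie.AxOf.ax_of_mem (F := F) hD
  have hd := Diag.card_diagonal_final (F := F) rfl (chevF4, 1) (by simp) ax
  simp only at hd
  have hchar : ringChar F = p := ringChar.eq F p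
  by_cases hp : p = 2
  · subst hp
    have hg := exc_of_finite (F := F) hD ax [3, 2, 1, 0] 2 (by simp) hchar
    rw [card_out_final hD ax (dataBool ax [3, 2, 1, 0] hg (by
        intro j hj
        have hj' : j < 4 := hj
        interval_cases j <;> decide) ⟨0, by decide, by decide⟩ (fun σ ρ c τ hS => by
        rcases rho_F4 ax hS with h1 | ⟨h1, -⟩
        · exact Or.inl h1
        · exact Or.inr h1)) hd, card_aut hF, Nat.card_eq_fintype_card, Fintype.card_bool]
    simp
  · have hg : Nat.gcd 2 p = 1 := by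
      have := (Nat.coprime_primes Nat.prime_two (Fact.out : p.Prime)).mpr (Ne.symm hp)
      exact this
    rw [hg, card_out_final hD ax (dataUnit ax (fun σ ρ c τ hS => by
        rcases rho_F4 ax hS with h1 | ⟨-, h1⟩
        · exact h1
        · exact absurd (hchar.symm.trans h1) hp)) hd, Nat.card_unique, card_aut hF]
    simp

end Cfsg.Agent.Lib.Steinberg.AutOut2
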