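import Cfsg.Agent.Lib.Steinberg.AutOut2
import Cfsg.Agent.Lib.KS71.GalFin

/-!
Automorphisms of Chevalley groups: the structure of the outer automorphism group.
-/

set_option autoImplicit false
set_option linter.unusedSectionVars false
set_option linter.unusedVariables false

namespace Cfsg.Agent.Lib.Steinberg.AutStruct

open scoped MatrixGroups Matrix
open Cfsg _root_.Cfsg.Lie ChevalleyDatum
open Cfsg.Agent.Lib.Chev
open Tables Tables2 Tables3 Raise Basic AxBasic Torus Products Products2 Mono1 Mono2 Mono3 Order1 Parab Bn Unipotent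
open _root_.Cfsg.Agent.Lib.Steinberg.AutNorm _root_.Cfsg.Agent.Lib.Steinberg.AutRoot
open _root_.Cfsg.Agent.Lib.Steinberg.AutShape _root_.Cfsg.Agent.Lib.Steinberg.AutAdj
open _root_.Cfsg.Agent.Lib.Steinberg.AutExist _root_.Cfsg.Agent.Lib.Steinberg.AutMain
open _root_.Cfsg.Agent.Lib.Steinberg.AutTilde _root_.Cfsg.Agent.Lib.Steinberg.AutPres _root_.Cfsg.Agent.Lib.Steinberg.AutCount
open _root_.Cfsg.Agent.Lib.Steinberg.AutTab2 _root_.Cfsg.Agent.Lib.Steinberg.AutTab3 _root_.Cfsg.Agent.Lib.Steinberg.AutE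
open _root_.Cfsg.Agent.Lib.Steinberg.AutExc _root_.Cfsg.Agent.Lib.Steinberg.AutOut2
open Cfsg.Agent.Lib.Lie.Facts (IsData)

universe u

variable {D : ChevalleyDatum} {F : Type u} [Field F]

/-- `σ` permutes the fundamental root groups according to `π`. -/
def HasPerm (ax : Ax D F) (σ : MulAut ↥(D.group F)) (π : Equiv.Perm (Fin D.rank)) : Prop :=
  ∀ (i : Fin D.rank) (t : F), ∃ t', σ (xg ax (D.simple i) t) = xg ax (D.simple (π i)) t'

lemma simple_inj (h : Tab D) {i j : ℕ} (hi : i < D.rank) (hj : j < D.rank) (e : D.simple i = D.simple j) : i = j := by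
  have h1 := h.coef_simple i hi i hi
  rw [e, h.coef_simple j hj i hi] at h1
  by_contra hne
  rw [if_neg hne] at h1
  simp at h1

lemma HasPerm.unique (h : Tab D) (h2 : Tab2 D) (ax : Ax D F) {σ : MulAut ↥(D.group F)} {π π' : Equiv.Perm (Fin D.rank)}
    (h1 : HasPerm ax σ π) (h1' : HasPerm ax σ π') : π = π' := by
  ext i
  obtain ⟨t, ht⟩ := h1 i 1
  obtain ⟨t', ht'⟩ := h1' i 1
  have hne : t ≠ 0 := by
    rintro rfl
    rw [xg_zero, map_eq_one_iff σ σ.injective] at ht
    have e5 : xg ax (D.simple i) 1 = xg ax (D.simple i) 0 := by rw [ht, xg_zero]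
    exact one_ne_zero (xg_inj h h2 ax (h.simple_lt i i.2) e5)
  have e : xG ax (D.simple (π i)) t = xG ax (D.simple (π' i)) t' := congrArg Subtype.val (ht.symm.trans ht')
  have e2 := (xG_eq_iff ax h h2 (h.simple_lt _ (π i).2) (h.simple_lt _ (π' i).2) hne e).1
  exact simple_inj h (π i).2 (π' i).2 e2

lemma HasPerm.mul {ax : Ax D F} {σ σ' : MulAut ↥(D.group F)} {π π' : Equiv.Perm (Fin D.rank)}
    (h1 : HasPerm ax σ π) (h1' : HasPerm ax σ' π') : HasPerm ax (σ * σ') (π * π') := by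
  intro i t
  obtain ⟨t', e⟩ := h1' i t
  obtain ⟨t'', e'⟩ := h1 (π' i) t'
  refine ⟨t'', ?_⟩
  show σ (σ' _) = _
  rw [e, e']
  rfl

lemma hasPerm_of_shape {ax : Ax D F} {σ : MulAut ↥(D.group F)} {ρ : ℕ → ℕ} {c : ℕ → Fˣ} {τ : ℕ → F ≃+* F}
    (hS : Shape ax σ ρ c τ) {π : Equiv.Perm (Fin D.rank)} (hπ : ∀ i : Fin D.rank, ((π i : Fin D.rank) : ℕ) = ρ i) :
    HasPerm ax σ π := by
  intro i t
  refine ⟨(c i : F) * τ i t, ?_⟩
  rw [hπ i]
  exact hS.pos i i.2 t

lemma exists_hasPerm [Finite F] (hD : IsData D) (ax : Ax D F) (σ : normSub D F) : ∃ π, HasPerm ax σ.1 π := by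
  have h := tab_of_mem hD
  have h2 := tab2_of_mem hD
  have h3 := tab3_of_mem hD
  obtain ⟨ρ, c, τ, hS⟩ := exists_shape h h2 h3 ax hD σ.2.1 σ.2.2
  obtain ⟨π, hπ⟩ := exists_perm h h2 ax hS
  exact ⟨π, hasPerm_of_shape hS hπ⟩

/-- The permutation of the nodes as a homomorphism. -/
noncomputable def permHom [Finite F] (hD : IsData D) (ax : Ax D F) : normSub D F →* Equiv.Perm (Fin D.rank) :=
  MonoidHom.mk' (fun σ => (exists_hasPerm hD ax σ).choose) (by
    intro a b
    exact HasPerm.unique (tab_of_mem hD) (tab2_of_mem hD) ax (exists_hasPerm hD ax (a * b)).choose_spec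
      (HasPerm.mul (exists_hasPerm hD ax a).choose_spec (exists_hasPerm hD ax b).choose_spec))

lemma permHom_spec [Finite F] (hD : IsData D) (ax : Ax D F) (σ : normSub D F) : HasPerm ax σ.1 (permHom hD ax σ) :=
  (exists_hasPerm hD ax σ).choose_spec

lemma permHom_eq [Finite F] (hD : IsData D) (ax : Ax D F) (σ : normSub D F) {π : Equiv.Perm (Fin D.rank)}
    (hπ : HasPerm ax σ.1 π) : permHom hD ax σ = π :=
  HasPerm.unique (tab_of_mem hD) (tab2_of_mem hD) ax (permHom_spec hD ax σ) hπ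

lemma hasPerm_conj (h : Tab D) (ax : Ax D F) {x : ↥(D.group F)} (hx : (x : GL D.Idx F) ∈ D.diagonalSubgroup F) :
    HasPerm ax (MulAut.conj x) 1 := by
  obtain ⟨y, hy⟩ := exists_tor_of_mem ax h hx
  intro i t
  have e := tor_conj_xG ax h y (h.simple_lt i i.2) t
  rw [← hy] at e
  exact ⟨_, Subtype.ext e⟩

lemma ker_le [Finite F] (hD : IsData D) (ax : Ax D F) : (toOut D F).ker ≤ (permHom hD ax).ker := by
  have h := tab_of_mem hD
  rintro ⟨σ, hU, hV⟩ hσ
  rw [MonoidHom.mem_ker] at hσ ⊢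
  have hσ' : (QuotientGroup.mk' (Inn ↥(D.group F))) σ = 1 := hσ
  rw [QuotientGroup.mk'_apply, QuotientGroup.eq_one_iff] at hσ'
  obtain ⟨x, rfl⟩ := hσ'
  have hxH := mem_H_of_normalizes hD hU hV
  exact permHom_eq hD ax _ (hasPerm_conj h ax hxH)

/-- The permutation of the nodes on the outer automorphism group. -/
noncomputable def outHom [Finite F] (hD : IsData D) (ax : Ax D F) : Out ↥(D.group F) →* Equiv.Perm (Fin D.rank) :=
  (toOut D F).liftOfSurjective (toOut_surj hD) ⟨permHom hD ax, ker_le hD ax⟩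

lemma outHom_toOut [Finite F] (hD : IsData D) (ax : Ax D F) (σ : normSub D F) :
    outHom hD ax (toOut D F σ) = permHom hD ax σ := by
  have := MonoidHom.liftOfRightInverse_comp_apply (toOut D F) (Function.surjInv (toOut_surj hD))
    (Function.rightInverse_surjInv (toOut_surj hD)) ⟨permHom hD ax, ker_le hD ax⟩ σ
  exact this

lemma outHom_mk [Finite F] (hD : IsData D) (ax : Ax D F) {σ : MulAut ↥(D.group F)} (hσ : σ ∈ normSub D F)
    {π : Equiv.Perm (Fin D.rank)} (hπ : HasPerm ax σ π) : outHom hD ax (QuotientGroup.mk' (Inn ↥(D.group F)) σ) = π := by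
  have e := outHom_toOut hD ax ⟨σ, hσ⟩
  rw [permHom_eq hD ax _ hπ] at e
  exact e

section gens

variable (hD : IsData D) (ax : Ax D F)

lemma shape_diag {χ : ℕ → Fˣ} (hχ : D.IsRootCharacter χ) :
    Shape ax (diagAut hD ax hχ) id (fun j => χ (D.simple j)) (fun _ => RingEquiv.refl F) := by
  have h := tab_of_mem hD
  refine ⟨fun j hj => hj, fun j hj t => ?_, fun j hj t => ?_⟩
  · rw [diagAut_xg hD ax hχ (h.simple_lt j hj)]
    rfl
  · rw [diagAut_xg hD ax hχ (h.neg_lt _ (h.simple_lt j hj)), hχ.1 _ (h.simple_lt j hj)]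
    simp

lemma shape_field (h : Tab D) (τ : F ≃+* F) : Shape ax (fieldAut h ax τ) id (fun j => 1) (fun _ => τ) := by
  refine ⟨fun j hj => hj, fun j hj t => ?_, fun j hj t => ?_⟩
  · rw [fieldAut_xg]
    simp
  · rw [fieldAut_xg]
    simp

lemma diag_eq {φ : ↥(D.group F) ≃* ↥(D.group F)} (hφ : D.IsDiagonalAut φ) :
    ∃ (χ : ℕ → Fˣ) (hχ : D.IsRootCharacter χ), φ = diagAut hD ax hχ := by
  obtain ⟨χ, hχ, e⟩ := hφ
  refine ⟨χ, hχ, ?_⟩
  apply MulEquiv.ext
  intro g
  apply Subtype.ext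
  apply Units.ext
  rw [e g]
  rfl

lemma field_eq {φ : ↥(D.group F) ≃* ↥(D.group F)} (hφ : D.IsFieldAut φ) :
    ∃ τ, φ = fieldAut (tab_of_mem hD) ax τ := by
  have h := tab_of_mem hD
  have h2 := tab2_of_mem hD
  obtain ⟨τ, e⟩ := hφ
  refine ⟨τ, aut_ext h h2 ax ?_ ?_⟩
  · intro j hj t
    rw [fieldAut_xg]
    apply Subtype.ext
    apply Units.ext
    exact e _ _ _ (h.simple_lt j hj) rfl
  · intro j hj t
    rw [fieldAut_xg]
    apply Subtype.ext
    apply Units.ext
    exact e _ _ _ (h.neg_lt _ (h.simple_lt j hj)) rfl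

/-- The group generated by the diagonal automorphisms. -/
def D0 (D : ChevalleyDatum) (F : Type u) [Field F] : Subgroup (MulAut ↥(D.group F)) :=
  Subgroup.closure {φ : MulAut ↥(D.group F) | D.IsDiagonalAut φ}

/-- The group generated by the field automorphisms. -/
def F0 (D : ChevalleyDatum) (F : Type u) [Field F] : Subgroup (MulAut ↥(D.group F)) :=
  Subgroup.closure {φ : MulAut ↥(D.group F) | D.IsFieldAut φ}

/-- Diagonal automorphisms commute. -/
lemma diag_comm {χ χ' : ℕ → Fˣ} (hχ : D.IsRootCharacter χ) (hχ' : D.IsRootCharacter χ') :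
    (diagAut hD ax hχ : MulAut ↥(D.group F)) * diagAut hD ax hχ' = diagAut hD ax hχ' * diagAut hD ax hχ := by
  have h := tab_of_mem hD
  have h2 := tab2_of_mem hD
  apply aut_ext h h2 ax
  · intro j hj t
    show diagAut hD ax hχ (diagAut hD ax hχ' _) = diagAut hD ax hχ' (diagAut hD ax hχ _)
    have hr := h.simple_lt j hj
    rw [diagAut_xg hD ax hχ' hr, diagAut_xg hD ax hχ hr, diagAut_xg hD ax hχ hr, diagAut_xg hD ax hχ' hr, mul_left_comm]
  · intro j hj t
    show diagAut hD ax hχ (diagAut hD ax hχ' _) = diagAut hD ax hχ' (diagAut hD ax hχ _)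
    have hr := h.neg_lt _ (h.simple_lt j hj)
    rw [diagAut_xg hD ax hχ' hr, diagAut_xg hD ax hχ hr, diagAut_xg hD ax hχ hr, diagAut_xg hD ax hχ' hr, mul_left_comm]

lemma D0_comm' (hD : IsData D) : IsMulCommutative ↥(D0 D F) := by
  have ax := Cfsg.Agent.Lib.Lie.AxOf.ax_of_mem (F := F) hD
  apply Subgroup.isMulCommutative_closure
  intro a ha b hb
  obtain ⟨χ, hχ, rfl⟩ := diag_eq hD ax ha
  obtain ⟨χ', hχ', rfl⟩ := diag_eq hD ax hb
  exact diag_comm hD ax hχ hχ'

/-- The field automorphisms form a homomorphic image of the group of automorphisms of the field. -/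
noncomputable def fieldHom : (F ≃+* F) →* MulAut ↥(D.group F) :=
  MonoidHom.mk' (fun τ => fieldAut (tab_of_mem hD) ax τ) (by
    intro a b
    have h := tab_of_mem hD
    apply MulEquiv.ext
    intro g
    apply Subtype.ext
    apply Units.ext
    ext i j
    simp [fieldAut, KS71.ChevFix.coe_mapX])

lemma F0_eq : F0 D F = (fieldHom hD ax).range := by
  apply le_antisymm
  · rw [F0, Subgroup.closure_le]
    intro φ hφ
    obtain ⟨τ, rfl⟩ := field_eq hD ax hφ
    exact ⟨τ, rfl⟩
  · rintro _ ⟨τ, rfl⟩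
    exact Subgroup.subset_closure (isFieldAut_fieldAut (tab_of_mem hD) ax τ)

end gens

section out

variable [Finite F] (hD : IsData D) (ax : Ax D F)

lemma diag_mem_normSub {χ : ℕ → Fˣ} (hχ : D.IsRootCharacter χ) : (diagAut hD ax hχ : MulAut ↥(D.group F)) ∈ normSub D F :=
  shape_preserves hD ax (shape_diag hD ax hχ)

lemma field_mem_normSub (τ : F ≃+* F) : (fieldAut (tab_of_mem hD) ax τ : MulAut ↥(D.group F)) ∈ normSub D F :=
  shape_preserves hD ax (shape_field ax (tab_of_mem hD) τ)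

lemma map_D0_le_ker : (D0 D F).map (QuotientGroup.mk' (Inn ↥(D.group F))) ≤ (outHom hD ax).ker := by
  rw [Subgroup.map_le_iff_le_comap, D0, Subgroup.closure_le]
  intro φ hφ
  obtain ⟨χ, hχ, rfl⟩ := diag_eq hD ax hφ
  rw [SetLike.mem_coe, Subgroup.mem_comap, MonoidHom.mem_ker]
  refine outHom_mk hD ax (diag_mem_normSub hD ax hχ) (hasPerm_of_shape (shape_diag hD ax hχ) ?_)
  intro i
  rfl

lemma map_F0_le_ker : (F0 D F).map (QuotientGroup.mk' (Inn ↥(D.group F))) ≤ (outHom hD ax).ker := by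
  rw [Subgroup.map_le_iff_le_comap, F0, Subgroup.closure_le]
  intro φ hφ
  obtain ⟨τ, rfl⟩ := field_eq hD ax hφ
  rw [SetLike.mem_coe, Subgroup.mem_comap, MonoidHom.mem_ker]
  refine outHom_mk hD ax (field_mem_normSub hD ax τ) (hasPerm_of_shape (shape_field ax (tab_of_mem hD) τ) ?_)
  intro i
  rfl

/-- The kernel of the permutation action is generated by diagonal and field automorphisms. -/
lemma ker_le_sup : (outHom hD ax).ker ≤ (D0 D F).map (QuotientGroup.mk' (Inn ↥(D.group F))) ⊔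
    (F0 D F).map (QuotientGroup.mk' (Inn ↥(D.group F))) := by
  classical
  have h := tab_of_mem hD
  have h2 := tab2_of_mem hD
  have h3 := tab3_of_mem hD
  intro q hq
  obtain ⟨σ, rfl⟩ := toOut_surj hD q
  rw [MonoidHom.mem_ker, outHom_toOut] at hq
  obtain ⟨ρ, c, τ, hS⟩ := exists_shape h h2 h3 ax hD σ.2.1 σ.2.2
  obtain ⟨π, hπ⟩ := exists_perm h h2 ax hS
  have hp := permHom_eq hD ax σ (hasPerm_of_shape hS hπ)
  rw [hq] at hp
  have hρ : ∀ j, j < D.rank → ρ j = j := by
    intro j hj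
    have := hπ ⟨j, hj⟩
    rw [← hp] at this
    exact this.symm
  obtain ⟨τ', hτ'⟩ := exists_tilde ax hD hS
  have hχ := isRootCharacter_psiN hD c
  have e := shape_decomp ax hD hS hτ' (graphSpec_refl ax hρ) hχ (fun j hj => by
    rw [hρ j hj, psiN_simple hD c hj])
  have e2 : (σ : MulAut ↥(D.group F)) = (diagAut hD ax hχ : MulAut ↥(D.group F)) * fieldAut (tab_of_mem hD) ax τ' := by
    rw [e]
    rfl
  show QuotientGroup.mk' (Inn ↥(D.group F)) (σ : MulAut ↥(D.group F)) ∈ _
  rw [e2, map_mul]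
  apply Subgroup.mul_mem
  · apply (le_sup_left : (D0 D F).map (QuotientGroup.mk' (Inn ↥(D.group F))) ≤ _)
    exact ⟨_, Subgroup.subset_closure (isDiagonalAut_diagAut hD ax hχ), rfl⟩
  · apply (le_sup_right : (F0 D F).map (QuotientGroup.mk' (Inn ↥(D.group F))) ≤ _)
    exact ⟨_, Subgroup.subset_closure (isFieldAut_fieldAut (tab_of_mem hD) ax τ'), rfl⟩

theorem sup_eq_ker : (D0 D F).map (QuotientGroup.mk' (Inn ↥(D.group F))) ⊔
    (F0 D F).map (QuotientGroup.mk' (Inn ↥(D.group F))) = (outHom hD ax).ker :=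
  le_antisymm (sup_le (map_D0_le_ker hD ax) (map_F0_le_ker hD ax)) (ker_le_sup hD ax)

/-- Conjugates of diagonal automorphisms by elements of `normSub` are diagonal. -/
lemma conj_diag_mem (σ : normSub D F) {χ : ℕ → Fˣ} (hχ : D.IsRootCharacter χ) :
    σ.1 * (diagAut hD ax hχ : MulAut ↥(D.group F)) * σ.1⁻¹ ∈ D0 D F := by
  classical
  have h := tab_of_mem hD
  have h2 := tab2_of_mem hD
  have h3 := tab3_of_mem hD
  obtain ⟨ρ, c, τ, hS⟩ := exists_shape h h2 h3 ax hD σ.2.1 σ.2.2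
  obtain ⟨π, hπ⟩ := exists_perm h h2 ax hS
  let cs : ℕ → Fˣ := fun i => if hi : i < D.rank then
    Units.map ((τ (π.symm ⟨i, hi⟩) : F ≃+* F) : F →* F) (χ (D.simple (π.symm ⟨i, hi⟩))) else 1
  have hχ' := isRootCharacter_psiN hD cs
  have hcs : ∀ j, j < D.rank → psiN D cs (D.simple (ρ j)) = Units.map ((τ j : F ≃+* F) : F →* F) (χ (D.simple j)) := by
    intro j hj
    rw [psiN_simple hD cs (hS.lt j hj)]
    have e5 : π.symm ⟨ρ j, hS.lt j hj⟩ = ⟨j, hj⟩ := by
      rw [Equiv.symm_apply_eq]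
      exact Fin.ext (hπ ⟨j, hj⟩).symm
    simp only [cs, hS.lt j hj, dif_pos, e5]
  have key : σ.1 * (diagAut hD ax hχ : MulAut ↥(D.group F)) = (diagAut hD ax hχ' : MulAut ↥(D.group F)) * σ.1 := by
    apply aut_ext h h2 ax
    · intro j hj t
      show σ.1 (diagAut hD ax hχ _) = diagAut hD ax hχ' (σ.1 _)
      have hr := h.simple_lt j hj
      have hr' := h.simple_lt _ (hS.lt j hj)
      rw [diagAut_xg hD ax hχ hr, hS.pos j hj, hS.pos j hj, diagAut_xg hD ax hχ' hr', hcs j hj, map_mul]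
      congr 1
      simp only [Units.coe_map]
      show _ = τ j _ * _
      exact mul_left_comm _ _ _
    · intro j hj t
      show σ.1 (diagAut hD ax hχ _) = diagAut hD ax hχ' (σ.1 _)
      have hr := h.simple_lt j hj
      have hr' := h.simple_lt _ (hS.lt j hj)
      rw [diagAut_xg hD ax hχ (h.neg_lt _ hr), hS.neg j hj, hS.neg j hj, diagAut_xg hD ax hχ' (h.neg_lt _ hr'),
        hχ'.1 _ hr', hχ.1 _ hr, hcs j hj, map_mul]
      congr 1
      simp only [Units.val_inv_eq_inv_val, map_inv₀, Units.coe_map]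
      show _ = (τ j _)⁻¹ * _
      exact mul_left_comm _ _ _
  rw [key, mul_inv_cancel_right]
  exact Subgroup.subset_closure (isDiagonalAut_diagAut hD ax hχ')

include hD ax in
lemma conj_D0_mem (σ : normSub D F) {δ : MulAut ↥(D.group F)} (hδ : δ ∈ D0 D F) : σ.1 * δ * σ.1⁻¹ ∈ D0 D F := by
  have hle : D0 D F ≤ (D0 D F).comap (MulAut.conj σ.1).toMonoidHom := by
    rw [D0, Subgroup.closure_le]
    intro φ hφ
    obtain ⟨χ, hχ, rfl⟩ := diag_eq hD ax hφ
    exact conj_diag_mem hD ax σ hχ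
  exact hle hδ

theorem D0_normal (hD : IsData D) (ax : Ax D F) : ((D0 D F).map (QuotientGroup.mk' (Inn ↥(D.group F)))).Normal := by
  constructor
  rintro _ ⟨δ, hδ, rfl⟩ q
  obtain ⟨σ, rfl⟩ := toOut_surj hD q
  refine ⟨_, conj_D0_mem hD ax σ hδ, ?_⟩
  simp only [map_mul, map_inv]
  rfl

theorem D0_comm (hD : IsData D) : IsMulCommutative ↥((D0 D F).map (QuotientGroup.mk' (Inn ↥(D.group F)))) := by
  have := D0_comm' (F := F) hD
  constructor
  constructor
  rintro ⟨_, a, ha, rfl⟩ ⟨_, b, hb, rfl⟩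
  apply Subtype.ext
  show QuotientGroup.mk' (Inn ↥(D.group F)) a * QuotientGroup.mk' (Inn ↥(D.group F)) b =
    QuotientGroup.mk' (Inn ↥(D.group F)) b * QuotientGroup.mk' (Inn ↥(D.group F)) a
  rw [← map_mul, ← map_mul]
  have e := mul_comm' (⟨a, ha⟩ : ↥(D0 D F)) ⟨b, hb⟩
  have e2 : a * b = b * a := congrArg Subtype.val e
  rw [e2]

theorem F0_cyclic (hD : IsData D) (ax : Ax D F) : IsCyclic ↥((F0 D F).map (QuotientGroup.mk' (Inn ↥(D.group F)))) := by
  have := KS71.GalFin.isCyclic (F := F)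
  rw [F0_eq hD ax, ← MonoidHom.range_comp]
  exact isCyclic_of_surjective _ (MonoidHom.rangeRestrict_surjective ((QuotientGroup.mk' (Inn ↥(D.group F))).comp (fieldHom hD ax)))

/-- A subgroup with at most one nontrivial element. -/
lemma card_of_two {G : Type*} [Group G] {R : Subgroup G} {s : G} (hs : ∀ x ∈ R, x = 1 ∨ x = s) :
    Nat.card R = 1 ∨ Nat.card R = 2 := by
  have hsub : (R : Set G) ⊆ {1, s} := by
    intro x hx
    rcases hs x hx with rfl | rfl
    · simp
    · simp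
  have hfin : (R : Set G).Finite := (Set.toFinite {1, s}).subset hsub
  have : Finite R := hfin
  have h1 : Nat.card R ≠ 0 := Nat.card_pos.ne'
  have h2 : Nat.card R ≤ 2 := by
    have e : Nat.card R = (R : Set G).ncard := (Nat.card_coe_set_eq _)
    rw [e]
    refine (Set.ncard_le_ncard hsub (Set.toFinite _)).trans ((Set.ncard_insert_le _ _).trans ?_)
    simp
  omega

/-- The range of the permutation action is small when each permutation is the identity or given by a fixed list. -/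
lemma index_of_list (L : List ℕ)
    (hL : ∀ σ : normSub D F, ∀ π, HasPerm ax σ.1 π → π = 1 ∨ ∀ j : Fin D.rank, ((π j : Fin D.rank) : ℕ) = L.getD j 0) :
    (outHom hD ax).ker.index = 1 ∨ (outHom hD ax).ker.index = 2 := by
  rw [Subgroup.index_ker]
  have key : ∀ x ∈ (outHom hD ax).range, x = 1 ∨ ∀ j : Fin D.rank, ((x j : Fin D.rank) : ℕ) = L.getD j 0 := by
    rintro _ ⟨q, rfl⟩
    obtain ⟨σ, rfl⟩ := toOut_surj hD q
    rw [outHom_toOut]
    exact hL σ _ (permHom_spec hD ax σ)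
  by_cases hne : ∃ x ∈ (outHom hD ax).range, x ≠ 1
  · obtain ⟨s, hs, hs1⟩ := hne
    apply card_of_two (s := s)
    intro x hx
    rcases key x hx with h1 | h1
    · exact Or.inl h1
    · right
      rcases key s hs with h2 | h2
      · exact absurd h2 hs1
      · ext j
        rw [h1, h2]
  · push Not at hne
    exact card_of_two (s := 1) (fun x hx => Or.inl (hne x hx))

lemma index_of_rho (L : List ℕ)
    (hρ : ∀ {σ : MulAut ↥(D.group F)} {ρ : ℕ → ℕ} {c : ℕ → Fˣ} {τ : ℕ → F ≃+* F}, Shape ax σ ρ c τ →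
      (∀ j, j < D.rank → ρ j = j) ∨ (∀ j, j < D.rank → ρ j = L.getD j 0)) :
    (outHom hD ax).ker.index = 1 ∨ (outHom hD ax).ker.index = 2 := by
  have h := tab_of_mem hD
  have h2 := tab2_of_mem hD
  have h3 := tab3_of_mem hD
  apply index_of_list hD ax L
  intro σ π hπ
  obtain ⟨ρ, c, τ, hS⟩ := exists_shape h h2 h3 ax hD σ.2.1 σ.2.2
  obtain ⟨π', hπ'⟩ := exists_perm h h2 ax hS
  have e : π = π' := HasPerm.unique h h2 ax hπ (hasPerm_of_shape hS hπ')
  subst e
  rcases hρ hS with h1 | h1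
  · left
    ext j
    rw [hπ' j, h1 j j.2]
    rfl
  · right
    intro j
    rw [hπ' j, h1 j j.2]

end out

section types

theorem rho_B2 (ax : Ax chevB2 F) {σ : ↥(chevB2.group F) ≃* ↥(chevB2.group F)} {ρ : ℕ → ℕ} {c : ℕ → Fˣ} {τ : ℕ → F ≃+* F}
    (hS : Shape ax σ ρ c τ) : (∀ j, j < chevB2.rank → ρ j = j) ∨ (∀ j, j < chevB2.rank → ρ j = [1, 0].getD j 0) := by
  have hD : IsData chevB2 := by simp [IsData]
  have h := tab_of_mem hD
  have h2 := tab2_of_mem hD
  have h00 : ρ 0 < 2 := hS.lt 0 (by decide)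
  have h01 : ρ 1 < 2 := hS.lt 1 (by decide)
  have hne : ρ 0 ≠ ρ 1 := fun e => absurd (rho_inj h h2 ax hS (by decide) (by decide) e) (by decide)
  have hcases : (ρ 0 = 0 ∧ ρ 1 = 1) ∨ (ρ 0 = 1 ∧ ρ 1 = 0) := by omega
  rcases hcases with ⟨e0, e1⟩ | ⟨e0, e1⟩
  · left
    intro j hj
    have hj' : j < 2 := hj
    interval_cases j <;> assumption
  · right
    intro j hj
    have hj' : j < 2 := hj
    interval_cases j <;> simpa

theorem rho_D4 (ax : Ax chevD4 F) {σ : ↥(chevD4.group F) ≃* ↥(chevD4.group F)} {ρ : ℕ → ℕ} {c : ℕ → Fˣ} {τ : ℕ → F ≃+* F}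
    (hS : Shape ax σ ρ c τ) : ∃ L ∈ ([[0, 1, 2, 3], [2, 1, 3, 0], [3, 1, 0, 2], [0, 1, 3, 2], [2, 1, 0, 3], [3, 1, 2, 0]] : List (List ℕ)),
      ∀ j, j < chevD4.rank → ρ j = L.getD j 0 := by
  have hD : IsData chevD4 := by simp [IsData]
  have h := tab_of_mem hD
  have h2 := tab2_of_mem hD
  have hinj : ∀ i j : ℕ, i < 4 → j < 4 → i ≠ j → ρ i ≠ ρ j :=
    fun i j hi hj hij e => hij (rho_inj h h2 ax hS hi hj e)
  have hbd : ∀ i j : ℕ, i < 4 → j < 4 → i ≠ j → chevD4.bonds i j ≠ 0 → chevD4.bonds (ρ i) (ρ j) ≠ 0 :=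
    fun i j hi hj hij hb e => hb ((bonds_iff h h2 ax hD hS hi hj hij).mp e)
  have hlt : ∀ i : ℕ, i < 4 → ρ i < 4 := fun i hi => hS.lt i hi
  have hp := perm_D4 ⟨ρ 0, hlt 0 (by decide)⟩ ⟨ρ 1, hlt 1 (by decide)⟩
    (fun e => hinj 0 1 (by decide) (by decide) (by decide) (Fin.mk.inj e))
    (hbd 0 1 (by decide) (by decide) (by decide) (by decide +kernel))
    ⟨ρ 2, hlt 2 (by decide)⟩
    (fun e => hinj 0 2 (by decide) (by decide) (by decide) (Fin.mk.inj e))
    (fun e => hinj 1 2 (by decide) (by decide) (by decide) (Fin.mk.inj e))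
    (hbd 1 2 (by decide) (by decide) (by decide) (by decide +kernel))
    ⟨ρ 3, hlt 3 (by decide)⟩
    (fun e => hinj 0 3 (by decide) (by decide) (by decide) (Fin.mk.inj e))
    (fun e => hinj 1 3 (by decide) (by decide) (by decide) (Fin.mk.inj e))
    (fun e => hinj 2 3 (by decide) (by decide) (by decide) (Fin.mk.inj e))
    (hbd 1 3 (by decide) (by decide) (by decide) (by decide +kernel))
  rcases hp with ⟨e0, e1, e2, e3⟩ | ⟨e0, e1, e2, e3⟩ | ⟨e0, e1, e2, e3⟩ | ⟨e0, e1, e2, e3⟩ | ⟨e0, e1, e2, e3⟩ | ⟨e0, e1, e2, e3⟩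
  all_goals
    have e0' := congrArg Fin.val e0
    have e1' := congrArg Fin.val e1
    have e2' := congrArg Fin.val e2
    have e3' := congrArg Fin.val e3
    simp only at e0' e1' e2' e3'
  · refine ⟨[0, 1, 2, 3], by simp, fun j hj => ?_⟩
    have hj' : j < 4 := hj
    interval_cases j <;> simp [e0', e1', e2', e3']
  · refine ⟨[2, 1, 3, 0], by simp, fun j hj => ?_⟩
    have hj' : j < 4 := hj
    interval_cases j <;> simp [e0', e1', e2', e3']
  · refine ⟨[3, 1, 0, 2], by simp, fun j hj => ?_⟩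
    have hj' : j < 4 := hj
    interval_cases j <;> simp [e0', e1', e2', e3']
  · refine ⟨[0, 1, 3, 2], by simp, fun j hj => ?_⟩
    have hj' : j < 4 := hj
    interval_cases j <;> simp [e0', e1', e2', e3']
  · refine ⟨[2, 1, 0, 3], by simp, fun j hj => ?_⟩
    have hj' : j < 4 := hj
    interval_cases j <;> simp [e0', e1', e2', e3']
  · refine ⟨[3, 1, 2, 0], by simp, fun j hj => ?_⟩
    have hj' : j < 4 := hj
    interval_cases j <;> simp [e0', e1', e2', e3']

/-- The six permutations. -/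
def perm1 : Equiv.Perm (Fin 4) := ⟨![2, 1, 3, 0], ![3, 1, 0, 2], by decide, by decide⟩
/-- The six permutations. -/
def perm2 : Equiv.Perm (Fin 4) := ⟨![3, 1, 0, 2], ![2, 1, 3, 0], by decide, by decide⟩
/-- The six permutations. -/
def perm3 : Equiv.Perm (Fin 4) := ⟨![0, 1, 3, 2], ![0, 1, 3, 2], by decide, by decide⟩
/-- The six permutations. -/
def perm4 : Equiv.Perm (Fin 4) := ⟨![2, 1, 0, 3], ![2, 1, 0, 3], by decide, by decide⟩
/-- The six permutations. -/
def perm5 : Equiv.Perm (Fin 4) := ⟨![3, 1, 2, 0], ![3, 1, 2, 0], by decide, by decide⟩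

/-- The six permutations. -/
def perms6 : Finset (Equiv.Perm (Fin 4)) := {1, perm1, perm2, perm3, perm4, perm5}

lemma card_perms6 : perms6.card = 6 := by decide

lemma card_of_perms6 (R : Subgroup (Equiv.Perm (Fin 4))) (h1 : ∀ p ∈ perms6, p ∈ R) (h2 : ∀ x ∈ R, x ∈ perms6) :
    Nat.card R = 6 := by
  have e : (R : Set (Equiv.Perm (Fin 4))) = ↑perms6 := by
    ext x
    exact ⟨h2 x, h1 x⟩
  have e2 : Nat.card R = (R : Set (Equiv.Perm (Fin 4))).ncard := (Nat.card_coe_set_eq _)
  rw [e2, e, Set.ncard_coe_finset, card_perms6]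

lemma perm1_perm3 : perm1 * perm3 ≠ perm3 * perm1 := by decide

lemma exists_elt_D4 [Finite F] (ax : Ax chevD4 F) (hD : IsData chevD4) (p : Equiv.Perm (Fin chevD4.rank))
    (L : List ℕ) (hL : L ∈ [[2, 1, 3, 0], [3, 1, 0, 2], [0, 1, 3, 2], [2, 1, 0, 3], [3, 1, 2, 0]])
    (hp : ∀ j : Fin chevD4.rank, ((p j : Fin chevD4.rank) : ℕ) = L.getD j 0) : ∃ q, outHom hD ax q = p := by
  have hsl : ∀ i, i < chevD4.rank → chevD4.isLong (chevD4.simple i) = false := by
    intro i hi
    have := allBelow_spec slOK_D4 i hi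
    simp only [Bool.and_eq_true, Bool.not_eq_true'] at this
    exact this.1
  have hlt : ∀ i, i < chevD4.rank → L.getD i 0 < chevD4.rank := by
    intro i hi
    have hi' : i < 4 := hi
    simp only [List.mem_cons, List.not_mem_nil, or_false] at hL
    rcases hL with rfl | rfl | rfl | rfl | rfl <;> interval_cases i <;> decide
  obtain ⟨g, hg⟩ := graphSpec_of_matrix ax hsl hlt (AutD4.exists_D4 L hL)
  have he : ∀ j, j < chevD4.rank → chevD4.graphExp (ringChar F) j (L.getD j 0) = 1 := by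
    intro j hj
    rw [graphExp, hsl _ (hlt j hj)]
    simp
  have hS : Shape ax g (fun j => L.getD j 0) (fun _ => 1) (fun _ => RingEquiv.refl F) := by
    refine ⟨hlt, fun j hj t => ?_, fun j hj t => ?_⟩
    · have := (hg j hj t).1
      rw [he j hj, pow_one] at this
      rw [this]
      simp
    · have := (hg j hj t).2
      rw [he j hj, pow_one] at this
      rw [this]
      simp
  exact ⟨_, outHom_mk hD ax (shape_preserves hD ax hS) (hasPerm_of_shape hS hp)⟩

/-- The index for `D₄`. -/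
theorem index_D4 [Finite F] (hD : IsData chevD4) (ax : Ax chevD4 F) :
    (outHom hD ax).ker.index = 6 ∧ ¬ commutator (Out ↥(chevD4.group F)) ≤ (outHom hD ax).ker := by
  have h := tab_of_mem hD
  have h2 := tab2_of_mem hD
  have h3 := tab3_of_mem hD
  obtain ⟨q1, hq1⟩ := exists_elt_D4 ax hD perm1 [2, 1, 3, 0] (by simp) (by decide)
  obtain ⟨q2, hq2⟩ := exists_elt_D4 ax hD perm2 [3, 1, 0, 2] (by simp) (by decide)
  obtain ⟨q3, hq3⟩ := exists_elt_D4 ax hD perm3 [0, 1, 3, 2] (by simp) (by decide)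
  obtain ⟨q4, hq4⟩ := exists_elt_D4 ax hD perm4 [2, 1, 0, 3] (by simp) (by decide)
  obtain ⟨q5, hq5⟩ := exists_elt_D4 ax hD perm5 [3, 1, 2, 0] (by simp) (by decide)
  constructor
  · rw [Subgroup.index_ker]
    apply card_of_perms6 (outHom hD ax).range
    · intro p hp
      simp only [perms6, Finset.mem_insert, Finset.mem_singleton] at hp
      rcases hp with rfl | rfl | rfl | rfl | rfl | rfl
      · exact Subgroup.one_mem _
      · exact ⟨q1, hq1⟩
      · exact ⟨q2, hq2⟩
      · exact ⟨q3, hq3⟩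
      · exact ⟨q4, hq4⟩
      · exact ⟨q5, hq5⟩
    · rintro _ ⟨q, rfl⟩
      obtain ⟨σ, rfl⟩ := toOut_surj hD q
      rw [outHom_toOut]
      obtain ⟨ρ, c, τ, hS⟩ := exists_shape h h2 h3 ax hD σ.2.1 σ.2.2
      obtain ⟨π, hπ⟩ := exists_perm h h2 ax hS
      rw [permHom_eq hD ax σ (hasPerm_of_shape hS hπ)]
      obtain ⟨L, hL, hρ⟩ := rho_D4 ax hS
      have hv : ∀ j : Fin 4, ((π j : Fin 4) : ℕ) = L.getD j 0 := fun j => (hπ j).trans (hρ j j.2)
      simp only [List.mem_cons, List.not_mem_nil, or_false] at hL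
      have hperm : (π : Equiv.Perm (Fin 4)) ∈ perms6 := by
        rcases hL with rfl | rfl | rfl | rfl | rfl | rfl
        · have : (π : Equiv.Perm (Fin 4)) = 1 := by
            ext j
            rw [hv j]
            revert j
            decide
          exact this ▸ (by decide : (1 : Equiv.Perm (Fin 4)) ∈ perms6)
        · have : (π : Equiv.Perm (Fin 4)) = perm1 := by
            ext j
            rw [hv j]
            revert j
            decide
          exact this ▸ (by decide : (perm1 : Equiv.Perm (Fin 4)) ∈ perms6)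
        · have : (π : Equiv.Perm (Fin 4)) = perm2 := by
            ext j
            rw [hv j]
            revert j
            decide
          exact this ▸ (by decide : (perm2 : Equiv.Perm (Fin 4)) ∈ perms6)
        · have : (π : Equiv.Perm (Fin 4)) = perm3 := by
            ext j
            rw [hv j]
            revert j
            decide
          exact this ▸ (by decide : (perm3 : Equiv.Perm (Fin 4)) ∈ perms6)
        · have : (π : Equiv.Perm (Fin 4)) = perm4 := by
            ext j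
            rw [hv j]
            revert j
            decide
          exact this ▸ (by decide : (perm4 : Equiv.Perm (Fin 4)) ∈ perms6)
        · have : (π : Equiv.Perm (Fin 4)) = perm5 := by
            ext j
            rw [hv j]
            revert j
            decide
          exact this ▸ (by decide : (perm5 : Equiv.Perm (Fin 4)) ∈ perms6)
      exact hperm
  · intro hle
    have hmem : q1 * q3 * q1⁻¹ * q3⁻¹ ∈ (outHom hD ax).ker := by
      apply hle
      rw [commutator_def]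
      exact Subgroup.commutator_mem_commutator (Subgroup.mem_top _) (Subgroup.mem_top _)
    rw [MonoidHom.mem_ker] at hmem
    simp only [map_mul, map_inv, hq1, hq3] at hmem
    apply perm1_perm3
    have e2 : (perm1 : Equiv.Perm (Fin 4)) * perm3 * perm1⁻¹ * perm3⁻¹ = 1 := hmem
    exact mul_inv_eq_one.mp (mul_inv_eq_one.mp e2)

end types

/-- The structure of the outer automorphism group. -/
theorem out_structure [Finite F] (hD : IsData D) :
    ((D0 D F).map (QuotientGroup.mk' (Inn ↥(D.group F)))).Normal ∧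
    IsMulCommutative ↥((D0 D F).map (QuotientGroup.mk' (Inn ↥(D.group F)))) ∧
    IsCyclic ↥((F0 D F).map (QuotientGroup.mk' (Inn ↥(D.group F)))) ∧
    ((D0 D F).map (QuotientGroup.mk' (Inn ↥(D.group F))) ⊔ (F0 D F).map (QuotientGroup.mk' (Inn ↥(D.group F)))).Normal ∧
    (((D0 D F).map (QuotientGroup.mk' (Inn ↥(D.group F))) ⊔ (F0 D F).map (QuotientGroup.mk' (Inn ↥(D.group F)))).index = 1 ∨
     ((D0 D F).map (QuotientGroup.mk' (Inn ↥(D.group F))) ⊔ (F0 D F).map (QuotientGroup.mk' (Inn ↥(D.group F)))).index = 2 ∨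
     (((D0 D F).map (QuotientGroup.mk' (Inn ↥(D.group F))) ⊔ (F0 D F).map (QuotientGroup.mk' (Inn ↥(D.group F)))).index = 6 ∧
      ¬ commutator (Out ↥(D.group F)) ≤ (D0 D F).map (QuotientGroup.mk' (Inn ↥(D.group F))) ⊔ (F0 D F).map (QuotientGroup.mk' (Inn ↥(D.group F))))) := by
  have ax := Cfsg.Agent.Lib.Lie.AxOf.ax_of_mem (F := F) hD
  refine ⟨D0_normal hD ax, D0_comm hD, F0_cyclic hD ax, ?_, ?_⟩
  · rw [sup_eq_ker hD ax]
    exact MonoidHom.normal_ker _
  · rw [sup_eq_ker hD ax]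
    have hD' := hD
    simp only [IsData, List.mem_cons, List.not_mem_nil, or_false] at hD'
    rcases hD' with rfl | rfl | rfl | rfl | rfl | rfl | rfl
    · rcases index_of_rho hD ax [1, 0] (fun hS => (rho_G2 ax hS).imp id And.left) with e | e
      · exact Or.inl e
      · exact Or.inr (Or.inl e)
    · rcases index_of_rho hD ax [1, 0] (fun hS => rho_B2 ax hS) with e | e
      · exact Or.inl e
      · exact Or.inr (Or.inl e)
    · exact Or.inr (Or.inr (index_D4 hD ax))
    · rcases index_of_rho hD ax [3, 2, 1, 0] (fun hS => (rho_F4 ax hS).imp id And.left) with e | e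
      · exact Or.inl e
      · exact Or.inr (Or.inl e)
    · rcases index_of_rho hD ax [5, 1, 4, 3, 2, 0] (fun hS => rho_E6 ax hS) with e | e
      · exact Or.inl e
      · exact Or.inr (Or.inl e)
    · rcases index_of_rho hD ax [] (fun hS => Or.inl (rho_E7 ax hS)) with e | e
      · exact Or.inl e
      · exact Or.inr (Or.inl e)
    · rcases index_of_rho hD ax [] (fun hS => Or.inl (rho_E8 ax hS)) with e | e
      · exact Or.inl e
      · exact Or.inr (Or.inl e)

end Cfsg.Agent.Lib.Steinberg.AutStruct
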