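import Cfsg.Agent.Lib.Steinberg.Fold
import Cfsg.Prelude.Def_ChevG2
import Cfsg.Prelude.Def_ChevD4

set_option autoImplicit false

namespace Cfsg.Agent.Lib.Steinberg.FoldD4

open Cfsg _root_.Cfsg.Lie ChevalleyDatum
open _root_.Cfsg.Agent.Lib.Steinberg.Fold

/-- The orbits of the symmetry of `D₄`, with signs, for the roots of `G₂`. -/
def tabG : List (List (ℕ × ℤ)) := [[(0, -1)], [(1, -1)], [(2, -1), (6, 1), (3, -1)], [(4, 1), (7, -1), (8, -1)], [(5, 1), (10, 1), (11, 1)], [(9, 1)], [(14, 1)], [(18, 1), (13, 1), (12, 1)], [(15, -1), (19, 1), (16, -1)], [(17, 1), (20, -1), (21, -1)], [(22, -1)], [(23, -1)]]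

/-- The coordinates of the projections of the roots of `D₄`. -/
def pjG : List (List ℤ) := [[-3, -2], [-3, -1], [-2, -1], [-2, -1], [-1, -1], [-1, 0], [-2, -1], [-1, -1], [-1, -1], [0, -1], [-1, 0], [-1, 0], [1, 0], [1, 0], [0, 1], [1, 1], [1, 1], [2, 1], [1, 0], [1, 1], [2, 1], [2, 1], [3, 1], [3, 2]]

/-- The weights used for the pairs of roots of `G₂`. -/
def gG : List (List (List ℤ)) := [[[], [-1, -1], [-1, -1], [-1, -1], [-1, -1], [-1, -1], [-1, 1], [1, -2], [-3, 4], [3, -5], [1, -2], []], [[-1, -1], [], [-1, -1], [-1, -1], [-1, -1], [-1, -1], [-1, 1], [1, -4], [-1, 2], [-2, 5], [], [-1, 2]], [[-1, -1], [-1, -1], [], [-1, -1], [-1, -1], [-1, -1], [-1, 1], [1, -3], [-2, 3], [], [2, -5], [-3, 5]], [[-1, -1], [-1, -1], [-1, -1], [], [-1, -1], [-1, -1], [-2, 1], [1, -2], [], [2, -3], [1, -2], [3, -4]], [[-1, -1], [-1, -1], [-1, -1], [-1, -1], [], [-1, -1], [-1, 1], [], [-1, 2], [-1, 3], [-1, 4], [-1,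 2]], [[-1, -1], [-1, -1], [-1, -1], [-1, -1], [-1, -1], [], [], [1, -1], [2, -1], [1, -1], [1, -1], [1, -1]], [[-1, 1], [-1, 1], [-1, 1], [-2, 1], [-1, 1], [], [], [1, 1], [0, 1], [0, 1], [0, 1], [0, 1]], [[1, -2], [1, -4], [1, -3], [1, -2], [], [1, -1], [1, 1], [], [1, 0], [1, -1], [1, -1], [1, -1]], [[-3, 4], [-1, 2], [-2, 3], [], [-1, 2], [2, -1], [0, 1], [1, 0], [], [0, 1], [0, 1], [0, 1]], [[3, -5], [-2, 5], [], [2, -3], [-1, 3], [1, -1], [0, 1], [1, -1], [0, 1], [], [0, 1], [0, 1]], [[1, -2], [], [2, -5], [1, -2], [-1, 4], [1, -1], [0, 1], [1, -1], [0, 1], [0, 1], [], [0, 1]], [[], [-1, 2], [-3, 5], [3, -4], [-1, 2], [1, -1], [0, 1], [1, -1], [0, 1], [0, 1], [0, 1], []]]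

/-- The orbit of a root. -/
def iotaG (r : ℕ) : List (ℕ × ℤ) := tabG.getD r []

/-- The scalar product. -/
def dotL : List ℤ → List ℤ → ℤ
  | a :: l, b :: k => a * b + dotL l k
  | _, _ => 0

/-- The weights. -/
def keyG (r s a : ℕ) : ℤ := dotL ((gG.getD r []).getD s []) (pjG.getD a [])

set_option maxRecDepth 100000 in
theorem chkG : foldChk chevD4 chevG2 iotaG keyG 0 40 = true := by decide +kernel

end Cfsg.Agent.Lib.Steinberg.FoldD4

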