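import Cfsg.Agent.Lib.Steinberg.FoldD4
import Cfsg.Agent.Lib.Steinberg.FoldGen
import Cfsg.Agent.Lib.Twisted.FixAll
import Cfsg.Agent.Lib.Twisted.D4H
import Cfsg.Agent.Lib.Twisted.D4b

/-!
The fixed points of triality in the Chevalley group of type `D₄` form the Chevalley group of type `G₂`.
-/

set_option autoImplicit false
set_option linter.unusedSectionVars false
set_option linter.unusedVariables false
set_option linter.ambiguousOpen false

namespace Cfsg.Agent.Lib.Steinberg.FoldD4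

open scoped MatrixGroups Matrix
open Cfsg _root_.Cfsg.Lie ChevalleyDatum
open Cfsg.Agent.Lib.Chev
open Tables Tables2 Tables3 Tables4 Raise Basic AxBasic Torus Products Mono1 Mono2 Mono3 Bn
open _root_.Cfsg.Agent.Lib.Steinberg.Rel _root_.Cfsg.Agent.Lib.Steinberg.Fold _root_.Cfsg.Agent.Lib.Steinberg.FoldGen
open _root_.Cfsg.Agent.Lib.Steinberg.AutRoot _root_.Cfsg.Agent.Lib.Steinberg.AutExist
open Cfsg.Agent.Lib.Twisted Cfsg.Agent.Lib.Twisted.Tw Cfsg.Agent.Lib.Twisted.Struct Cfsg.Agent.Lib.Twisted.FixAll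
open Diag
open Cfsg.Agent.Lib.Twisted.TorusFix Cfsg.Agent.Lib.Twisted.Check
open Cfsg.Agent.Lib.Lie.Facts (IsData)
open Cfsg.Agent.Lib.Lie.AxOf (ax_of_mem)

universe u

variable {F : Type u} [Field F]

theorem memG2 : chevG2 ∈ [chevG2, chevB2, chevD4, chevF4, chevE6, chevE7, chevE8] := by simp
theorem memD4 : chevD4 ∈ [chevG2, chevB2, chevD4, chevF4, chevE6, chevE7, chevE8] := by simp

theorem isDataG2 : IsData chevG2 := memG2

section

variable (ax : Ax chevD4 F)

theorem hltG : ∀ r, r < chevG2.nroots → ∀ e ∈ iotaG r, e.1 < chevD4.nroots := by decide +kernel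

theorem hposG : ∀ r, chevG2.IsPosRoot r → ∀ e ∈ iotaG r, chevD4.IsPosRoot e.1 := by
  intro r hr
  have h0 := hr.1
  have : ∀ r : Fin 12, chevG2.IsPosRoot r → ∀ e ∈ iotaG r, chevD4.IsPosRoot e.1 := by decide +kernel
  exact this ⟨r, h0⟩ hr

/-- The relations of `G₂`. -/
theorem stRelG : StRel chevG2 (yF iotaG (xG ax)) :=
  stRel_fold (_root_.Cfsg.Agent.Lib.Steinberg.Levi.stRel_xG ax) (m := 0) Int.cast_zero hltG chkG

variable [Finite F]

theorem exists_map : ∃ f : ↥(chevG2.group F) →* GL chevD4.Idx F, Function.Injective f ∧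
    ∀ r t, r < chevG2.nroots → f (xg (ax_of_mem isDataG2) r t) = yF iotaG (xG ax) r t := by
  have hinj := thAB_inj_of_cert (F := F) isDataG2
    (_root_.Cfsg.Agent.Lib.Steinberg.CenterCert.center_trivial isDataG2 _root_.Cfsg.Agent.Lib.Steinberg.CenterCert.cert_G2)
  obtain ⟨f, hf⟩ := exists_fold isDataG2 hinj (stRelG ax)
  refine ⟨f, ?_, hf⟩
  exact fold_inj ax memD4 isDataG2 f hf hposG (i := 1) (j := 1) (by decide) (by decide) (by decide +kernel) (by decide +kernel)

end

section fix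

variable [Fintype F] (ax : Ax chevD4 F)

lemma hpow (t : F) : t ^ Fintype.card F = t := FiniteField.pow_card t

lemma hpow2 (t : F) : t ^ (Fintype.card F ^ 2) = t := by
  rw [pow_two, pow_mul, hpow, hpow]

lemma hφ : ∀ t : F, (RingEquiv.refl F) t = t ^ Fintype.card F := fun t => (hpow t).symm

lemma hφ3 : ∀ t : F, (RingEquiv.refl F) ((RingEquiv.refl F) ((RingEquiv.refl F) t)) = t := fun _ => rfl

/-- The twist. -/
noncomputable abbrev twi (ax : Ax chevD4 F) := D4.twD (RingEquiv.refl F) ax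

lemma torus_fix {a : GL chevD4.Idx F} (ha : a ∈ chevD4.diagonalSubgroup F) (hfix : (twi ax).s a = a) :
    a ∈ twistedD4 F (Fintype.card F) := by
  obtain ⟨c, rfl⟩ := Diag.exists_psi D4.hD D4.hD2 ax ha
  have e := D4H.s_psi ax (RingEquiv.refl F) c
  have e2 : tor chevD4 (psi chevD4 c) = tor chevD4 (psi chevD4 fun i => D4H.φu (RingEquiv.refl F) (c (D4H.bar i))) :=
    hfix.symm.trans e
  obtain ⟨c', e3, h0, h2, h3, h1⟩ := D4H.exists_symm (RingEquiv.refl F) e2
  rw [e3]
  exact D4H.mem_G1 ax (RingEquiv.refl F) hφ hφ3 h0 h2 h1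

theorem fix_eq : (twi ax).Fx = twistedD4 F (Fintype.card F) := by
  have T := D4.TD4 (RingEquiv.refl F) hφ hφ3 ax
  exact le_antisymm (Fx_le T D4.hD2 fun a ha h => torus_fix ax ha h) T.G1_le

lemma y7 (t : F) : yF iotaG (xG ax) 7 t = xG ax 18 t * xG ax 13 t * xG ax 12 t := by
  simp [yF, iotaG, tabG, mul_assoc]

lemma y4 (t : F) : yF iotaG (xG ax) 4 t = xG ax 5 t * xG ax 10 t * xG ax 11 t := by
  simp [yF, iotaG, tabG, mul_assoc]

lemma y6 (t : F) : yF iotaG (xG ax) 6 t = xG ax 14 t := by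
  simp [yF, iotaG, tabG]

lemma y5 (t : F) : yF iotaG (xG ax) 5 t = xG ax 9 t := by
  simp [yF, iotaG, tabG]

lemma mem7 (t : F) : yF iotaG (xG ax) 7 t ∈ twistedD4 F (Fintype.card F) := by
  have := D4.mem_triple (q := Fintype.card F) (rs := (18, 13, 12)) ax (by decide) t
  simp only [hpow, hpow2] at this
  rw [y7]
  exact this

lemma mem4 (t : F) : yF iotaG (xG ax) 4 t ∈ twistedD4 F (Fintype.card F) := by
  have := D4.mem_triple (q := Fintype.card F) (rs := (5, 10, 11)) ax (by decide) t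
  simp only [hpow, hpow2] at this
  rw [y4]
  exact this

lemma mem6 (t : F) : yF iotaG (xG ax) 6 t ∈ twistedD4 F (Fintype.card F) := by
  rw [y6]
  exact D4.mem_single ax (r := 14) (by decide) (hpow t)

lemma mem5 (t : F) : yF iotaG (xG ax) 5 t ∈ twistedD4 F (Fintype.card F) := by
  rw [y5]
  exact D4.mem_single ax (r := 9) (by decide) (hpow t)

theorem range_eq {f : ↥(chevG2.group F) →* GL chevD4.Idx F}
    (hf : ∀ r t, r < chevG2.nroots → f (xg (ax_of_mem isDataG2) r t) = yF iotaG (xG ax) r t) :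
    f.range = twistedD4 F (Fintype.card F) := by
  apply le_antisymm
  · apply range_le_of_simple isDataG2
    · intro i hi t
      have hi' : i < 2 := hi
      interval_cases i
      · exact (hf 7 t (by decide)) ▸ mem7 ax t
      · exact (hf 6 t (by decide)) ▸ mem6 ax t
    · intro i hi t
      have hi' : i < 2 := hi
      interval_cases i
      · exact (hf 4 t (by decide)) ▸ mem4 ax t
      · exact (hf 5 t (by decide)) ▸ mem5 ax t
  · rw [twistedD4, genSubgroup, Subgroup.closure_le]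
    rintro g ⟨w, hw, hg⟩
    rcases hw with ⟨t, ht, r, hr, rfl⟩ | ⟨t, rs, hrs, rfl⟩
    · have e : g = xG ax r t := Units.ext (by rw [hg, xG_val, D4.word_single])
      rw [e]
      simp only [List.mem_cons, List.not_mem_nil, or_false] at hr
      rcases hr with rfl | rfl
      · exact ⟨xg (ax_of_mem isDataG2) 6 t, (hf 6 t (by decide)).trans (y6 ax t)⟩
      · exact ⟨xg (ax_of_mem isDataG2) 5 t, (hf 5 t (by decide)).trans (y5 ax t)⟩
    · have e : g = xG ax rs.1 t * xG ax rs.2.1 t * xG ax rs.2.2 t :=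
        Units.ext (by rw [hg, D4.word_triple]; simp [hpow, hpow2])
      rw [e]
      simp only [List.mem_cons, List.not_mem_nil, or_false] at hrs
      rcases hrs with rfl | rfl
      · exact ⟨xg (ax_of_mem isDataG2) 7 t, (hf 7 t (by decide)).trans (y7 ax t)⟩
      · exact ⟨xg (ax_of_mem isDataG2) 4 t, (hf 4 t (by decide)).trans (y4 ax t)⟩

end fix

section aut

variable [Fintype F] (ax : Ax chevD4 F)

/-- The twist as a homomorphism. -/
noncomputable def sHom (ax : Ax chevD4 F) : ↥(chevD4.group F) →* GL chevD4.Idx F where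
  toFun g := (twi ax).s g.1
  map_one' := (twi ax).s_one
  map_mul' a b := (twi ax).s_mul a.1 a.2 b.1 b.2

theorem ρ_neg_simple : ∀ i : Fin 4, D4.Sd.ρ (chevD4.neg (chevD4.simple i)) = chevD4.neg (chevD4.simple (D4H.fw i)) ∧
    D4.Sd.γ (chevD4.neg (chevD4.simple i)) = 1 := by
  decide +kernel

theorem ρ_simple : ∀ i : Fin 4, D4.Sd.ρ (chevD4.simple i) = chevD4.simple (D4H.fw i) ∧
    D4.Sd.γ (chevD4.simple i) = 1 := by
  decide +kernel

theorem hsimple_lt : ∀ i : Fin 4, chevD4.simple i < chevD4.nroots ∧ chevD4.neg (chevD4.simple i) < chevD4.nroots := by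
  decide +kernel

/-- An automorphism acting as the symmetry on the generators is the twist. -/
theorem eq_s {τ : MulAut ↥(chevD4.group F)}
    (h1 : ∀ i, i < 4 → ∀ t, τ (xg ax (chevD4.simple i) t) = xg ax (chevD4.simple (D4H.fw i)) t)
    (h2 : ∀ i, i < 4 → ∀ t, τ (xg ax (chevD4.neg (chevD4.simple i)) t) = xg ax (chevD4.neg (chevD4.simple (D4H.fw i))) t)
    (g : ↥(chevD4.group F)) : ((τ g : ↥(chevD4.group F)) : GL chevD4.Idx F) = (twi ax).s g.1 := by
  have := AutExist.hom_ext D4.hD D4.hD2 ax (σ₁ := (chevD4.group F).subtype.comp τ.toMonoidHom) (σ₂ := sHom ax)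
    (by
      intro i hi t
      simp only [MonoidHom.comp_apply, MulEquiv.coe_toMonoidHom, Subgroup.subtype_apply]
      rw [h1 i hi t]
      exact (D4.s_xD (RingEquiv.refl F) ax (hsimple_lt ⟨i, hi⟩).1 (ρ_simple ⟨i, hi⟩).1 (ρ_simple ⟨i, hi⟩).2 t).symm)
    (by
      intro i hi t
      simp only [MonoidHom.comp_apply, MulEquiv.coe_toMonoidHom, Subgroup.subtype_apply]
      rw [h2 i hi t]
      exact (D4.s_xD (RingEquiv.refl F) ax (hsimple_lt ⟨i, hi⟩).2 (ρ_neg_simple ⟨i, hi⟩).1 (ρ_neg_simple ⟨i, hi⟩).2 t).symm)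
  exact DFunLike.congr_fun this g

/-- The first 3-cycle. -/
def perm1 : Equiv.Perm (Fin 4) := ⟨![2, 1, 3, 0], ![3, 1, 0, 2], by decide, by decide⟩

/-- The second 3-cycle. -/
def perm2 : Equiv.Perm (Fin 4) := ⟨![3, 1, 0, 2], ![2, 1, 3, 0], by decide, by decide⟩

theorem perm_cases : ∀ π : Equiv.Perm (Fin 4), (∀ i j : Fin 4, i ≠ j → chevD4.bonds (π i) (π j) = chevD4.bonds i j) →
    π * π = 1 ∨ π = perm1 ∨ π = perm2 := by
  decide +kernel

theorem hbonds : ∀ i j : Fin 4, chevD4.graphExp (ringChar F) i j = 1 := by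
  have hL : ∀ i : Fin 4, chevD4.isLong (chevD4.simple i) = false := by decide +kernel
  intro i j
  simp [graphExp, hL]

/-- The main theorem, with the fixed points described by the twist. -/
theorem fix_iff {τ : MulAut ↥(chevD4.group F)} (hτ : chevD4.IsGraphAut τ) (hτ3 : orderOf τ = 3)
    (g : ↥(chevD4.group F)) : τ g = g ↔ (twi ax).s g.1 = g.1 := by
  obtain ⟨π, hπ, hs⟩ := hτ
  have f1 : ∀ (i : Fin chevD4.rank) t, τ (xg ax (chevD4.simple i) t) = xg ax (chevD4.simple (π i)) t := by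
    intro i t
    apply Subtype.ext
    apply Units.ext
    have := (hs (xg ax (chevD4.simple i) t) i t).1 (xG_val ax _ _)
    rw [this, hbonds i (π i), pow_one]
    exact (xG_val ax _ _).symm
  have f2 : ∀ (i : Fin chevD4.rank) t, τ (xg ax (chevD4.neg (chevD4.simple i)) t) = xg ax (chevD4.neg (chevD4.simple (π i))) t := by
    intro i t
    apply Subtype.ext
    apply Units.ext
    have := (hs (xg ax (chevD4.neg (chevD4.simple i)) t) i t).2 (xG_val ax _ _)
    rw [this, hbonds i (π i), pow_one]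
    exact (xG_val ax _ _).symm
  rcases perm_cases π hπ with h2 | rfl | rfl
  · exfalso
    have : τ * τ = 1 := by
      apply aut_ext D4.hD D4.hD2 ax
      · intro i hi t
        show τ (τ (xg ax (chevD4.simple i) t)) = xg ax (chevD4.simple i) t
        rw [f1 ⟨i, hi⟩ t, f1 (π ⟨i, hi⟩) t]
        have : π (π ⟨i, hi⟩) = ⟨i, hi⟩ := by
          have := congrArg (fun p : Equiv.Perm (Fin 4) => p ⟨i, hi⟩) h2
          exact this
        rw [this]
      · intro i hi t
        show τ (τ (xg ax (chevD4.neg (chevD4.simple i)) t)) = xg ax (chevD4.neg (chevD4.simple i)) t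
        rw [f2 ⟨i, hi⟩ t, f2 (π ⟨i, hi⟩) t]
        have : π (π ⟨i, hi⟩) = ⟨i, hi⟩ := by
          have := congrArg (fun p : Equiv.Perm (Fin 4) => p ⟨i, hi⟩) h2
          exact this
        rw [this]
    have h3 : τ ^ 2 = 1 := by rw [pow_two, this]
    have h4 := orderOf_dvd_of_pow_eq_one h3
    rw [hτ3] at h4
    omega
  · have hr : ∀ g, ((τ g : ↥(chevD4.group F)) : GL chevD4.Idx F) = (twi ax).s g.1 := by
      apply eq_s ax
      · intro i hi t
        have := f1 ⟨i, hi⟩ t
        interval_cases i <;> exact this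
      · intro i hi t
        have := f2 ⟨i, hi⟩ t
        interval_cases i <;> exact this
    rw [← hr]
    exact ⟨fun h => by rw [h], fun h => Subtype.ext h⟩
  · have hr : ∀ g, ((τ⁻¹ g : ↥(chevD4.group F)) : GL chevD4.Idx F) = (twi ax).s g.1 := by
      apply eq_s ax
      · intro i hi t
        have := f1 (perm1 ⟨i, hi⟩) t
        show τ.symm _ = _
        rw [MulEquiv.symm_apply_eq]
        interval_cases i <;> exact this.symm
      · intro i hi t
        have := f2 (perm1 ⟨i, hi⟩) t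
        show τ.symm _ = _
        rw [MulEquiv.symm_apply_eq]
        interval_cases i <;> exact this.symm
    rw [← hr]
    constructor
    · intro h
      have : τ⁻¹ g = g := by
        show τ.symm _ = _
        rw [MulEquiv.symm_apply_eq]
        exact h.symm
      rw [this]
    · intro h
      have h2 : τ.symm g = g := Subtype.ext h
      rw [MulEquiv.symm_apply_eq] at h2
      exact h2.symm

include ax in
/-- The fixed points of a triality automorphism. -/
theorem main {τ : MulAut ↥(chevD4.group F)} (hτ : chevD4.IsGraphAut τ) (hτ3 : orderOf τ = 3) :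
    Nonempty (↥(MonoidHom.eqLocus τ.toMonoidHom (MonoidHom.id ↥(chevD4.group F))) ≃* ↥(chevG2.group F)) := by
  obtain ⟨f, hf, hf2⟩ := exists_map ax
  refine iso_of_fix hf (range_eq ax hf2) ?_
  rw [← fix_eq ax]
  ext x
  constructor
  · rintro ⟨g, hg, rfl⟩
    exact ⟨g.2, (fix_iff ax hτ hτ3 g).mp hg⟩
  · rintro ⟨hx, hs⟩
    exact ⟨⟨x, hx⟩, (fix_iff ax hτ hτ3 ⟨x, hx⟩).mpr hs, rfl⟩

end aut

end Cfsg.Agent.Lib.Steinberg.FoldD4
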