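import Cfsg.Agent.Lib.Steinberg.Universal

/-!
Central extensions whose kernel has no `p`-torsion: root elements of order dividing `p` satisfy the relations (R1), (R2).
Projective representations in the natural characteristic.
-/

set_option autoImplicit false
set_option linter.unusedSectionVars false
set_option linter.unusedVariables false

namespace Cfsg.Agent.Lib.Steinberg.PLift

open scoped MatrixGroups Matrix
open Cfsg _root_.Cfsg.Lie ChevalleyDatum
open Cfsg.Agent.Lib.Chev
open Tables Tables2 Raise Basic AxBasic Products Mono1 Mono2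
open _root_.Cfsg.Agent.Lib.Steinberg.Rel _root_.Cfsg.Agent.Lib.Steinberg.Conj _root_.Cfsg.Agent.Lib.Steinberg.Bruhat
open _root_.Cfsg.Agent.Lib.Steinberg.CExt _root_.Cfsg.Agent.Lib.Steinberg.UTab _root_.Cfsg.Agent.Lib.Steinberg.Univ
open _root_.Cfsg.Agent.Lib.Steinberg.Present _root_.Cfsg.Agent.Lib.Steinberg.Universal
open Cfsg.Agent.Lib.Lie.Facts (IsData)

universe u v w x

variable {D : ChevalleyDatum} {F : Type u} [Field F] {Γ : Type v} [Group Γ] {E : Type w} [Group E]

/-- A functional positive on two non-opposite roots. -/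
lemma exists_half_pos (hD : IsData D) : ∀ r, r < D.nroots → ∀ s, s < D.nroots → s ≠ r → s ≠ D.neg r →
    ∃ f : ℕ → ℤ, 0 < lin D f r ∧ 0 < lin D f s := by
  have h := tab_of_mem hD
  have h2 := tab2_of_mem hD
  apply root_induct hD (P := fun r => ∀ s, s < D.nroots → s ≠ r → s ≠ D.neg r →
    ∃ f : ℕ → ℤ, 0 < lin D f r ∧ 0 < lin D f s)
  · intro i hi s hs h1 h3
    obtain ⟨m, hm, hmi, hc⟩ := exists_coef_other h h2 hi hs h1 h3
    have hlin : ∀ (A : ℤ) (x : ℕ), lin D (fun j => wt i 1 j + wt m A j) x = coef D x i + A * coef D x m := by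
      intro A x
      have e1 : lin D (fun j => wt i 1 j + wt m A j) x = lin D (wt i 1) x + lin D (wt m A) x := by
        simp only [lin, add_mul, Finset.sum_add_distrib]
      rw [e1, lin_wt hi, lin_wt hm, one_mul]
    have hsim := h.simple_lt i hi
    set B : ℤ := |coef D s i| + 1 with hB
    set A : ℤ := (coef D s m).sign * B with hA
    refine ⟨fun j => wt i 1 j + wt m A j, ?_, ?_⟩
    · rw [hlin, h.coef_simple i hi i hi, h.coef_simple i hi m hm, if_pos rfl, if_neg hmi]
      norm_num
    · rw [hlin]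
      have e2 : A * coef D s m = B * |coef D s m| := by
        rw [hA, mul_assoc, mul_comm B, ← mul_assoc, Int.sign_mul_self_eq_abs, mul_comm]
      rw [e2]
      have e3 : 1 ≤ |coef D s m| := Int.one_le_abs hc
      have e4 : 0 ≤ |coef D s i| := abs_nonneg _
      have e5 := neg_abs_le (coef D s i)
      nlinarith
  · intro i hi s hs ih w hw h1 h3
    have hw' := h.reflect_lt i hi w hw
    have e1 : D.reflectRoot i w ≠ s := by
      intro e
      apply h1
      rw [← e, Mono1.reflect_reflect h hi hw]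
    have e2 : D.reflectRoot i w ≠ D.neg s := by
      intro e
      apply h3
      rw [← Mono1.reflect_neg h hi hs, ← e, Mono1.reflect_reflect h hi hw]
    obtain ⟨f, hf1, hf2⟩ := ih _ hw' e1 e2
    have key : ∀ x, x < D.nroots → lin D (fun j => f j - D.cartan i (D.simple j) * f i) x =
        lin D f (D.reflectRoot i x) := by
      intro x hx
      rw [Mono1.lin_reflect h f hi hx, h.cartan_lin i hi x hx]
      simp only [lin, sub_mul, Finset.sum_sub_distrib, Finset.mul_sum]
      congr 1
      refine Finset.sum_congr rfl fun j _ => ?_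
      ring
    refine ⟨fun j => f j - D.cartan i (D.simple j) * f i, ?_, ?_⟩
    · rw [key _ (h.reflect_lt i hi s hs), Mono1.reflect_reflect h hi hs]
      exact hf1
    · rw [key _ hw]
      exact hf2

section main

variable {p : ℕ} [Fact p.Prime] {y : ℕ → F → Γ} (hy : StRel D y) (h : Tab D) (π : E →* Γ)
  (hc : π.ker ≤ Subgroup.center E) (htor : ∀ c, π c = 1 → c ^ p = 1 → c = 1) {Y : ℕ → F → E}
  (hmap : ∀ r t, r < D.nroots → π (Y r t) = y r t) (hpow : ∀ r t, r < D.nroots → (Y r t) ^ p = 1)

include htor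

lemma tor_iter (k : ℕ) : ∀ c, π c = 1 → c ^ (p ^ k) = 1 → c = 1 := by
  induction k with
  | zero =>
    intro c _ e
    simpa using e
  | succ k ih =>
    intro c h1 e
    apply htor c h1
    apply ih (c ^ p)
    · rw [map_pow, h1, one_pow]
    · rw [← pow_mul, ← pow_succ']
      exact e

include hc in
/-- An element of `p`-power order which differs from another one by a kernel element. -/
lemma eq_of_pow {x x' : E} (hx : π x = π x') {k : ℕ} (h1 : x ^ (p ^ k) = 1) (h2 : x' ^ (p ^ k) = 1) : x = x' := by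
  obtain ⟨z, hz, rfl⟩ := exists_central π hc hx.symm
  have c1 : Commute x' z := (Subgroup.mem_center_iff.mp hz x')
  have hz1 : π z = 1 := by
    rw [map_mul] at hx
    exact mul_eq_left.mp hx
  have e : z ^ (p ^ k) = 1 := by
    have := c1.mul_pow (p ^ k)
    rw [h1, h2, one_mul] at this
    exact this.symm
  have := tor_iter π htor k z hz1 e
  rw [this, mul_one]

include hy hc hmap hpow

lemma Y_comm_self {r : ℕ} (hr : r < D.nroots) (a b : F) : Y r a * Y r b = Y r b * Y r a := by
  apply comm_of_cm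
  have h1 : π (cm (Y r a) (Y r b)) = 1 := by
    rw [map_cm, hmap r a hr, hmap r b hr]
    exact cm_of_comm (by rw [hy.add r hr, hy.add r hr, add_comm])
  have hz : cm (Y r a) (Y r b) ∈ Subgroup.center E := hc h1
  have e : cm (Y r a) (Y r b) * Y r b = Y r a * Y r b * (Y r a)⁻¹ := by
    simp [cm]
  have c1 : Commute (cm (Y r a) (Y r b)) (Y r b) := (Subgroup.mem_center_iff.mp hz _).symm
  have e2 : (cm (Y r a) (Y r b)) ^ p = 1 := by
    have e3 := c1.mul_pow p
    rw [e, conj_pow, hpow r b hr] at e3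
    simpa using e3.symm
  exact htor _ h1 e2

lemma Y_add {r : ℕ} (hr : r < D.nroots) (a b : F) : Y r a * Y r b = Y r (a + b) := by
  have c1 : Commute (Y r a) (Y r b) := Y_comm_self hy π hc htor hmap hpow hr a b
  refine eq_of_pow π hc htor (k := 1) ?_ ?_ ?_
  · rw [map_mul, hmap r a hr, hmap r b hr, hmap r _ hr, hy.add r hr]
  · rw [pow_one, c1.mul_pow, hpow r a hr, hpow r b hr, one_mul]
  · rw [pow_one]
    exact hpow r _ hr

lemma Y_zero {r : ℕ} (hr : r < D.nroots) : Y r 0 = 1 := by
  have := Y_add hy π hc htor hmap hpow hr (0 : F) 0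
  rw [add_zero] at this
  exact mul_eq_left.mp this

lemma Y_inv {r : ℕ} (hr : r < D.nroots) (t : F) : (Y r t)⁻¹ = Y r (-t) := by
  apply inv_eq_of_mul_eq_one_right
  rw [Y_add hy π hc htor hmap hpow hr, add_neg_cancel, Y_zero hy π hc htor hmap hpow hr]

include h

/-- The closure of the lifted elements in a half-space has only elements of `p`-power order. -/
theorem isP_good {c : ℕ → ℤ} {L : List ℕ} (hL : GoodL D c L) : IsPGroup p (Yc Y (· ∈ L)) := by
  induction L with
  | nil =>
    have : Yc Y (· ∈ ([] : List ℕ)) = ⊥ := by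
      rw [eq_bot_iff]
      apply Yc_le
      intro r t hr
      simp at hr
    rw [this]
    exact IsPGroup.of_bot
  | cons a L ih =>
    have hL' := hL.tail h
    have hQ := ih hL'
    obtain ⟨ha0, ha1⟩ := hL.pos a (by simp)
    have hQ' : ∀ x ∈ Yc Y (· ∈ L), ∃ k, x ^ (p ^ k) = 1 := by
      intro x hx
      obtain ⟨k, e⟩ := hQ ⟨x, hx⟩
      exact ⟨k, congrArg Subtype.val e⟩
    have hex : ∀ b ∈ Yc y (· ∈ L), ∃ x ∈ Yc Y (· ∈ L), π x = b := by
      intro b hb
      rw [Yc] at hb
      induction hb using Subgroup.closure_induction with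
      | mem x hx =>
        obtain ⟨r, t, hr, rfl⟩ := hx
        exact ⟨Y r t, y_mem_Yc Y hr t, hmap r t (hL'.pos r hr).1⟩
      | one => exact ⟨1, Subgroup.one_mem _, map_one _⟩
      | mul a b _ _ ha hb =>
        obtain ⟨x, hx, rfl⟩ := ha
        obtain ⟨x', hx', rfl⟩ := hb
        exact ⟨x * x', Subgroup.mul_mem _ hx hx', map_mul _ _ _⟩
      | inv a _ ha =>
        obtain ⟨x, hx, rfl⟩ := ha
        exact ⟨x⁻¹, Subgroup.inv_mem _ hx, map_inv _ _⟩
    have hconj : ∀ t, ∀ x ∈ Yc Y (· ∈ L), Y a t * x * (Y a t)⁻¹ ∈ Yc Y (· ∈ L) := by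
      intro t x hx
      refine conj_closure ?_ hx
      intro w v hw
      obtain ⟨hw0, hw1⟩ := hL'.pos w hw
      have hb : y a t * y w v * (y a t)⁻¹ ∈ Yc y (· ∈ L) := by
        have := head_conj_tail hy h hL (-t) (y_mem_Yc y hw v)
        rw [← hy.inv ha0, inv_inv] at this
        exact this
      obtain ⟨x', hx', e⟩ := hex _ hb
      obtain ⟨k, ek⟩ := hQ' x' hx'
      have e1 : Y a t * Y w v * (Y a t)⁻¹ = x' := by
        refine eq_of_pow π hc htor (k := k + 1) ?_ ?_ ?_
        · rw [e]
          simp only [map_mul, map_inv, hmap _ _ ha0, hmap _ _ hw0]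
        · rw [pow_succ', pow_mul, conj_pow, hpow w v hw0, mul_one, mul_inv_cancel, one_pow]
        · rw [pow_succ, pow_mul, ek, one_pow]
      rw [e1]
      exact hx'
    let H : Subgroup E := Subgroup.closure {g | ∃ t, g = Y a t}
    have hH : ∀ x ∈ H, ∃ t, x = Y a t := by
      intro x hx
      induction hx using Subgroup.closure_induction with
      | mem x hx => exact hx
      | one => exact ⟨0, (Y_zero hy π hc htor hmap hpow ha0).symm⟩
      | mul a b _ _ ha hb =>
        obtain ⟨t, rfl⟩ := ha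
        obtain ⟨u, rfl⟩ := hb
        exact ⟨t + u, Y_add hy π hc htor hmap hpow ha0 t u⟩
      | inv a _ ha =>
        obtain ⟨t, rfl⟩ := ha
        exact ⟨-t, Y_inv hy π hc htor hmap hpow ha0 t⟩
    have hHp : IsPGroup p H := by
      rintro ⟨x, hx⟩
      obtain ⟨t, rfl⟩ := hH x hx
      refine ⟨1, Subtype.ext ?_⟩
      simpa using hpow a t ha0
    have hnorm : H ≤ Subgroup.normalizer (Yc Y (· ∈ L)) := by
      intro x hx
      obtain ⟨t, rfl⟩ := hH x hx
      rw [Subgroup.mem_normalizer_iff]
      intro g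
      constructor
      · exact hconj t g
      · intro hg
        have := hconj (-t) _ hg
        rw [← Y_inv hy π hc htor hmap hpow ha0 t] at this
        simpa [mul_assoc] using this
    have hsup := IsPGroup.to_sup_of_normal_right' hHp hQ hnorm
    refine hsup.to_le ?_
    apply Yc_le
    intro r t hr
    rcases List.mem_cons.mp hr with rfl | hr
    · exact Subgroup.mem_sup_left (Subgroup.subset_closure ⟨t, rfl⟩)
    · exact Subgroup.mem_sup_right (y_mem_Yc Y hr t)

omit h in
/-- The lifted elements satisfy the relations. -/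
theorem stRel_of_pLift (hD : IsData D) : StRel D Y where
  add := fun r hr a b => Y_add hy π hc htor hmap hpow hr a b
  comm := by
    intro r s hr hs h3 h4 t u
    have hh := tab_of_mem hD
    obtain ⟨f, hf1, hf2⟩ := exists_half_pos hD r hr s hs h3 h4
    obtain ⟨c, L, hL, hmem⟩ := exists_goodL hh f
    have hrL : r ∈ L := (hmem r).mpr ⟨hr, hf1⟩
    have hsL : s ∈ L := (hmem s).mpr ⟨hs, hf2⟩
    have hwm : wY Y (D.commWord F r s t u) ∈ Yc Y (· ∈ L) := by
      apply wY_mem_Yc
      intro p hp
      obtain ⟨k, hk, rfl⟩ := commWord_mem_iff.mp hp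
      exact hL.closed r hrL s hsL (Ne.symm h3) k hk
    have hmapw : π (wY Y (D.commWord F r s t u)) = wY y (D.commWord F r s t u) := by
      have : ∀ w : List (ℕ × F), (∀ p ∈ w, p.1 < D.nroots) → π (wY Y w) = wY y w := by
        intro w
        induction w with
        | nil => simp
        | cons a w ih =>
          intro hw
          rw [wY_cons, wY_cons, map_mul, hmap _ _ (hw a (by simp)), ih fun p hp => hw p (by simp [hp])]
      apply this
      intro p hp
      obtain ⟨k, hk, rfl⟩ := commWord_mem_iff.mp hp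
      exact (commTerms_spec hh hr hs hk).1
    have hP := isP_good hy hh π hc htor hmap hpow hL
    have hm : (Y s u * Y r t) * (Y r t * Y s u * wY Y (D.commWord F r s t u))⁻¹ ∈ Yc Y (· ∈ L) :=
      Subgroup.mul_mem _ (Subgroup.mul_mem _ (y_mem_Yc Y hsL u) (y_mem_Yc Y hrL t))
        (Subgroup.inv_mem _ (Subgroup.mul_mem _ (Subgroup.mul_mem _ (y_mem_Yc Y hrL t) (y_mem_Yc Y hsL u)) hwm))
    obtain ⟨k, ek⟩ := hP ⟨_, hm⟩
    have ek' := congrArg Subtype.val ek
    simp only [Subgroup.coe_pow, Subgroup.coe_one] at ek'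
    have := tor_iter π htor k _ (by
      simp only [map_mul, map_inv, hmap _ _ hr, hmap _ _ hs, hmapw]
      rw [hy.comm r s hr hs h3 h4 t u, mul_inv_cancel]) ek'
    exact mul_inv_eq_one.mp this

end main

/-! ### Projective representations -/

section rep

/-- The relations are preserved by homomorphisms. -/
lemma stRel_map {Γ' : Type x} [Group Γ'] {y : ℕ → F → Γ} (hy : StRel D y) (f : Γ →* Γ') : StRel D (fun r t => f (y r t)) := by
  have hw : ∀ w : List (ℕ × F), f (wY y w) = wY (fun r t => f (y r t)) w := by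
    intro w
    induction w with
    | nil => simp
    | cons a w ih => rw [wY_cons, wY_cons, map_mul, ih]
  refine ⟨fun r hr a b => ?_, fun r s hr hs h3 h4 t u => ?_⟩
  · rw [← map_mul, hy.add r hr]
  · have := congrArg f (hy.comm r s hr hs h3 h4 t u)
    rw [map_mul, map_mul, map_mul, hw] at this
    exact this

/-- Powers of root elements. -/
lemma stRel_pow {y : ℕ → F → Γ} (hy : StRel D y) {r : ℕ} (hr : r < D.nroots) (t : F) (k : ℕ) : y r t ^ k = y r ((k : F) * t) := by
  induction k with
  | zero => simp [hy.zero hr]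
  | succ k ih =>
    rw [pow_succ, ih, hy.add r hr]
    push_cast
    ring_nf

variable {L : Type x} [Field L] {n : ℕ}

/-- The lift over the algebraic closure. -/
theorem exists_lift_closure (hD : IsData D) {p : ℕ} [Fact p.Prime] [CharP F p] {A : Type x} [Field A] [IsAlgClosed A] [CharP A p]
    (σ : D.SteinbergCover F →* GL (Fin n) A ⧸ Subgroup.center (GL (Fin n) A)) :
    ∃ ψ : D.SteinbergCover F →* GL (Fin n) A, (QuotientGroup.mk' (Subgroup.center (GL (Fin n) A))).comp ψ = σ := by
  classical
  have hh := tab_of_mem hD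
  have hp0 : 0 < p := (Fact.out : p.Prime).pos
  let π := QuotientGroup.mk' (Subgroup.center (GL (Fin n) A))
  have hy' : StRel D (fun r t => σ (yAB D F r t)) := stRel_map stRel_AB σ
  have hker : π.ker = Subgroup.center (GL (Fin n) A) := QuotientGroup.ker_mk' _
  have hc : π.ker ≤ Subgroup.center (GL (Fin n) A) := hker.le
  have htor : ∀ c, π c = 1 → c ^ p = 1 → c = 1 := by
    intro c h1 h2
    have hc' : c ∈ Subgroup.center (GL (Fin n) A) := hc h1
    rw [Matrix.GeneralLinearGroup.center_eq_range_scalar] at hc'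
    obtain ⟨u, rfl⟩ := hc'
    rw [← map_pow] at h2
    apply Units.ext
    ext i j
    have e : ((Matrix.GeneralLinearGroup.scalar (Fin n) (u ^ p) : GL (Fin n) A) : Matrix (Fin n) (Fin n) A) i i =
        ((1 : GL (Fin n) A) : Matrix (Fin n) (Fin n) A) i i := by rw [h2]
    have e1 : ((u : A)) ^ p = 1 := by
      have e' : Matrix.scalar (Fin n) (((u ^ p : Aˣ)) : A) i i = (1 : Matrix (Fin n) (Fin n) A) i i := e
      rw [Matrix.scalar_apply, Matrix.diagonal_apply_eq, Matrix.one_apply_eq, Units.val_pow_eq_pow_val] at e'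
      exact e'
    have e2 : (u : A) - 1 = 0 := by
      have : ((u : A) - 1) ^ p = (u : A) ^ p - 1 ^ p := sub_pow_char (u : A) 1
      rw [e1, one_pow, sub_self] at this
      exact pow_eq_zero_iff hp0.ne' |>.mp this
    have e3 : (u : A) = 1 := sub_eq_zero.mp e2
    have e4 : u = 1 := Units.ext e3
    rw [e4, map_one]
  have hlift : ∀ r t, r < D.nroots → ∃ e : GL (Fin n) A, π e = σ (yAB D F r t) ∧ e ^ p = 1 := by
    intro r t hr
    obtain ⟨g, hg⟩ := QuotientGroup.mk'_surjective (Subgroup.center (GL (Fin n) A)) (σ (yAB D F r t))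
    have hg' : π g = σ (yAB D F r t) := hg
    have h1 : π (g ^ p) = 1 := by
      rw [map_pow, hg', ← map_pow, stRel_pow (stRel_AB (D := D) (F := F)) hr t p, CharP.cast_eq_zero, zero_mul,
        (stRel_AB (D := D) (F := F)).zero hr, map_one]
    have h2 : g ^ p ∈ Subgroup.center (GL (Fin n) A) := hc h1
    rw [Matrix.GeneralLinearGroup.center_eq_range_scalar] at h2
    obtain ⟨u, hu⟩ := h2
    obtain ⟨d, hd⟩ := IsAlgClosed.exists_pow_nat_eq (u : A) hp0
    have hd0 : d ≠ 0 := by
      rintro rfl
      rw [zero_pow hp0.ne'] at hd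
      exact u.ne_zero hd.symm
    let d' : Aˣ := Units.mk0 d hd0
    have hd' : d' ^ p = u := Units.ext (by simpa [d'] using hd)
    have hs : Matrix.GeneralLinearGroup.scalar (Fin n) d' ∈ Subgroup.center (GL (Fin n) A) := by
      rw [Matrix.GeneralLinearGroup.center_eq_range_scalar]
      exact ⟨d', rfl⟩
    refine ⟨g * (Matrix.GeneralLinearGroup.scalar (Fin n) d')⁻¹, ?_, ?_⟩
    · have : π (Matrix.GeneralLinearGroup.scalar (Fin n) d') = 1 := by
        rw [← MonoidHom.mem_ker, hker]
        exact hs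
      rw [map_mul, map_inv, this, inv_one, mul_one, hg']
    · have c1 : Commute g (Matrix.GeneralLinearGroup.scalar (Fin n) d')⁻¹ :=
        show g * _ = _ * g from (Subgroup.mem_center_iff.mp (Subgroup.inv_mem _ hs) g)
      rw [c1.mul_pow, ← hu, inv_pow, ← map_pow, hd', mul_inv_cancel]
  choose! Y hY1 hY2 using hlift
  have hY : StRel D Y := stRel_of_pLift hy' π hc htor hY1 hY2 hD
  refine ⟨homOf hh hY, ?_⟩
  apply hom_ext
  intro r t hr
  simp only [MonoidHom.comp_apply]
  rw [homOf_gen hh hY hr t]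
  exact hY1 r t hr

lemma map_injective {A : Type x} [Field A] [Algebra L A] :
    Function.Injective (Matrix.GeneralLinearGroup.map (n := Fin n) (algebraMap L A)) := by
  intro a b h
  apply Units.ext
  ext i j
  have e := congrArg (fun g : GL (Fin n) A => (g : Matrix (Fin n) (Fin n) A) i j) h
  exact (algebraMap L A).injective e

/-- The lift for projective representations in the natural characteristic. -/
theorem exists_lift_charP (hD : IsData D) (hperf : commutator (D.SteinbergCover F) = ⊤) {p : ℕ} [Fact p.Prime] [CharP F p] [CharP L p]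
    (σ : D.SteinbergCover F →* GL (Fin n) L ⧸ Subgroup.center (GL (Fin n) L)) :
    ∃ ψ : D.SteinbergCover F →* GL (Fin n) L, (QuotientGroup.mk' (Subgroup.center (GL (Fin n) L))).comp ψ = σ := by
  classical
  let A := AlgebraicClosure L
  have : CharP A p := charP_of_injective_algebraMap (algebraMap L A).injective p
  let ι : GL (Fin n) L →* GL (Fin n) A := Matrix.GeneralLinearGroup.map (algebraMap L A)
  have hι : Function.Injective ι := map_injective
  let ρ : GL (Fin n) L ⧸ Subgroup.center (GL (Fin n) L) →* GL (Fin n) A ⧸ Subgroup.center (GL (Fin n) A) :=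
    QuotientGroup.map _ _ ι (Matrix.GeneralLinearGroup.map_center_le (algebraMap L A))
  obtain ⟨ψ', hψ'⟩ := exists_lift_closure (F := F) (A := A) hD (ρ.comp σ)
  have hform : ∀ g, ∀ g₀ : GL (Fin n) L, (QuotientGroup.mk g₀ : GL (Fin n) L ⧸ Subgroup.center (GL (Fin n) L)) = σ g →
      (ι g₀)⁻¹ * ψ' g ∈ Subgroup.center (GL (Fin n) A) := by
    intro g g₀ hg
    have e := congrFun (congrArg DFunLike.coe hψ') g
    simp only [MonoidHom.comp_apply, ← hg] at e
    have e2 : (QuotientGroup.mk (ψ' g) : GL (Fin n) A ⧸ Subgroup.center (GL (Fin n) A)) = QuotientGroup.mk (ι g₀) := e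
    exact QuotientGroup.eq.mp e2.symm
  have hex : ∀ g, ∃ g₀ : GL (Fin n) L, (QuotientGroup.mk g₀ : GL (Fin n) L ⧸ Subgroup.center (GL (Fin n) L)) = σ g :=
    fun g => QuotientGroup.mk_surjective (σ g)
  have hrange : ∀ g, ψ' g ∈ ι.range := by
    have hle : (⊤ : Subgroup (D.SteinbergCover F)) ≤ ι.range.comap ψ' := by
      rw [← hperf, commutator_def, Subgroup.commutator_le]
      rintro a _ b _
      rw [commutatorElement_def]
      obtain ⟨a₀, ha₀⟩ := hex a
      obtain ⟨b₀, hb₀⟩ := hex b
      have h1 := hform a a₀ ha₀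
      have h2 := hform b b₀ hb₀
      have e1 : ψ' a = ι a₀ * ((ι a₀)⁻¹ * ψ' a) := by group
      have e2 : ψ' b = ι b₀ * ((ι b₀)⁻¹ * ψ' b) := by group
      have key : cm (ψ' a) (ψ' b) = ι (cm a₀ b₀) := by
        rw [e1, e2, cm_mul_central_left h1, cm_mul_central_right h2, map_cm]
        rfl
      refine ⟨cm a₀ b₀, ?_⟩
      rw [← key]
      simp [cm]
    exact fun g => hle (Subgroup.mem_top g)
  let e := MonoidHom.ofInjective hι
  let ψ : D.SteinbergCover F →* GL (Fin n) L := e.symm.toMonoidHom.comp (ψ'.codRestrict ι.range hrange)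
  have hψ : ∀ g, ι (ψ g) = ψ' g := by
    intro g
    have : e (ψ g) = ψ'.codRestrict ι.range hrange g := e.apply_symm_apply _
    exact congrArg Subtype.val this
  refine ⟨ψ, ?_⟩
  apply MonoidHom.ext
  intro g
  obtain ⟨g₀, hg₀⟩ := hex g
  simp only [MonoidHom.comp_apply]
  rw [← hg₀]
  apply QuotientGroup.eq.mpr
  have h1 := hform g g₀ hg₀
  have h1' : ι (g₀⁻¹ * ψ g) ∈ Subgroup.center (GL (Fin n) A) := by
    rw [map_mul, map_inv, hψ]
    exact h1
  have hx : g₀⁻¹ * ψ g ∈ Subgroup.center (GL (Fin n) L) := by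
    rw [Subgroup.mem_center_iff]
    intro h
    apply hι
    rw [map_mul ι h, map_mul ι _ h]
    exact Subgroup.mem_center_iff.mp h1' (ι h)
  have e3 : (ψ g)⁻¹ * g₀ = (g₀⁻¹ * ψ g)⁻¹ := by group
  rw [e3]
  exact Subgroup.inv_mem _ hx

end rep

end Cfsg.Agent.Lib.Steinberg.PLift
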