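import Cfsg.Agent.Lib.Steinberg.UnivD

/-!
Central extensions for type `B₂` over the fields with three or four elements.
-/

set_option autoImplicit false
set_option linter.unusedSectionVars false
set_option linter.unusedVariables false
set_option maxRecDepth 100000

namespace Cfsg.Agent.Lib.Steinberg.UnivB2

open scoped MatrixGroups Matrix
open Cfsg _root_.Cfsg.Lie ChevalleyDatum
open Cfsg.Agent.Lib.Chev
open Tables Tables2 Raise Basic AxBasic Products Mono1 Mono2
open _root_.Cfsg.Agent.Lib.Steinberg.Rel _root_.Cfsg.Agent.Lib.Steinberg.Conj _root_.Cfsg.Agent.Lib.Steinberg.Bruhat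
open _root_.Cfsg.Agent.Lib.Steinberg.Exch _root_.Cfsg.Agent.Lib.Steinberg.AllRoots
open _root_.Cfsg.Agent.Lib.Steinberg.CExt _root_.Cfsg.Agent.Lib.Steinberg.UTab _root_.Cfsg.Agent.Lib.Steinberg.Univ
open _root_.Cfsg.Agent.Lib.Steinberg.SLaced _root_.Cfsg.Agent.Lib.Steinberg.UnivG _root_.Cfsg.Agent.Lib.Steinberg.UnivQ
open _root_.Cfsg.Agent.Lib.Steinberg.UnivD
open _root_.Cfsg.Agent.Lib.Steinberg.Present _root_.Cfsg.Agent.Lib.Steinberg.Universal
open Cfsg.Agent.Lib.Lie.Facts (IsData pairing_reflect pairing_simple pairing_neg_right)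
open Cfsg.Agent.Lib.Lie.AxOf (ax_of_mem)

universe u v w

variable {D : ChevalleyDatum} {F : Type u} [Field F] {Γ : Type v} [Group Γ] {E : Type w} [Group E]

/-! ### General facts -/

section gen

variable {y : ℕ → F → Γ} (hD : IsData D) (hy : StRel D y) (ax : Ax D F) (θ : Γ →* GL D.Idx F)
  (hθ : ∀ r t, r < D.nroots → θ (y r t) = xG ax r t)
  (π : E →* Γ) (hsurj : Function.Surjective π) (hc : π.ker ≤ Subgroup.center E)

include hD hy hθ hsurj hc

/-- The swap rule with one reflection. -/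
lemma lc_swap_one (h3 : (3 : F) = 0) (hF : ∀ t : F, t = 0 ∨ t = 1 ∨ t = -1) {i r s : ℕ} (hi : i < D.rank)
    (hr : r < D.nroots) (hs : s < D.nroots) (hcomm : Cm y r s)
    (h1 : D.reflectRoot i r = s) (h2 : D.reflectRoot i s = r)
    (hev : Even (D.pairing (D.simple i) r)) : LC π y r s := by
  have hh := tab_of_mem hD
  have hm : (-1 : F) ≠ 0 := neg_ne_zero.mpr one_ne_zero
  have hsi := hh.simple_lt i hi
  set N := nY D y (D.simple i) (-1) with hN
  have conj1 : ∀ {x : ℕ}, x < D.nroots → ∀ v, N * y x v * N⁻¹ =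
      y (D.reflectRoot i x) (rc hD i hi x (-1 : F) * v) := by
    intro x hx v
    exact rc_all hD hy ax θ hθ hi hx hm v
  have hcc : rc hD i hi s (-1 : F) * rc hD i hi r (-1 : F) = 1 := by
    have e1 : (N * N) * y r 1 * (N * N)⁻¹ = N * (N * y r 1 * N⁻¹) * N⁻¹ := by
      group
    rw [conj1 hr, h1, conj1 hs, h2] at e1
    have e2 : (N * N) * y r 1 * (N * N)⁻¹ = y r 1 := by
      have e3 := hY_conj_all hD hy ax θ hθ hsi hr hm (1 : F)
      rw [hev.neg_one_zpow, one_mul] at e3
      exact e3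
    rw [e2] at e1
    have := param_inj hD ax θ hθ hr e1
    linear_combination -this
  refine lc_of_swap hy π hsurj hc h3 hF hr hs hcomm (N := N) (c := rc hD i hi r (-1 : F)) (c' := rc hD i hi s (-1 : F)) ?_ ?_ ?_
  · rw [mul_comm]
    exact hcc
  · intro t
    rw [conj1 hr, h1]
  · intro t
    rw [conj1 hs, h2]

omit hD hθ in
/-- Root elements commute after lifting over a field with three elements. -/
lemma lc_self_q3 (hF : ∀ t : F, t = 0 ∨ t = 1 ∨ t = -1) {r : ℕ} (hr : r < D.nroots) : LC π y r r := by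
  obtain ⟨X, hX⟩ := hsurj (y r 1)
  have key : ∀ (t : F) (e : E), π e = y r t → ∃ k : ℤ, ∃ z ∈ Subgroup.center E, e = X ^ k * z := by
    intro t e he
    rcases hF t with rfl | rfl | rfl
    · refine ⟨0, e, hc ?_, by simp⟩
      rw [MonoidHom.mem_ker, he, hy.zero hr]
    · obtain ⟨z, hz, rfl⟩ := exists_central π hc (hX.trans he.symm)
      exact ⟨1, z, hz, by simp⟩
    · have : π X⁻¹ = π e := by
        rw [map_inv, hX, hy.inv hr, he]
      obtain ⟨z, hz, rfl⟩ := exists_central π hc this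
      exact ⟨-1, z, hz, by simp⟩
  intro t u e e' he he'
  obtain ⟨k, z, hz, rfl⟩ := key t e he
  obtain ⟨l, z', hz', rfl⟩ := key u e' he'
  have c1 : Commute (X ^ k) (X ^ l) := Commute.zpow_zpow_self X k l
  have c2 : Commute z (X ^ l) := (Subgroup.mem_center_iff.mp hz _).symm
  have c3 : Commute (X ^ k) z' := (Subgroup.mem_center_iff.mp hz' _)
  have c4 : Commute z z' := (Subgroup.mem_center_iff.mp hz' _)
  exact ((c1.mul_right c3).mul_left (c2.mul_right c4)).eq

end gen

/-! ### The table of type `B₂` -/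

theorem isData : IsData chevB2 := isData_B2

theorem nr_B2 : chevB2.nroots = 8 := by decide +kernel

/-- Long roots. -/
def isL (r : ℕ) : Bool := r == 0 || r == 3 || r == 4 || r == 7

/-- Short roots. -/
def isS (r : ℕ) : Bool := r == 1 || r == 2 || r == 5 || r == 6

theorem isL_or_isS : ∀ r, r < 8 → isL r = true ∨ isS r = true := by decide +kernel

theorem parity_L : ∀ r, r < 8 → isL r = true → chevB2.pairing 0 r % 2 = 0 := by decide +kernel

theorem parity_S : ∀ r, r < 8 → isS r = true → chevB2.pairing 0 r % 2 = 1 := by decide +kernel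

section basic

variable {y : ℕ → F → Γ} (hy : StRel chevB2 y) (ax : Ax chevB2 F) (θ : Γ →* GL chevB2.Idx F)
  (hθ : ∀ r t, r < chevB2.nroots → θ (y r t) = xG ax r t)
  (π : E →* Γ) (hsurj : Function.Surjective π) (hc : π.ker ≤ Subgroup.center E)

/-- The torus element `h(u)` acts trivially on long roots only. -/
lemma sep_LS {u : F} (hu : u ≠ 0) (hu1 : u ≠ 1) : Sep chevB2 F 4 6 :=
  ⟨7, by rw [nr_B2]; norm_num, u, hu, by rw [show chevB2.pairing 7 4 = 0 by decide +kernel, zpow_zero],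
    by rwa [show chevB2.pairing 7 6 = 1 by decide +kernel, zpow_one]⟩

include hy hθ hsurj hc

lemma lc_64 {u : F} (hu : u ≠ 0) (hu1 : u ≠ 1) : LC π y 6 4 :=
  lc_of_sep isData hy ax θ hθ π hsurj hc (by rw [nr_B2]; norm_num) (by rw [nr_B2]; norm_num)
    (cm_of_check hy (by decide +kernel)) (sep_LS hu hu1)

omit hsurj hc hθ in
lemma word_27 (t : F) : y 7 (-t) * y 2 1 = y 2 1 * y 7 (-t) * (y 6 t * y 4 t) := by
  have h0 := hy.comm 2 7 (by rw [nr_B2]; norm_num) (by rw [nr_B2]; norm_num) (by norm_num)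
    (by rw [show chevB2.neg 2 = 5 by decide +kernel]; norm_num) (1 : F) (-t)
  have h4 : chevB2.commWord F 2 7 (1 : F) (-t) = [(6, t), (4, t)] := by
    rw [commWord, show chevB2.commTerms 2 7 = [(6, 1, 1, 1), (4, -1, 2, 1)] by decide +kernel]
    simp
  rw [h4] at h0
  simpa only [wY_cons, wY_nil, mul_one] using h0

/-- The long roots. -/
lemma lc_44 (hL : LC π y 6 4) : LC π y 4 4 := by
  intro t u e e' he he'
  have h0 := word_27 hy t
  have hY2 : Cm y 2 4 := cm_of_check hy (by decide +kernel)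
  have hY7 : Cm y 7 4 := cm_of_check hy (by decide +kernel)
  obtain ⟨x2, hx2⟩ := hsurj (y 2 1)
  obtain ⟨x7, hx7⟩ := hsurj (y 7 (-t))
  obtain ⟨x6, hx6⟩ := hsurj (y 6 t)
  have h5 : π (cm x7⁻¹ x2⁻¹) = y 6 t * y 4 t := by
    rw [map_cm]
    simp only [map_inv, hx2, hx7, inv_inv]
    have h00 : y 6 t * y 4 t = (y 2 1 * y 7 (-t))⁻¹ * (y 7 (-t) * y 2 1) := by
      rw [h0]
      group
    rw [h00]
    group
  have h6 : π (x6⁻¹ * cm x7⁻¹ x2⁻¹) = y 4 t := by
    rw [map_mul, map_inv, hx6, h5]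
    group
  have h7 : e' * cm x7⁻¹ x2⁻¹ = cm x7⁻¹ x2⁻¹ * e' := by
    apply hall_witt π hc
    · rw [map_inv, he', hx7]
      exact (Commute.inv_right (hY7 (-t) u).symm).eq
    · rw [map_inv, he', hx2]
      exact (Commute.inv_right (hY2 1 u).symm).eq
  have h8 : e' * x6 = x6 * e' := (hL t u x6 e' hx6 he').symm
  have h9 : Commute e' (x6⁻¹ * cm x7⁻¹ x2⁻¹) := (Commute.inv_right h8).mul_right h7
  obtain ⟨c, hc', rfl⟩ := exists_central π hc (h6.trans he.symm)
  have h11 : Commute e' c := (Subgroup.mem_center_iff.mp hc' e')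
  exact ((h9.mul_right h11).symm).eq

/-- The short roots in characteristic two. -/
lemma lc_66 (h2 : (2 : F) = 0) (hL : LC π y 6 4) : LC π y 6 6 := by
  intro t u e e' he he'
  have h0 := word_27 hy t
  have hY2 : Cm y 6 2 := by
    intro p q
    have := hy.comm 6 2 (by rw [nr_B2]; norm_num) (by rw [nr_B2]; norm_num) (by norm_num)
      (by rw [show chevB2.neg 6 = 1 by decide +kernel]; norm_num) p q
    rw [commWord, show chevB2.commTerms 6 2 = [(4, 2, 1, 1)] by decide +kernel] at this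
    simp only [List.map_cons, List.map_nil, wY_cons, wY_nil, mul_one, Int.cast_ofNat, h2, zero_mul] at this
    rw [hy.zero (by rw [nr_B2]; norm_num), mul_one] at this
    exact this.symm
  have hY7 : Cm y 6 7 := cm_of_check hy (by decide +kernel)
  obtain ⟨x2, hx2⟩ := hsurj (y 2 1)
  obtain ⟨x7, hx7⟩ := hsurj (y 7 (-t))
  obtain ⟨x4, hx4⟩ := hsurj (y 4 t)
  have h5 : π (cm x7⁻¹ x2⁻¹) = y 6 t * y 4 t := by
    rw [map_cm]
    simp only [map_inv, hx2, hx7, inv_inv]
    have h00 : y 6 t * y 4 t = (y 2 1 * y 7 (-t))⁻¹ * (y 7 (-t) * y 2 1) := by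
      rw [h0]
      group
    rw [h00]
    group
  have h6 : π (cm x7⁻¹ x2⁻¹ * x4⁻¹) = y 6 t := by
    rw [map_mul, map_inv, hx4, h5]
    group
  have h7 : e' * cm x7⁻¹ x2⁻¹ = cm x7⁻¹ x2⁻¹ * e' := by
    apply hall_witt π hc
    · rw [map_inv, he', hx7]
      exact (Commute.inv_right (hY7 u (-t))).eq
    · rw [map_inv, he', hx2]
      exact (Commute.inv_right (hY2 u 1)).eq
  have h8 : e' * x4 = x4 * e' := hL u t e' x4 he' hx4
  have h9 : Commute e' (cm x7⁻¹ x2⁻¹ * x4⁻¹) := (show Commute e' _ from h7).mul_right (Commute.inv_right h8)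
  obtain ⟨c, hc', rfl⟩ := exists_central π hc (h6.trans he.symm)
  have h11 : Commute e' c := (Subgroup.mem_center_iff.mp hc' e')
  exact ((h9.mul_right h11).symm).eq

end basic

/-- Lifting for type `B₂` over a field with four elements. -/
theorem splits_B2_q4 {ω : F} (h1 : ω ^ 2 + ω + 1 = 0) (h2 : (2 : F) = 0) : Splits.{u, w} chevB2 F := by
  intro E _ π hsurj hc
  have hω0 : ω ≠ 0 := by
    rintro rfl
    simp at h1
  have hω1 : ω ≠ 1 := by
    intro e
    rw [e] at h1
    norm_num at h1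
    have h3 : (1 : F) = 3 - 2 := by norm_num
    rw [h1, h2, sub_zero] at h3
    exact one_ne_zero h3
  have hθ := fun (r : ℕ) (t : F) (_ : r < chevB2.nroots) => thetaAB_gen (F := F) (ax_of_mem isData) r t
  have hL := lc_64 stRel_AB (ax_of_mem isData) (thetaAB (ax_of_mem isData)) hθ π hsurj hc hω0 hω1
  have h44 := lc_44 stRel_AB (ax_of_mem isData) (thetaAB (ax_of_mem isData)) hθ π hsurj hc hL
  have h66 := lc_66 stRel_AB (ax_of_mem isData) (thetaAB (ax_of_mem isData)) hθ π hsurj hc h2 hL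
  have h55 : LC π (yAB chevB2 F) 5 5 := by
    have := lc_reflect isData stRel_AB (ax_of_mem isData) (thetaAB (ax_of_mem isData)) hθ π hsurj (i := 1)
      (by decide +kernel) (by rw [nr_B2]; norm_num) (by rw [nr_B2]; norm_num) h66
    rwa [show chevB2.reflectRoot 1 6 = 5 by decide +kernel] at this
  refine exists_lift_q4 h1 h2 isData stRel_AB (ax_of_mem isData) (thetaAB (ax_of_mem isData))
    hθ gen_AB π hsurj hc (perfect_cover isData fun _ => ⟨ω, hω0, hω1⟩) boundChk_B2 ?_
  apply root_induct isData (P := fun r => LC π (yAB chevB2 F) r r)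
  · intro i hi
    have hi' : i < 2 := hi
    interval_cases i
    · rwa [show chevB2.simple 0 = 5 by decide +kernel]
    · rwa [show chevB2.simple 1 = 4 by decide +kernel]
  · intro i hi s hs H
    exact lc_reflect isData stRel_AB (ax_of_mem isData) (thetaAB (ax_of_mem isData)) hθ π hsurj hi hs hs H

/-! ### Fields with three elements -/

/-- A commutator with two biadditive arguments over a field with three elements. -/
lemma cm_F3 (hF : ∀ t : F, t = 0 ∨ t = 1 ∨ t = -1) {A B : F → E} (hA : ∀ p q, A p * A q = A (p + q))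
    (hB : ∀ p q, B p * B q = B (p + q))
    (c1 : ∀ p p' q, Commute (A p) (cm (A p') (B q)))
    (c2 : ∀ p q q', Commute (B q) (cm (A p) (B q')))
    (c3 : ∀ p q p' q', Commute (cm (A p) (B q)) (cm (A p') (B q'))) :
    (∀ p p' q, cm (A (p + p')) (B q) = cm (A p) (B q) * cm (A p') (B q)) ∧
    (∀ p q q', cm (A p) (B (q + q')) = cm (A p) (B q) * cm (A p) (B q')) ∧
    (∀ p q, cm (A p) (B q) = cm (A (p * q)) (B 1)) := by
  have h1 : ∀ p p' q, cm (A (p + p')) (B q) = cm (A p) (B q) * cm (A p') (B q) := by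
    intro p p' q
    have e : cm (A p * A p') (B q) = A p * cm (A p') (B q) * (A p)⁻¹ * cm (A p) (B q) := by
      simp only [cm]
      group
    rw [← hA, e, (c1 p p' q).eq, mul_inv_cancel_right, (c3 _ _ _ _).eq]
  have h2 : ∀ p q q', cm (A p) (B (q + q')) = cm (A p) (B q) * cm (A p) (B q') := by
    intro p q q'
    have e : cm (A p) (B q * B q') = cm (A p) (B q) * (B q * cm (A p) (B q') * (B q)⁻¹) := by
      simp only [cm]
      group
    rw [← hB, e, (c2 p q q').eq, mul_inv_cancel_right]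
  have f0 : ∀ q, cm (A 0) (B q) = 1 := by
    intro q
    have := h1 0 0 q
    rw [add_zero] at this
    exact mul_eq_left.mp this.symm
  have f0' : ∀ p, cm (A p) (B 0) = 1 := by
    intro p
    have := h2 p 0 0
    rw [add_zero] at this
    exact mul_eq_left.mp this.symm
  have fn : ∀ p q, cm (A (-p)) (B q) = (cm (A p) (B q))⁻¹ := by
    intro p q
    apply eq_inv_of_mul_eq_one_left
    rw [← h1, neg_add_cancel, f0]
  have fn' : ∀ p q, cm (A p) (B (-q)) = (cm (A p) (B q))⁻¹ := by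
    intro p q
    apply eq_inv_of_mul_eq_one_left
    rw [← h2, neg_add_cancel, f0']
  refine ⟨h1, h2, ?_⟩
  intro p q
  rcases hF q with rfl | rfl | rfl
  · rw [f0', mul_zero, f0]
  · rw [mul_one]
  · rw [fn', mul_neg_one, fn]

/-- The check for a long root expressed through two short roots. -/
def pairChk (l s s' : ℕ) (M : ℤ) : Bool :=
  isL l && isS s && isS s' && decide (l < 8) && decide (s < 8) && decide (s' < 8) && s' != s && s' != chevB2.neg s &&
    chevB2.commTerms s s' == [(l, M, 1, 1)] && chevB2.commTerms s' s == [(l, -M, 1, 1)] &&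
    cmChk chevB2 l s && cmChk chevB2 l s' && (M == 2 || M == -2) &&
    allBelow 8 (fun b => chevB2.pairing b l == chevB2.pairing b s + chevB2.pairing b s')

/-- The short roots for a long root. -/
def prB (l : ℕ) : ℕ × ℕ × ℤ :=
  if l = 0 then (1, 2, 2) else if l = 3 then (1, 5, -2) else if l = 4 then (2, 6, -2) else (5, 6, 2)

theorem pair_all : ∀ l, l < 8 → isL l = true → pairChk l (prB l).1 (prB l).2.1 (prB l).2.2 = true := by decide +kernel

/-- The facts on a long root expressed through two short roots. -/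
structure PairF (l s s' : ℕ) (M : ℤ) : Prop where
  lL : isL l = true
  sS : isS s = true
  sS' : isS s' = true
  l8 : l < 8
  s8 : s < 8
  s8' : s' < 8
  ne1 : s' ≠ s
  ne2 : s' ≠ chevB2.neg s
  t1 : chevB2.commTerms s s' = [(l, M, 1, 1)]
  t2 : chevB2.commTerms s' s = [(l, -M, 1, 1)]
  c1 : cmChk chevB2 l s = true
  c2 : cmChk chevB2 l s' = true
  hM : M = 2 ∨ M = -2
  lin : ∀ b, b < 8 → chevB2.pairing b l = chevB2.pairing b s + chevB2.pairing b s'

theorem PairF.of_chk {l s s' : ℕ} {M : ℤ} (H : pairChk l s s' M = true) : PairF l s s' M := by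
  simp only [pairChk, Bool.and_eq_true, decide_eq_true_eq, bne_iff_ne, beq_iff_eq, Bool.or_eq_true] at H
  obtain ⟨⟨⟨⟨⟨⟨⟨⟨⟨⟨⟨⟨⟨a1, a2⟩, a3⟩, a4⟩, a5⟩, a6⟩, a7⟩, a8⟩, a9⟩, a10⟩, a11⟩, a12⟩, a13⟩, a14⟩ := H
  exact ⟨a1, a2, a3, a4, a5, a6, a7, a8, a9, a10, a11, a12, a13, fun b hb => by
    have := allBelow_spec a14 b hb
    simpa using this⟩

section q3

variable {y : ℕ → F → Γ} (hy : StRel chevB2 y) (ax : Ax chevB2 F) (θ : Γ →* GL chevB2.Idx F)
  (hθ : ∀ r t, r < chevB2.nroots → θ (y r t) = xG ax r t)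
  (hgen : Subgroup.closure {g | ∃ (r : ℕ) (t : F), r < chevB2.nroots ∧ g = y r t} = ⊤)
  (π : E →* Γ) (hsurj : Function.Surjective π) (hc : π.ker ≤ Subgroup.center E)
  (hperf : commutator Γ = ⊤) (h3 : (3 : F) = 0) (hF : ∀ t : F, t = 0 ∨ t = 1 ∨ t = -1) (h2 : (-1 : F) ≠ 1)

/-- The lifted elements for the short roots. -/
noncomputable def Ys (y : ℕ → F → Γ) {π : E →* Γ} (hsurj : Function.Surjective π) (s : ℕ) (t : F) : E :=
  Yg chevB2 y hsurj (fun _ => 0) (fun _ => -1) s t

/-- The lifted elements. -/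
noncomputable def YB (y : ℕ → F → Γ) {π : E →* Γ} (hsurj : Function.Surjective π) (r : ℕ) (t : F) : E :=
  if isL r = true then cm (Ys y hsurj (prB r).1 (((prB r).2.2 : F)⁻¹ * t)) (Ys y hsurj (prB r).2.1 1) else Ys y hsurj r t

omit [Group Γ] [Group E] in
lemma hm1 : (-1 : F) ≠ 0 := neg_ne_zero.mpr one_ne_zero

lemma lt8 {r : ℕ} (h : r < 8) : r < chevB2.nroots := by rwa [nr_B2]

omit hy hθ hsurj hc hF h2 in
lemma zero_lt : 0 < chevB2.nroots := by rw [nr_B2]; norm_num

/-- The commutator relation in the group. -/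
lemma cm_y (hy : StRel chevB2 y) {l s s' : ℕ} {M : ℤ} (H : PairF l s s' M) (t v : F) : cm (y s t) (y s' v) = y l ((M : F) * t * v) := by
  have c1 : Cm y l s := cm_of_check hy H.c1
  have c2 : Cm y l s' := cm_of_check hy H.c2
  have h0 := hy.comm s s' (lt8 H.s8) (lt8 H.s8') H.ne1 H.ne2 t v
  have hw : chevB2.commWord F s s' t v = [(l, -((M : F) * t * v))] := by
    rw [commWord, H.t1]
    simp only [List.map_cons, List.map_nil, pow_one, List.cons.injEq, Prod.mk.injEq, true_and, and_true]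
    ring
  rw [hw, wY_cons, wY_nil, mul_one, ← hy.inv (lt8 H.l8)] at h0
  set W := y l ((M : F) * t * v)
  have e1 : Commute W (y s t) := c1 _ _
  have e2 : Commute W (y s' v) := c2 _ _
  have h1 : y s t * y s' v = y s' v * y s t * W := by
    rw [h0]
    group
  simp only [cm]
  rw [h1]
  calc y s' v * y s t * W * (y s t)⁻¹ * (y s' v)⁻¹ = y s' v * y s t * (W * (y s t)⁻¹) * (y s' v)⁻¹ := by group
    _ = y s' v * y s t * ((y s t)⁻¹ * W) * (y s' v)⁻¹ := by rw [(e1.inv_right).eq]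
    _ = y s' v * (W * (y s' v)⁻¹) := by group
    _ = y s' v * ((y s' v)⁻¹ * W) := by rw [(e2.inv_right).eq]
    _ = W := by group

include hy hθ hsurj hc hF h2

lemma Ys_map {s : ℕ} (hs : s < 8) (hS : isS s = true) (t : F) : π (Ys y hsurj s t) = y s t :=
  Yg_map (a := fun _ => 0) (z := fun _ => -1) isData hy ax θ hθ π hsurj (lt8 hs) zero_lt hm1
    (neg_one_zpow_ne h2 (parity_S s hs hS)) t

lemma Ys_add {s : ℕ} (hs : s < 8) (p q : F) : Ys y hsurj s p * Ys y hsurj s q = Ys y hsurj s (p + q) :=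
  Yg_add (a := fun _ => 0) (z := fun _ => -1) isData hy ax θ hθ π hsurj hc (lt8 hs) zero_lt hm1
    (lc_self_q3 hy π hsurj hc hF (lt8 hs)) p q

omit hF in
/-- A pair of a short and a long root. -/
lemma lc_SL {s l : ℕ} (hs : s < 8) (hl : l < 8) (hS : isS s = true) (hL : isL l = true) (hcomm : Cm y s l) :
    LC π y s l :=
  lc_of_sep isData hy ax θ hθ π hsurj hc (lt8 hs) (lt8 hl) hcomm
    ⟨0, zero_lt, -1, hm1, neg_one_zpow_even (parity_L l hl hL), neg_one_zpow_ne h2 (parity_S s hs hS)⟩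

/-- The commutator of the lifted short root elements. -/
lemma pair_cm {l s s' : ℕ} {M : ℤ} (H : PairF l s s' M) :
    (∀ p p' q, cm (Ys y hsurj s (p + p')) (Ys y hsurj s' q) = cm (Ys y hsurj s p) (Ys y hsurj s' q) * cm (Ys y hsurj s p') (Ys y hsurj s' q)) ∧
    (∀ p q q', cm (Ys y hsurj s p) (Ys y hsurj s' (q + q')) = cm (Ys y hsurj s p) (Ys y hsurj s' q) * cm (Ys y hsurj s p) (Ys y hsurj s' q')) ∧
    (∀ p q, cm (Ys y hsurj s p) (Ys y hsurj s' q) = cm (Ys y hsurj s (p * q)) (Ys y hsurj s' 1)) := by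
  have map1 := Ys_map hy ax θ hθ π hsurj hc hF h2 H.s8 H.sS
  have map2 := Ys_map hy ax θ hθ π hsurj hc hF h2 H.s8' H.sS'
  have hmap : ∀ p q, π (cm (Ys y hsurj s p) (Ys y hsurj s' q)) = y l ((M : F) * p * q) := by
    intro p q
    rw [map_cm, map1, map2]
    exact cm_y hy H p q
  have c1l : LC π y l s := LC.symm (lc_SL hy ax θ hθ π hsurj hc h2 H.s8 H.l8 H.sS H.lL
    (fun t u => (cm_of_check (y := y) hy H.c1 u t).symm))
  have c2l : LC π y l s' := LC.symm (lc_SL hy ax θ hθ π hsurj hc h2 H.s8' H.l8 H.sS' H.lL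
    (fun t u => (cm_of_check (y := y) hy H.c2 u t).symm))
  have c3l : LC π y l l := lc_self_q3 hy π hsurj hc hF (lt8 H.l8)
  exact cm_F3 hF (Ys_add hy ax θ hθ π hsurj hc hF h2 H.s8) (Ys_add hy ax θ hθ π hsurj hc hF h2 H.s8')
    (fun p p' q => (c1l _ _ _ _ (hmap p' q) (map1 p)).symm)
    (fun p q q' => (c2l _ _ _ _ (hmap p q') (map2 q)).symm)
    (fun p q p' q' => c3l _ _ _ _ (hmap p q) (hmap p' q'))

omit hy hθ hsurj hc hF in
lemma M_ne {M : ℤ} (hM : M = 2 ∨ M = -2) : (M : F) ≠ 0 := by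
  have e : (2 : F) ≠ 0 := by
    intro e
    apply h2
    have : (-1 : F) = 1 - 2 := by norm_num
    rw [this, e, sub_zero]
  rcases hM with rfl | rfl
  · simpa using e
  · simpa using e

/-- The lifted element of a long root. -/
noncomputable def Yl (y : ℕ → F → Γ) {π : E →* Γ} (hsurj : Function.Surjective π) (s s' : ℕ) (M : ℤ) (t : F) : E :=
  cm (Ys y hsurj s ((M : F)⁻¹ * t)) (Ys y hsurj s' 1)

lemma Yl_map {l s s' : ℕ} {M : ℤ} (H : PairF l s s' M) (t : F) : π (Yl y hsurj s s' M t) = y l t := by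
  have map1 := Ys_map hy ax θ hθ π hsurj hc hF h2 H.s8 H.sS
  have map2 := Ys_map hy ax θ hθ π hsurj hc hF h2 H.s8' H.sS'
  have hM := M_ne h2 H.hM
  rw [Yl, map_cm, map1, map2]
  refine (cm_y hy H _ _).trans ?_
  congr 1
  field_simp

lemma Yl_add {l s s' : ℕ} {M : ℤ} (H : PairF l s s' M) (a b : F) :
    Yl y hsurj s s' M a * Yl y hsurj s s' M b = Yl y hsurj s s' M (a + b) := by
  have := (pair_cm hy ax θ hθ π hsurj hc hF h2 H).1
  simp only [Yl]
  rw [← this, mul_add]

lemma Yl_cm {l s s' : ℕ} {M : ℤ} (H : PairF l s s' M) (t v : F) :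
    Yl y hsurj s s' M ((M : F) * t * v) = cm (Ys y hsurj s t) (Ys y hsurj s' v) := by
  have := (pair_cm hy ax θ hθ π hsurj hc hF h2 H).2.2
  have hM := M_ne h2 H.hM
  rw [this t v, Yl]
  congr 2
  field_simp

include hgen hperf

lemma Yl_equiv {l s s' : ℕ} {M : ℤ} (H : PairF l s s' M) {b : ℕ} (hb : b < chevB2.nroots) {u : F} (hu : u ≠ 0)
    {g : E} (hg : π g = hY chevB2 y b u) (t : F) :
    g * Yl y hsurj s s' M t * g⁻¹ = Yl y hsurj s s' M (u ^ chevB2.pairing b l * t) := by
  have e1 : g * Ys y hsurj s ((M : F)⁻¹ * t) * g⁻¹ = Ys y hsurj s (u ^ chevB2.pairing b s * ((M : F)⁻¹ * t)) :=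
    Yg_equiv (a := fun _ => 0) (z := fun _ => -1) isData hy ax θ hθ hgen π hsurj hc hperf (lt8 H.s8) zero_lt hm1 hb hu hg _
  have e2 : g * Ys y hsurj s' 1 * g⁻¹ = Ys y hsurj s' (u ^ chevB2.pairing b s' * 1) :=
    Yg_equiv (a := fun _ => 0) (z := fun _ => -1) isData hy ax θ hθ hgen π hsurj hc hperf (lt8 H.s8') zero_lt hm1 hb hu hg _
  have e3 : g * Yl y hsurj s s' M t * g⁻¹ = cm (g * Ys y hsurj s ((M : F)⁻¹ * t) * g⁻¹) (g * Ys y hsurj s' 1 * g⁻¹) := by
    simp only [Yl, cm]
    group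
  have hb' : b < 8 := by rwa [nr_B2] at hb
  rw [e3, e1, e2, (pair_cm hy ax θ hθ π hsurj hc hF h2 H).2.2, H.lin b hb', zpow_add₀ hu, Yl]
  congr 2
  ring

/-- The lifted elements have the required properties. -/
theorem liftY_YB : LiftY chevB2 π y (YB y hsurj) where
  map := by
    intro r t hr
    have hr' : r < 8 := by rwa [nr_B2] at hr
    rcases hl : isL r with _ | _
    · have hS : isS r = true := by
        rcases isL_or_isS r hr' with e | e
        · rw [hl] at e
          exact absurd e (by simp)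
        · exact e
      rw [YB, if_neg (by rw [hl]; simp)]
      exact Ys_map hy ax θ hθ π hsurj hc hF h2 hr' hS t
    · rw [YB, if_pos hl]
      exact Yl_map hy ax θ hθ π hsurj hc hF h2 (PairF.of_chk (pair_all r hr' hl)) t
  add := by
    intro r hr a b
    have hr' : r < 8 := by rwa [nr_B2] at hr
    rcases hl : isL r with _ | _
    · simp only [YB, hl, Bool.false_eq_true, if_false]
      exact Ys_add hy ax θ hθ π hsurj hc hF h2 hr' a b
    · simp only [YB, hl, if_true]
      exact Yl_add hy ax θ hθ π hsurj hc hF h2 (PairF.of_chk (pair_all r hr' hl)) a b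
  equiv := by
    intro b hb u hu g hg r hr t
    have hr' : r < 8 := by rwa [nr_B2] at hr
    rcases hl : isL r with _ | _
    · simp only [YB, hl, Bool.false_eq_true, if_false]
      exact Yg_equiv (a := fun _ => 0) (z := fun _ => -1) isData hy ax θ hθ hgen π hsurj hc hperf hr zero_lt hm1 hb hu hg _
    · simp only [YB, hl, if_true]
      exact Yl_equiv hy ax θ hθ hgen π hsurj hc hperf hF h2 (PairF.of_chk (pair_all r hr' hl)) hb hu hg t

omit hgen hperf

omit hy hθ hc hF h2 in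
/-- The table values. -/
lemma YB_S {s : ℕ} (hs : s < 8) (hS : isS s = true) (t : F) : YB y hsurj s t = Ys y hsurj s t := by
  have : isL s = false := by
    revert s
    decide +kernel
  simp [YB, this]

omit hy hθ hc hF h2 in
lemma YB_L {l s s' : ℕ} {M : ℤ} (H : PairF l s s' M) (hp : prB l = (s, s', M)) (t : F) :
    YB y hsurj l t = Yl y hsurj s s' M t := by
  simp [YB, H.lL, hp, Yl]

omit hy hθ hsurj hc hF h2 in
lemma comm_forms {A B W : E} (h : cm A B = W) (c1 : Commute W A) (c2 : Commute W B) : A * B = B * A * W := by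
  have e : A * B * A⁻¹ * B⁻¹ = W := h
  calc A * B = (A * B * A⁻¹ * B⁻¹) * (B * A) := by group
    _ = W * (B * A) := by rw [e]
    _ = B * A * W := by
      rw [← mul_assoc, c2.eq, mul_assoc, c1.eq, mul_assoc]

/-- The relation from the definition. -/
lemma r2_fwd {l s s' : ℕ} {M : ℤ} (H : PairF l s s' M) (hp : prB l = (s, s', M)) (t v : F) :
    YB y hsurj s' v * YB y hsurj s t = YB y hsurj s t * YB y hsurj s' v * wY (YB y hsurj) (chevB2.commWord F s s' t v) := by
  have hw : chevB2.commWord F s s' t v = [(l, (M : F) * (-t) * v)] := by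
    rw [commWord, H.t1]
    simp
  have map1 := Ys_map hy ax θ hθ π hsurj hc hF h2 H.s8 H.sS
  have map2 := Ys_map hy ax θ hθ π hsurj hc hF h2 H.s8' H.sS'
  rw [hw, wY_cons, wY_nil, mul_one, YB_L π hsurj H hp, YB_S π hsurj H.s8 H.sS, YB_S π hsurj H.s8' H.sS', Yl_cm hy ax θ hθ π hsurj hc hF h2 H]
  have hcm := (pair_cm hy ax θ hθ π hsurj hc hF h2 H).1
  set A := Ys y hsurj s t
  set B := Ys y hsurj s' v
  have hmap : ∀ p q, π (cm (Ys y hsurj s p) (Ys y hsurj s' q)) = y l ((M : F) * p * q) := by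
    intro p q
    rw [map_cm, map1, map2]
    exact cm_y hy H p q
  have c1l : LC π y l s := LC.symm (lc_SL hy ax θ hθ π hsurj hc h2 H.s8 H.l8 H.sS H.lL
    (fun t u => (cm_of_check (y := y) hy H.c1 u t).symm))
  have c2l : LC π y l s' := LC.symm (lc_SL hy ax θ hθ π hsurj hc h2 H.s8' H.l8 H.sS' H.lL
    (fun t u => (cm_of_check (y := y) hy H.c2 u t).symm))
  have c1 : Commute (cm (Ys y hsurj s (-t)) B) A := c1l _ _ _ _ (hmap _ _) (map1 t)
  have c2 : Commute (cm (Ys y hsurj s (-t)) B) B := c2l _ _ _ _ (hmap _ _) (map2 v)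
  -- the commutator with the negative parameter is the inverse commutator
  have e3 : cm (Ys y hsurj s (-t)) B = (cm A B)⁻¹ := by
    apply eq_inv_of_mul_eq_one_left
    have := hcm (-t) t v
    rw [neg_add_cancel] at this
    rw [← this]
    have e0 : Ys y hsurj s 0 = 1 := by
      have := Ys_add hy ax θ hθ π hsurj hc hF h2 H.s8 (0 : F) 0
      rw [add_zero] at this
      exact mul_eq_left.mp this
    rw [e0]
    simp [cm]
  rw [e3] at c1 c2 ⊢
  have c1' : Commute (cm A B) A := by simpa using c1.inv_left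
  have c2' : Commute (cm A B) B := by simpa using c2.inv_left
  have := comm_forms rfl c1' c2'
  rw [this]
  group

lemma r2_bwd {l s s' : ℕ} {M : ℤ} (H : PairF l s s' M) (hp : prB l = (s, s', M)) (t v : F) :
    YB y hsurj s v * YB y hsurj s' t = YB y hsurj s' t * YB y hsurj s v * wY (YB y hsurj) (chevB2.commWord F s' s t v) := by
  have hw : chevB2.commWord F s' s t v = [(l, (M : F) * v * t)] := by
    rw [commWord, H.t2]
    simp only [List.map_cons, List.map_nil, pow_one, List.cons.injEq, Prod.mk.injEq, true_and, and_true]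
    push_cast
    ring
  have map1 := Ys_map hy ax θ hθ π hsurj hc hF h2 H.s8 H.sS
  have map2 := Ys_map hy ax θ hθ π hsurj hc hF h2 H.s8' H.sS'
  rw [hw, wY_cons, wY_nil, mul_one, YB_L π hsurj H hp, YB_S π hsurj H.s8 H.sS, YB_S π hsurj H.s8' H.sS', Yl_cm hy ax θ hθ π hsurj hc hF h2 H]
  have hmap : ∀ p q, π (cm (Ys y hsurj s p) (Ys y hsurj s' q)) = y l ((M : F) * p * q) := by
    intro p q
    rw [map_cm, map1, map2]
    exact cm_y hy H p q
  have c1l : LC π y l s := LC.symm (lc_SL hy ax θ hθ π hsurj hc h2 H.s8 H.l8 H.sS H.lL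
    (fun t u => (cm_of_check (y := y) hy H.c1 u t).symm))
  have c2l : LC π y l s' := LC.symm (lc_SL hy ax θ hθ π hsurj hc h2 H.s8' H.l8 H.sS' H.lL
    (fun t u => (cm_of_check (y := y) hy H.c2 u t).symm))
  exact comm_forms rfl (c1l _ _ _ _ (hmap _ _) (map1 v)) (c2l _ _ _ _ (hmap _ _) (map2 t))

omit hF h2 in
/-- Long roots, from the swap rule. -/
lemma lc_LL (h3 : (3 : F) = 0) (hF : ∀ t : F, t = 0 ∨ t = 1 ∨ t = -1) {a w : ℕ} (hL : isL a = true) (hL' : isL w = true) (h4 : w ≠ a) (h5 : w ≠ chevB2.neg a) : LC π y a w := by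
  have h47 : LC π y 4 7 := lc_swap_one isData hy ax θ hθ π hsurj hc h3 hF (i := 0) (by decide +kernel) (lt8 (by norm_num)) (lt8 (by norm_num))
    (cm_of_check hy (by decide +kernel)) (by decide +kernel) (by decide +kernel) (Int.even_iff.mpr (by decide +kernel))
  have hw : ∀ W : List ℕ, (∀ i ∈ W, i < chevB2.rank) →
      LC π y (W.foldr (fun j s => chevB2.reflectRoot j s) 4) (W.foldr (fun j s => chevB2.reflectRoot j s) 7) :=
    fun W h => lc_walk isData hy ax θ hθ π hsurj (lt8 (by norm_num)) (lt8 (by norm_num)) h47 W h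
  have h37 : LC π y 3 7 := by
    have := hw [1] (by decide +kernel)
    rwa [show ([1] : List ℕ).foldr (fun j s => chevB2.reflectRoot j s) 4 = 3 by decide +kernel,
      show ([1] : List ℕ).foldr (fun j s => chevB2.reflectRoot j s) 7 = 7 by decide +kernel] at this
  have h04 : LC π y 0 4 := by
    have := hw [0, 1] (by decide +kernel)
    rwa [show ([0, 1] : List ℕ).foldr (fun j s => chevB2.reflectRoot j s) 4 = 0 by decide +kernel,
      show ([0, 1] : List ℕ).foldr (fun j s => chevB2.reflectRoot j s) 7 = 4 by decide +kernel] at this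
  have h03 : LC π y 0 3 := by
    have := hw [1, 0, 1] (by decide +kernel)
    rwa [show ([1, 0, 1] : List ℕ).foldr (fun j s => chevB2.reflectRoot j s) 4 = 0 by decide +kernel,
      show ([1, 0, 1] : List ℕ).foldr (fun j s => chevB2.reflectRoot j s) 7 = 3 by decide +kernel] at this
  have ha : a = 0 ∨ a = 3 ∨ a = 4 ∨ a = 7 := by
    simpa [isL, or_assoc] using hL
  have hb : w = 0 ∨ w = 3 ∨ w = 4 ∨ w = 7 := by
    simpa [isL, or_assoc] using hL'
  rcases ha with rfl | rfl | rfl | rfl <;> rcases hb with rfl | rfl | rfl | rfl <;>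
    first
    | exact absurd rfl h4
    | exact absurd (by decide +kernel) h5
    | exact h47 | exact h37 | exact h04 | exact h03
    | exact LC.symm h47 | exact LC.symm h37 | exact LC.symm h04 | exact LC.symm h03

include h3 hgen hperf

/-- The pairs of roots. -/
theorem goodPair_YB {a w : ℕ} (ha : a < 8) (hw : w < 8) (h4 : w ≠ a) (h5 : w ≠ chevB2.neg a)
    (hok : isS a = true → isL w = true → chevB2.commTerms a w = []) : GoodPair chevB2 (YB y hsurj) a w := by
  have Lf := liftY_YB hy ax θ hθ hgen π hsurj hc hperf hF h2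
  have hcommute : LC π y a w → GoodPair chevB2 (YB y hsurj) a w := fun h =>
    Or.inr (Or.inl fun t v => h _ _ _ _ (Lf.map a t (lt8 ha)) (Lf.map w v (lt8 hw)))
  rcases isL_or_isS a ha with h1 | h1 <;> rcases isL_or_isS w hw with h6 | h6
  · exact hcommute (lc_LL hy ax θ hθ π hsurj hc h3 hF h1 h6 h4 h5)
  · exact Or.inl ⟨0, zero_lt, -1, hm1, neg_one_zpow_even (parity_L a ha h1), neg_one_zpow_ne h2 (parity_S w hw h6)⟩
  · have hcm : Cm y a w := cm_of_terms hy (lt8 ha) (lt8 hw) h4 h5 (hok h1 h6)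
    exact hcommute (lc_SL hy ax θ hθ π hsurj hc h2 ha hw h1 h6 hcm)
  · right
    right
    -- the eight pairs of short roots
    have hA : a = 1 ∨ a = 2 ∨ a = 5 ∨ a = 6 := by
      simpa [isS, or_assoc] using h1
    have hB : w = 1 ∨ w = 2 ∨ w = 5 ∨ w = 6 := by
      simpa [isS, or_assoc] using h6
    have P0 : PairF 0 1 2 2 := PairF.of_chk (by decide +kernel)
    have P3 : PairF 3 1 5 (-2) := PairF.of_chk (by decide +kernel)
    have P4 : PairF 4 2 6 (-2) := PairF.of_chk (by decide +kernel)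
    have P7 : PairF 7 5 6 2 := PairF.of_chk (by decide +kernel)
    have p0 : prB 0 = (1, 2, 2) := by decide +kernel
    have p3 : prB 3 = (1, 5, -2) := by decide +kernel
    have p4 : prB 4 = (2, 6, -2) := by decide +kernel
    have p7 : prB 7 = (5, 6, 2) := by decide +kernel
    rcases hA with rfl | rfl | rfl | rfl <;> rcases hB with rfl | rfl | rfl | rfl <;>
      first
      | exact absurd rfl h4
      | exact absurd (by decide +kernel) h5
      | exact fun t v => r2_fwd hy ax θ hθ π hsurj hc hF h2 P0 p0 t v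
      | exact fun t v => r2_fwd hy ax θ hθ π hsurj hc hF h2 P3 p3 t v
      | exact fun t v => r2_fwd hy ax θ hθ π hsurj hc hF h2 P4 p4 t v
      | exact fun t v => r2_fwd hy ax θ hθ π hsurj hc hF h2 P7 p7 t v
      | exact fun t v => r2_bwd hy ax θ hθ π hsurj hc hF h2 P0 p0 t v
      | exact fun t v => r2_bwd hy ax θ hθ π hsurj hc hF h2 P3 p3 t v
      | exact fun t v => r2_bwd hy ax θ hθ π hsurj hc hF h2 P4 p4 t v
      | exact fun t v => r2_bwd hy ax θ hθ π hsurj hc hF h2 P7 p7 t v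

end q3

/-- The half-spaces. -/
def arcs : List (ℤ × ℤ × List ℕ) :=
  [(3, -1, [3, 6, 5, 7]), (3, -5, [7, 1, 5, 3]), (2, -5, [0, 5, 1, 3]), (-2, -1, [3, 2, 1, 0]),
    (-3, 1, [4, 1, 2, 0]), (-3, 5, [0, 6, 2, 4]), (-2, 5, [7, 2, 6, 4]), (2, 1, [4, 5, 6, 7])]

/-- The weight of a half-space. -/
def cOf (e : ℤ × ℤ × List ℕ) (j : ℕ) : ℤ := if j = 0 then e.1 else e.2.1

/-- The pairs in a half-space. -/
def okB (a w : ℕ) : Bool :=
  decide (a < 8) && decide (w < 8) && w != a && w != chevB2.neg a &&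
    (!(isS a && isL w) || chevB2.commTerms a w == [])

theorem arcs_good : ∀ e ∈ arcs, (e.2.2.Pairwise (fun r s => lin chevB2 (cOf e) r < lin chevB2 (cOf e) s)) ∧
    (∀ r ∈ e.2.2, r < chevB2.nroots ∧ 0 < lin chevB2 (cOf e) r) ∧
    (∀ r ∈ e.2.2, ∀ s ∈ e.2.2, r ≠ s → ∀ k ∈ chevB2.commTerms r s, k.1 ∈ e.2.2) ∧
    e.2.2.Pairwise (fun a w => okB a w = true) := by
  decide +kernel

theorem arcs_cover_chk : (allBelow 8 fun r => allBelow 8 fun s => s == r || s == chevB2.neg r ||
    arcs.any fun e => e.2.2.contains r && e.2.2.contains s) = true := by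
  decide +kernel

theorem arcs_cover {r s : ℕ} (hr : r < 8) (hs : s < 8) (h1 : s ≠ r) (h2 : s ≠ chevB2.neg r) : ∃ e ∈ arcs, r ∈ e.2.2 ∧ s ∈ e.2.2 := by
  have := allBelow_spec (allBelow_spec arcs_cover_chk r hr) s hs
  simp only [Bool.or_eq_true, beq_iff_eq, List.any_eq_true, Bool.and_eq_true, List.contains_iff_mem] at this
  rcases this with (e | e) | e
  · exact absurd e h1
  · exact absurd e h2
  · exact e

/-- Lifting for type `B₂` over a field with three elements. -/
theorem splits_B2_q3 (h3 : (3 : F) = 0) (hF : ∀ t : F, t = 0 ∨ t = 1 ∨ t = -1) (h2 : (-1 : F) ≠ 1) : Splits.{u, w} chevB2 F := by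
  intro E _ π hsurj hc
  have hθ := fun (r : ℕ) (t : F) (_ : r < chevB2.nroots) => thetaAB_gen (F := F) (ax_of_mem isData) r t
  have hperf : commutator (chevB2.SteinbergCover F) = ⊤ := perfect_cover isData fun _ => ⟨-1, hm1, h2⟩
  have Lf := liftY_YB stRel_AB (ax_of_mem isData) (thetaAB (ax_of_mem isData)) hθ gen_AB π hsurj hc hperf hF h2
  refine ⟨YB (yAB chevB2 F) hsurj, ⟨Lf.add, ?_⟩, Lf.map⟩
  intro r s hr hs h4 h5 t u
  obtain ⟨e, he, hrL, hsL⟩ := arcs_cover (by rwa [nr_B2] at hr) (by rwa [nr_B2] at hs) h4 h5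
  obtain ⟨a1, a2, a3, a4⟩ := arcs_good e he
  have hL : GoodL chevB2 (cOf e) e.2.2 := ⟨a1, a2, a3⟩
  have hP : e.2.2.Pairwise (GoodPair chevB2 (YB (yAB chevB2 F) hsurj)) := by
    refine a4.imp ?_
    intro a w hok
    simp only [okB, Bool.and_eq_true, decide_eq_true_eq, bne_iff_ne, beq_iff_eq, Bool.or_eq_true, Bool.not_eq_true'] at hok
    obtain ⟨⟨⟨⟨ha, hw⟩, h6⟩, h7⟩, h8⟩ := hok
    refine goodPair_YB stRel_AB (ax_of_mem isData) (thetaAB (ax_of_mem isData)) hθ gen_AB π hsurj hc hperf h3 hF h2 ha hw h6 h7 ?_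
    intro e1 e2
    rcases h8 with h8 | h8
    · rw [e1, e2] at h8
      exact absurd h8 (by simp)
    · exact h8
  exact rel_of_list isData stRel_AB (ax_of_mem isData) (thetaAB (ax_of_mem isData)) hθ π hsurj hc Lf hL hP hr hs h4 h5 hrL hsL t u

end Cfsg.Agent.Lib.Steinberg.UnivB2
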