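import Cfsg.Agent.Lib.Steinberg.UnivQ

/-!
Central extensions for the fields with three or four elements: types `D₄`, `F₄`, `B₂`.
-/

set_option autoImplicit false
set_option linter.unusedSectionVars false
set_option linter.unusedVariables false
set_option maxRecDepth 100000

namespace Cfsg.Agent.Lib.Steinberg.UnivD

open scoped MatrixGroups Matrix
open Cfsg _root_.Cfsg.Lie ChevalleyDatum
open Cfsg.Agent.Lib.Chev
open Tables Tables2 Raise Basic AxBasic Products Mono1 Mono2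
open _root_.Cfsg.Agent.Lib.Steinberg.Rel _root_.Cfsg.Agent.Lib.Steinberg.Conj _root_.Cfsg.Agent.Lib.Steinberg.Bruhat
open _root_.Cfsg.Agent.Lib.Steinberg.Exch _root_.Cfsg.Agent.Lib.Steinberg.AllRoots
open _root_.Cfsg.Agent.Lib.Steinberg.CExt _root_.Cfsg.Agent.Lib.Steinberg.UTab _root_.Cfsg.Agent.Lib.Steinberg.Univ
open _root_.Cfsg.Agent.Lib.Steinberg.SLaced _root_.Cfsg.Agent.Lib.Steinberg.UnivG _root_.Cfsg.Agent.Lib.Steinberg.UnivQ
open _root_.Cfsg.Agent.Lib.Steinberg.Present _root_.Cfsg.Agent.Lib.Steinberg.Universal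
open Cfsg.Agent.Lib.Lie.Facts (IsData pairing_reflect pairing_simple pairing_neg_right)
open Cfsg.Agent.Lib.Lie.AxOf (ax_of_mem)

universe u v w

variable {F : Type u} [Field F]

/-! ### Field facts -/

lemma f3_facts [Fintype F] (h : Fintype.card F = 3) : (3 : F) = 0 ∧ (∀ t : F, t = 0 ∨ t = 1 ∨ t = -1) ∧ (-1 : F) ≠ 1 := by
  classical
  have h3 : (3 : F) = 0 := by
    have := FiniteField.cast_card_eq_zero F
    rw [h] at this
    exact_mod_cast this
  have h1 : (-1 : F) ≠ 1 := by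
    intro e
    have h2 : (2 : F) = 0 := by
      have : (2 : F) = 1 - (-1) := by norm_num
      rw [this, e, sub_self]
    have h4 : (1 : F) = 3 - 2 := by norm_num
    rw [h3, h2, sub_zero] at h4
    exact one_ne_zero h4
  refine ⟨h3, ?_, h1⟩
  have hS : ({0, 1, -1} : Finset F) = Finset.univ := by
    apply Finset.eq_univ_of_card
    rw [h, Finset.card_eq_three]
    exact ⟨0, 1, -1, zero_ne_one, (neg_ne_zero.mpr one_ne_zero).symm, h1.symm, rfl⟩
  intro t
  have : t ∈ ({0, 1, -1} : Finset F) := by rw [hS]; exact Finset.mem_univ t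
  simpa using this

lemma f4_facts [Fintype F] (h : Fintype.card F = 4) : (2 : F) = 0 ∧ ∃ ω : F, ω ^ 2 + ω + 1 = 0 := by
  classical
  have h4 : (4 : F) = 0 := by
    have := FiniteField.cast_card_eq_zero F
    rw [h] at this
    exact_mod_cast this
  have h2 : (2 : F) = 0 := by
    have : (2 : F) * 2 = 0 := by
      rw [← h4]
      norm_num
    simpa using this
  refine ⟨h2, ?_⟩
  obtain ⟨x, _, hx⟩ := Finset.exists_mem_notMem_of_card_lt_card (s := ({0, 1} : Finset F)) (t := Finset.univ) (by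
    rw [Finset.card_univ, h]
    exact lt_of_le_of_lt Finset.card_le_two (by norm_num))
  simp only [Finset.mem_insert, Finset.mem_singleton, not_or] at hx
  refine ⟨x, ?_⟩
  have e := FiniteField.pow_card x
  rw [h] at e
  have e2 : (x ^ 2 + x + 1) * (x * (x - 1)) = 0 := by
    linear_combination e
  exact (mul_eq_zero.mp e2).resolve_right (mul_ne_zero hx.1 (sub_ne_zero.mpr hx.2))

/-! ### Type `F₄` -/

/-- The exceptions for `F₄`. -/
def eeF4 : List (List (ℕ × ℕ × ℕ × ℤ)) :=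
  [[], [], [(0, 13, 35, -2), (6, 9, 39, -2), (17, 9, 39, -2), (30, 9, 39, -2), (41, 9, 39, -2), (47, 13, 35, -2)],
    [(2, 12, 36, -2), (4, 10, 38, -2), (15, 10, 38, -2), (32, 10, 38, -2), (43, 10, 38, -2), (45, 12, 36, -2)]]

theorem parChk_F4 : parChk Prod.fst chevF4 [[0, 1, 2], [0, 1, 3], [0, 3, 7], [2, 3, 7]] eeF4 = true := by
  decide +kernel

theorem hexChk_F4 : (allBelow chevF4.rank fun i => (eeF4.getD i []).all fun x =>
    decide (x.2.2.2 = -2) && hwChk chevF4 (chevF4.simple i) x.1 x.2.1 x.2.2.1 x.2.2.2) = true := by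
  decide +kernel

lemma ne_B2 {D : ChevalleyDatum} (h : 3 ≤ D.rank) : D ≠ chevB2 := by
  rintro rfl
  exact absurd h (by decide)

theorem isData_F4 : IsData chevF4 := by simp [IsData]
theorem isData_D4 : IsData chevD4 := by simp [IsData]
theorem isData_B2 : IsData chevB2 := by simp [IsData]

theorem splits_F4_q3 (h3 : (3 : F) = 0) (h2 : (-1 : F) ≠ 1) : Splits.{u, w} chevF4 F := by
  intro E _ π hsurj hc
  have hx : ∃ x : F, x ≠ 0 ∧ x ≠ 1 := ⟨-1, neg_ne_zero.mpr one_ne_zero, h2⟩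
  have hM : ((-2 : ℤ) : F) ≠ 0 := by
    intro e
    have e1 : (2 : F) = 0 := by
      have : ((-2 : ℤ) : F) = -2 := by norm_num
      rw [this] at e
      exact neg_eq_zero.mp e
    apply h2
    have : (-1 : F) = 1 - 2 := by norm_num
    rw [this, e1, sub_zero]
  refine exists_lift_q3 isData_F4 stRel_AB (ax_of_mem isData_F4) (thetaAB (ax_of_mem isData_F4))
    (fun r t _ => thetaAB_gen _ r t) gen_AB π hsurj hc h2 (ne_B2 (by decide)) (perfect_cover isData_F4 fun _ => hx)
    (lc_self_of_chk isData_F4 stRel_AB (ax_of_mem isData_F4) (thetaAB (ax_of_mem isData_F4))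
      (fun r t _ => thetaAB_gen _ r t) π hsurj hc selfChk_F4) parChk_F4 ?_
  intro i hi x hx
  have e := allBelow_spec hexChk_F4 i hi
  simp only [List.all_eq_true, Bool.and_eq_true, decide_eq_true_eq] at e
  obtain ⟨e1, e2⟩ := e x hx
  refine lc_of_hwChk stRel_AB π hsurj hc (M := x.2.2.2) ?_ e2
  rw [e1]
  exact hM

theorem splits_F4_q4 {ω : F} (h1 : ω ^ 2 + ω + 1 = 0) (h2 : (2 : F) = 0) : Splits.{u, w} chevF4 F := by
  intro E _ π hsurj hc
  have hx : ∃ x : F, x ≠ 0 ∧ x ≠ 1 := by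
    refine ⟨ω, ?_, ?_⟩
    · rintro rfl
      simp at h1
    · intro e
      rw [e] at h1
      norm_num at h1
      have h3 : (1 : F) = 3 - 2 := by norm_num
      rw [h1, h2, sub_zero] at h3
      exact one_ne_zero h3
  exact exists_lift_q4 h1 h2 isData_F4 stRel_AB (ax_of_mem isData_F4) (thetaAB (ax_of_mem isData_F4))
    (fun r t _ => thetaAB_gen _ r t) gen_AB π hsurj hc (perfect_cover isData_F4 fun _ => hx) boundChk_F4
    (lc_self_of_chk isData_F4 stRel_AB (ax_of_mem isData_F4) (thetaAB (ax_of_mem isData_F4))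
      (fun r t _ => thetaAB_gen _ r t) π hsurj hc selfChk_F4)

/-! ### Type `D₄` -/

/-- The exceptions for `D₄`. -/
def eeD4 : List (List (ℕ × ℕ × List ℕ)) :=
  [[(0, 2, [1, 2, 0, 1, 3, 1, 2]), (10, 0, [2, 1, 0]), (11, 1, [3, 1, 0]), (12, 1, [1, 0]), (13, 0, [1, 0]), (23, 2, [1, 0])],
    [(2, 0, [0, 1, 2, 1, 0]), (3, 1, [0, 1, 3, 1, 0]), (6, 2, [2, 1, 3, 1, 2]), (17, 2, []), (20, 1, []), (21, 0, [])],
    [(0, 1, [1, 2, 0, 1, 3, 1, 0]), (5, 0, [0, 1, 2]), (11, 2, [3, 1, 2]), (12, 2, [1, 2]), (18, 0, [1, 2]), (23, 1, [1, 2])],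
    [(0, 0, [1, 3, 0, 1, 2, 1, 0]), (5, 1, [0, 1, 3]), (10, 2, [2, 1, 3]), (13, 2, [1, 3]), (18, 1, [1, 3]), (23, 0, [1, 3])]]

theorem parChk_D4 : parChk Prod.fst chevD4 [[0], [2], [0], [0]] eeD4 = true := by
  decide +kernel

theorem walkChk_D4 : (allBelow chevD4.rank fun i => (eeD4.getD i []).all fun x =>
    decide (x.2.1 < 3) && x.2.2.all (fun j => decide (j < chevD4.rank)) &&
    decide (x.2.2.foldr (fun j s => chevD4.reflectRoot j s) 14 = chevD4.simple i) &&
    decide (x.2.2.foldr (fun j s => chevD4.reflectRoot j s) ([21, 20, 17].getD x.2.1 0) = x.1)) = true := by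
  decide +kernel

/-- The check that two root elements commute. -/
def cmChk (D : ChevalleyDatum) (r s : ℕ) : Bool :=
  decide (r < D.nroots) && decide (s < D.nroots) && s != r && s != D.neg r && D.commTerms r s == []

/-- The check of the swap rule for a pair of commuting reflections. -/
def swapChk (D : ChevalleyDatum) (i j r s : ℕ) : Bool :=
  decide (i < D.rank) && decide (j < D.rank) && decide (r < D.nroots) && decide (s < D.nroots) &&
  cmChk D r s && cmChk D (D.simple i) (D.simple j) && cmChk D (D.simple i) (D.neg (D.simple j)) &&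
  cmChk D (D.neg (D.simple i)) (D.simple j) && cmChk D (D.neg (D.simple i)) (D.neg (D.simple j)) &&
  decide (D.reflectRoot i (D.reflectRoot j r) = s) && decide (D.reflectRoot i (D.reflectRoot j s) = r) &&
  decide ((D.pairing (D.simple i) r + D.pairing (D.simple j) r) % 2 = 0)

section swap

variable {D : ChevalleyDatum} {Γ : Type v} [Group Γ] {E : Type w} [Group E]
  {y : ℕ → F → Γ} (hD : IsData D) (hy : StRel D y) (ax : Ax D F) (θ : Γ →* GL D.Idx F)
  (hθ : ∀ r t, r < D.nroots → θ (y r t) = xG ax r t)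
  (π : E →* Γ) (hsurj : Function.Surjective π) (hc : π.ker ≤ Subgroup.center E)

include hD hy hθ hsurj hc

theorem lc_of_swapChk (h3 : (3 : F) = 0) (hF : ∀ t : F, t = 0 ∨ t = 1 ∨ t = -1) {i j r s : ℕ} (H : swapChk D i j r s = true) :
    LC π y r s := by
  simp only [swapChk, Bool.and_eq_true] at H
  obtain ⟨⟨⟨⟨⟨⟨⟨⟨⟨⟨⟨hi, hj⟩, hr⟩, hs⟩, e0⟩, e1⟩, e2⟩, e3⟩, e4⟩, e5⟩, e6⟩, e7⟩ := H
  simp only [decide_eq_true_eq] at hi hj hr hs e5 e6 e7
  exact lc_swap_pair hD hy ax θ hθ π hsurj hc h3 hF hi hj hr hs (cm_of_check hy e0) (cm_of_check hy e1) (cm_of_check hy e2)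
    (cm_of_check hy e3) (cm_of_check hy e4) e5 e6 (Int.even_iff.mpr e7)

end swap

theorem swap_D4_0 : swapChk chevD4 0 2 14 21 = true := by decide +kernel
theorem swap_D4_1 : swapChk chevD4 0 3 14 20 = true := by decide +kernel
theorem swap_D4_2 : swapChk chevD4 2 3 14 17 = true := by decide +kernel

theorem splits_D4_q3 (h3 : (3 : F) = 0) (hF : ∀ t : F, t = 0 ∨ t = 1 ∨ t = -1) (h2 : (-1 : F) ≠ 1) : Splits.{u, w} chevD4 F := by
  intro E _ π hsurj hc
  have hx : ∃ x : F, x ≠ 0 ∧ x ≠ 1 := ⟨-1, neg_ne_zero.mpr one_ne_zero, h2⟩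
  have hD := isData_D4
  have hh := tab_of_mem hD
  have hθ := fun (r : ℕ) (t : F) (_ : r < chevD4.nroots) => thetaAB_gen (F := F) (ax_of_mem hD) r t
  refine exists_lift_q3 isData_D4 stRel_AB (ax_of_mem isData_D4) (thetaAB (ax_of_mem isData_D4))
    hθ gen_AB π hsurj hc h2 (ne_B2 (by decide)) (perfect_cover isData_D4 fun _ => hx)
    (lc_self_of_chk isData_D4 stRel_AB (ax_of_mem isData_D4) (thetaAB (ax_of_mem isData_D4))
      hθ π hsurj hc selfChk_D4) parChk_D4 ?_
  have hrep : ∀ k, k < 3 → LC π (yAB chevD4 F) 14 ([21, 20, 17].getD k 0) := by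
    intro k hk
    have e0 := lc_of_swapChk hD stRel_AB (ax_of_mem hD) (thetaAB (ax_of_mem hD)) hθ π hsurj hc h3 hF swap_D4_0
    have e1 := lc_of_swapChk hD stRel_AB (ax_of_mem hD) (thetaAB (ax_of_mem hD)) hθ π hsurj hc h3 hF swap_D4_1
    have e2 := lc_of_swapChk hD stRel_AB (ax_of_mem hD) (thetaAB (ax_of_mem hD)) hθ π hsurj hc h3 hF swap_D4_2
    interval_cases k
    · exact e0
    · exact e1
    · exact e2
  have hlt : ∀ k, k < 3 → [21, 20, 17].getD k 0 < chevD4.nroots := by decide +kernel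
  intro i hi x hx
  have e := allBelow_spec walkChk_D4 i hi
  simp only [List.all_eq_true, Bool.and_eq_true, decide_eq_true_eq] at e
  obtain ⟨⟨⟨e1, e2⟩, e3⟩, e4⟩ := e x hx
  have := lc_walk hD stRel_AB (ax_of_mem hD) (thetaAB (ax_of_mem hD)) hθ π hsurj
    (show 14 < chevD4.nroots by decide +kernel) (hlt _ e1) (hrep _ e1) x.2.2 e2
  rwa [e3, e4] at this

theorem splits_D4_q4 {ω : F} (h1 : ω ^ 2 + ω + 1 = 0) (h2 : (2 : F) = 0) : Splits.{u, w} chevD4 F := by
  intro E _ π hsurj hc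
  have hx : ∃ x : F, x ≠ 0 ∧ x ≠ 1 := by
    refine ⟨ω, ?_, ?_⟩
    · rintro rfl
      simp at h1
    · intro e
      rw [e] at h1
      norm_num at h1
      have h3 : (1 : F) = 3 - 2 := by norm_num
      rw [h1, h2, sub_zero] at h3
      exact one_ne_zero h3
  exact exists_lift_q4 h1 h2 isData_D4 stRel_AB (ax_of_mem isData_D4) (thetaAB (ax_of_mem isData_D4))
    (fun r t _ => thetaAB_gen _ r t) gen_AB π hsurj hc (perfect_cover isData_D4 fun _ => hx) boundChk_D4
    (lc_self_of_chk isData_D4 stRel_AB (ax_of_mem isData_D4) (thetaAB (ax_of_mem isData_D4))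
      (fun r t _ => thetaAB_gen _ r t) π hsurj hc selfChk_D4)

end Cfsg.Agent.Lib.Steinberg.UnivD
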