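import Cfsg.Agent.Lib.Steinberg.UnivB2
import Cfsg.Agent.Lib.Steinberg.Schur

/-!
Schur multipliers of the universal groups: the small fields.
-/

set_option autoImplicit false
set_option linter.unusedSectionVars false
set_option linter.unusedVariables false

namespace Cfsg.Agent.Lib.Steinberg.UnivF

open scoped MatrixGroups Matrix
open Cfsg _root_.Cfsg.Lie ChevalleyDatum
open Cfsg.Agent.Lib.Chev
open Tables Tables2 Raise Basic AxBasic Products Mono1 Mono2
open _root_.Cfsg.Agent.Lib.Steinberg.Rel _root_.Cfsg.Agent.Lib.Steinberg.Conj _root_.Cfsg.Agent.Lib.Steinberg.Bruhat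
open _root_.Cfsg.Agent.Lib.Steinberg.TorusY _root_.Cfsg.Agent.Lib.Steinberg.Center _root_.Cfsg.Agent.Lib.Steinberg.CenterCert
open _root_.Cfsg.Agent.Lib.Steinberg.UnivD _root_.Cfsg.Agent.Lib.Steinberg.UnivB2
open _root_.Cfsg.Agent.Lib.Steinberg.Present _root_.Cfsg.Agent.Lib.Steinberg.Universal _root_.Cfsg.Agent.Lib.Steinberg.Schur
open Cfsg.Agent.Lib.Lie.Facts (IsData)
open Cfsg.Agent.Lib.Lie.AxOf (ax_of_mem)

universe u w

variable {D : ChevalleyDatum} {F : Type u} [Field F]

/-- The central elements are products of torus elements. -/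
theorem central_tProd (hD : IsData D) {z : D.SteinbergGroup F} (hz : z ∈ Subgroup.center _) :
    ∃ t : ℕ → Fˣ, z = tProd D (ySt D F) t D.rank := by
  have ax := ax_of_mem (F := F) hD
  have hθ : ∀ r t, r < D.nroots → thetaSt ax hD (ySt D F r t) = xG ax r t := fun r t _ => thetaSt_gen ax hD r t
  have hsimple := (tab_of_mem hD).simple_lt
  have hker : thSt hD F z = 1 := center_le_ker _ (thSt_surj hD) hD hz
  obtain ⟨hH, _⟩ := ker_thSt hD hker
  exact exists_tProd hD stRel_St ax (thetaSt ax hD) hθ
    (fun i hi a b ha hb => hR3_St (hsimple i hi) ha hb) hH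

/-- The centre of the universal group is finite. -/
theorem finite_center [Finite F] (hD : IsData D) : Finite (Subgroup.center (D.SteinbergGroup F)) := by
  classical
  choose t ht using fun z : Subgroup.center (D.SteinbergGroup F) => central_tProd hD z.2
  apply Finite.of_injective (β := Fin D.rank → Fˣ) (fun z i => t z i)
  intro z z' h
  apply Subtype.ext
  rw [ht z, ht z']
  apply tProd_congr
  intro i hi
  exact congrFun h ⟨i, hi⟩

/-- Splitting for types `B₂`, `D₄` when the field has at least three elements. -/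
theorem splits_B2 [Fintype F] (hF : Fintype.card F ≠ 2) : Splits.{u, w} chevB2 F := by
  classical
  have h1 := Fintype.one_lt_card (α := F)
  by_cases h3 : Fintype.card F = 3
  · obtain ⟨e1, e2, e3⟩ := f3_facts h3
    exact splits_B2_q3 e1 e2 e3
  · by_cases h4 : Fintype.card F = 4
    · obtain ⟨e1, ω, e2⟩ := f4_facts h4
      exact splits_B2_q4 e2 e1
    · exact splits_of_large UnivD.isData_B2 ⟨Finset.univ, by rw [Finset.card_univ]; omega⟩

theorem splits_D4 [Fintype F] (hF : Fintype.card F ≠ 2) : Splits.{u, w} chevD4 F := by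
  classical
  have h1 := Fintype.one_lt_card (α := F)
  by_cases h3 : Fintype.card F = 3
  · obtain ⟨e1, e2, e3⟩ := f3_facts h3
    exact splits_D4_q3 e1 e2 e3
  · by_cases h4 : Fintype.card F = 4
    · obtain ⟨e1, ω, e2⟩ := f4_facts h4
      exact splits_D4_q4 e2 e1
    · exact splits_of_large UnivD.isData_D4 ⟨Finset.univ, by rw [Finset.card_univ]; omega⟩

/-- The elements different from `0` and `1`. -/
lemma exists_ne_zero_one [Fintype F] (hF : Fintype.card F ≠ 2) : ∃ x : F, x ≠ 0 ∧ x ≠ 1 := by
  classical
  have h1 := Fintype.one_lt_card (α := F)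
  obtain ⟨x, _, hx⟩ := Finset.exists_mem_notMem_of_card_lt_card (s := ({0, 1} : Finset F)) (t := Finset.univ) (by
    rw [Finset.card_univ]
    exact lt_of_le_of_lt Finset.card_le_two (by omega))
  simp only [Finset.mem_insert, Finset.mem_singleton, not_or] at hx
  exact ⟨x, hx.1, hx.2⟩

theorem schur_B2 [Fintype F] (hF : Fintype.card F ≠ 2) : HasCyclicSchurMultiplier (chevB2.SteinbergGroup F) 1 :=
  have := finite_center (F := F) UnivD.isData_B2
  schur_steinberg UnivD.isData_B2 (fun _ => exists_ne_zero_one hF) (splits_B2 hF)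

theorem schur_D4 [Fintype F] (hF : Fintype.card F ≠ 2) : HasCyclicSchurMultiplier (chevD4.SteinbergGroup F) 1 :=
  have := finite_center (F := F) UnivD.isData_D4
  schur_steinberg UnivD.isData_D4 (fun _ => exists_ne_zero_one hF) (splits_D4 hF)

theorem schur_E6' [Fintype F] : HasCyclicSchurMultiplier (chevE6.SteinbergGroup F) 1 :=
  have := finite_center (F := F) Schur.isData_E6
  schur_steinberg Schur.isData_E6 (ne_G2_B2 (by decide)) splits_E6

theorem schur_E7' [Fintype F] : HasCyclicSchurMultiplier (chevE7.SteinbergGroup F) 1 :=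
  have := finite_center (F := F) Schur.isData_E7
  schur_steinberg Schur.isData_E7 (ne_G2_B2 (by decide)) splits_E7

end Cfsg.Agent.Lib.Steinberg.UnivF
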