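import Cfsg.Agent.Lib.Steinberg.SLaced

/-!
Central extensions of a group with the relations (R1), (R2), for small fields: the lifting of the root
elements from a list of the commuting facts, and the torus elements that separate pairs of roots.
-/

set_option autoImplicit false
set_option linter.unusedSectionVars false
set_option linter.unusedVariables false

namespace Cfsg.Agent.Lib.Steinberg.UnivG

open scoped MatrixGroups Matrix
open Cfsg _root_.Cfsg.Lie ChevalleyDatum
open Cfsg.Agent.Lib.Chev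
open Tables Tables2 Raise Basic AxBasic Products Mono1 Mono2
open _root_.Cfsg.Agent.Lib.Steinberg.Rel _root_.Cfsg.Agent.Lib.Steinberg.Conj _root_.Cfsg.Agent.Lib.Steinberg.Bruhat
open _root_.Cfsg.Agent.Lib.Steinberg.Exch _root_.Cfsg.Agent.Lib.Steinberg.AllRoots
open _root_.Cfsg.Agent.Lib.Steinberg.CExt _root_.Cfsg.Agent.Lib.Steinberg.UTab _root_.Cfsg.Agent.Lib.Steinberg.Univ
open _root_.Cfsg.Agent.Lib.Steinberg.SLaced
open Cfsg.Agent.Lib.Lie.Facts (IsData pairing_reflect pairing_simple pairing_neg_right)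

universe u v w

variable {D : ChevalleyDatum} {F : Type u} [Field F] {Γ : Type v} [Group Γ] {E : Type w} [Group E]

/-- A torus element acts trivially on the first root and not on the second. -/
def Sep (D : ChevalleyDatum) (F : Type u) [Field F] (a w : ℕ) : Prop :=
  ∃ a', a' < D.nroots ∧ ∃ u : F, u ≠ 0 ∧ u ^ D.pairing a' a = 1 ∧ u ^ D.pairing a' w ≠ 1

lemma LC.symm {π : E →* Γ} {y : ℕ → F → Γ} {r s : ℕ} (h : LC π y r s) : LC π y s r :=
  fun t u e e' he he' => (h u t e' e he' he).symm

section main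

variable {y : ℕ → F → Γ} (hD : IsData D) (hy : StRel D y) (ax : Ax D F) (θ : Γ →* GL D.Idx F)
  (hθ : ∀ r t, r < D.nroots → θ (y r t) = xG ax r t)
  (π : E →* Γ) (hsurj : Function.Surjective π) (hc : π.ker ≤ Subgroup.center E)

include hD hy hθ hsurj hc

/-- Commuting pair with a torus witness. -/
lemma lc_of_sep {r s : ℕ} (hr : r < D.nroots) (hs : s < D.nroots)
    (hcomm : ∀ t u, y r t * y s u = y s u * y r t) (H : Sep D F s r) : LC π y r s := by
  let _ := centerComm E
  obtain ⟨a, ha, w, hw0, h0, hw1⟩ := H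
  intro t u e e' he he'
  obtain ⟨g, hg⟩ := hsurj (hY D y a w)
  let X : F → E := fun t => Function.surjInv hsurj (y r t)
  have hX : ∀ t, π (X t) = y r t := fun t => Function.surjInv_eq hsurj _
  have hcm : ∀ t, π (X t) * π e' = π e' * π (X t) := by
    intro t
    rw [hX, he']
    exact hcomm t u
  let f : F → Subgroup.center E := fun t => ⟨cm (X t) e', cm_central π hc (hcm t)⟩
  have hadd : ∀ a b, f (a + b) = f a * f b := by
    intro a b
    apply Subtype.ext
    show cm (X (a + b)) e' = cm (X a) e' * cm (X b) e'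
    rw [← cm_mul_left π hc (hcm a) (hcm b)]
    apply cm_lift π hc _ rfl
    rw [map_mul, hX, hX, hX, hy.add r hr]
  have hinv : ∀ b, f (w ^ D.pairing a r * b) = f b := by
    intro b
    apply Subtype.ext
    show cm (X (w ^ D.pairing a r * b)) e' = cm (X b) e'
    rw [← cm_conj_central π hc (g := g) (hcm b)]
    apply cm_lift π hc
    · simp only [map_mul, map_inv, hg, hX]
      rw [hY_conj_all hD hy ax θ hθ ha hr hw0]
    · simp only [map_mul, map_inv, hg, he']
      rw [hY_conj_all hD hy ax θ hθ ha hs hw0, h0, one_mul]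
  have := add_fun_trivial hadd hw1 hinv t
  have h2 : cm (X t) e' = 1 := congrArg Subtype.val this
  apply comm_of_cm
  rw [cm_lift π hc (x' := X t) (e' := e') (by rw [he, hX]) rfl, h2]

end main

/-- Commuting root elements from the table. -/
lemma cm_of_terms {y : ℕ → F → Γ} (hy : StRel D y) {r s : ℕ} (hr : r < D.nroots) (hs : s < D.nroots) (h3 : s ≠ r) (h4 : s ≠ D.neg r)
    (h : D.commTerms r s = []) : Cm y r s := by
  intro t u
  have := hy.comm r s hr hs h3 h4 t u
  rw [commWord, h] at this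
  simpa using this.symm

section hw

variable {y : ℕ → F → Γ} (hy : StRel D y) (π : E →* Γ) (hsurj : Function.Surjective π)
  (hc : π.ker ≤ Subgroup.center E)

include hy hsurj hc

/-- The commutator trick: an element commuting with two root elements commutes with the lift of the commutator. -/
lemma lc_of_hw {a b k w : ℕ} {M : ℤ} (ha : a < D.nroots) (hb : b < D.nroots) (h3 : b ≠ a) (h4 : b ≠ D.neg a)
    (hk : D.commTerms a b = [(k, M, 1, 1)]) (hM : (M : F) ≠ 0) (h1 : Cm y w a) (h2 : Cm y w b) : LC π y k w := by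
  intro t u e e' he he'
  have h0 := hy.comm a b ha hb h3 h4 (-(t * (M : F)⁻¹)) (1 : F)
  have hw : D.commWord F a b (-(t * (M : F)⁻¹)) (1 : F) = [(k, t)] := by
    rw [commWord, hk]
    simp only [List.map_cons, List.map_nil, pow_one, neg_neg, mul_one, List.cons.injEq, Prod.mk.injEq, and_true, true_and]
    field_simp
  rw [hw] at h0
  simp only [wY_cons, wY_nil, mul_one] at h0
  obtain ⟨xa, hxa⟩ := hsurj (y a (-(t * (M : F)⁻¹)))
  obtain ⟨xb, hxb⟩ := hsurj (y b 1)
  have h5 : π (cm xb⁻¹ xa⁻¹) = y k t := by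
    rw [map_cm]
    simp only [map_inv, hxa, hxb, inv_inv]
    have h00 : y k t = (y a (-(t * (M : F)⁻¹)) * y b 1)⁻¹ * (y b 1 * y a (-(t * (M : F)⁻¹))) := by
      rw [h0]
      group
    rw [h00]
    group
  have h7 : e' * cm xb⁻¹ xa⁻¹ = cm xb⁻¹ xa⁻¹ * e' := by
    apply hall_witt π hc
    · rw [map_inv, he', hxb]
      exact (Commute.inv_right (h2 u 1)).eq
    · rw [map_inv, he', hxa]
      exact (Commute.inv_right (h1 u _)).eq
  obtain ⟨z, hz, rfl⟩ := exists_central π hc (h5.trans he.symm)
  have h11 : Commute e' z := (Subgroup.mem_center_iff.mp hz e')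
  exact ((Commute.mul_right h7 h11).symm).eq

end hw

/-! ### Lifted root elements -/

/-- The lifted root elements. -/
noncomputable def Yg (D : ChevalleyDatum) (y : ℕ → F → Γ) {π : E →* Γ} (hsurj : Function.Surjective π)
    (a : ℕ → ℕ) (z : ℕ → F) (r : ℕ) (t : F) : E :=
  cm (Function.surjInv hsurj (hY D y (a r) (z r)))
    (Function.surjInv hsurj (y r (((z r) ^ D.pairing (a r) r - 1)⁻¹ * t)))

section main2

variable {y : ℕ → F → Γ} (hD : IsData D) (hy : StRel D y) (ax : Ax D F) (θ : Γ →* GL D.Idx F)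
  (hθ : ∀ r t, r < D.nroots → θ (y r t) = xG ax r t)
  (hgen : Subgroup.closure {g | ∃ (r : ℕ) (t : F), r < D.nroots ∧ g = y r t} = ⊤)
  (π : E →* Γ) (hsurj : Function.Surjective π) (hc : π.ker ≤ Subgroup.center E)
  {a : ℕ → ℕ} {z : ℕ → F}

include hD hy hθ

include hsurj in
lemma Yg_map {r : ℕ} (hr : r < D.nroots) (ha : a r < D.nroots) (hz : z r ≠ 0)
    (hz2 : (z r) ^ D.pairing (a r) r ≠ 1) (t : F) :
    π (Yg D y hsurj a z r t) = y r t := by
  have h1 : (z r) ^ D.pairing (a r) r - 1 ≠ 0 := sub_ne_zero.mpr hz2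
  rw [Yg, map_cm, Function.surjInv_eq hsurj, Function.surjInv_eq hsurj, hY_conj_all hD hy ax θ hθ ha hr hz, hy.inv hr,
    hy.add r hr]
  congr 1
  field_simp
  ring

include hsurj hc

lemma Yg_add {r : ℕ} (hr : r < D.nroots) (ha : a r < D.nroots) (hz : z r ≠ 0)
    (H : LC π y r r) (p q : F) : Yg D y hsurj a z r p * Yg D y hsurj a z r q = Yg D y hsurj a z r (p + q) := by
  set Hh := Function.surjInv hsurj (hY D y (a r) (z r)) with hHh
  set T := ((z r) ^ D.pairing (a r) r - 1)⁻¹ with hT
  set A := Function.surjInv hsurj (y r (T * p)) with hA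
  set B := Function.surjInv hsurj (y r (T * q)) with hB
  have eH : π Hh = hY D y (a r) (z r) := Function.surjInv_eq hsurj _
  have eA : π A = y r (T * p) := Function.surjInv_eq hsurj _
  have eB : π B = y r (T * q) := Function.surjInv_eq hsurj _
  have eC : π (Function.surjInv hsurj (y r (T * (p + q)))) = y r (T * (p + q)) := Function.surjInv_eq hsurj _
  have e1 : Yg D y hsurj a z r (p + q) = cm Hh (A * B) := by
    apply cm_lift π hc rfl
    rw [eC, map_mul, eA, eB, hy.add r hr, mul_add]
  have eB' : π (Hh * B * Hh⁻¹) = y r ((z r) ^ D.pairing (a r) r * (T * q)) := by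
    simp only [map_mul, map_inv, eH, eB]
    exact hY_conj_all hD hy ax θ hθ ha hr hz _
  have c1 : Commute A⁻¹ (Hh * B * Hh⁻¹) := (Commute.inv_left (H _ _ _ _ eA eB'))
  have c2 : Commute A⁻¹ B⁻¹ := (Commute.inv_inv (H _ _ _ _ eA eB))
  rw [e1]
  change cm Hh A * cm Hh B = cm Hh (A * B)
  simp only [cm]
  calc Hh * A * Hh⁻¹ * A⁻¹ * (Hh * B * Hh⁻¹ * B⁻¹)
      = Hh * A * Hh⁻¹ * (A⁻¹ * (Hh * B * Hh⁻¹)) * B⁻¹ := by group
    _ = Hh * A * Hh⁻¹ * ((Hh * B * Hh⁻¹) * A⁻¹) * B⁻¹ := by rw [c1.eq]
    _ = Hh * (A * B) * Hh⁻¹ * (A⁻¹ * B⁻¹) := by group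
    _ = Hh * (A * B) * Hh⁻¹ * (B⁻¹ * A⁻¹) := by rw [c2.eq]
    _ = Hh * (A * B) * Hh⁻¹ * (A * B)⁻¹ := by group

include hgen

lemma Yg_equiv (hperf : commutator Γ = ⊤) {r : ℕ} (hr : r < D.nroots) (har : a r < D.nroots) (hz : z r ≠ 0)
    {b : ℕ} (hb : b < D.nroots) {u : F} (hu : u ≠ 0)
    {g : E} (hg : π g = hY D y b u) (t : F) :
    g * Yg D y hsurj a z r t * g⁻¹ = Yg D y hsurj a z r (u ^ D.pairing b r * t) := by
  set Hh := Function.surjInv hsurj (hY D y (a r) (z r)) with hHh
  set T := ((z r) ^ D.pairing (a r) r - 1)⁻¹ with hT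
  set A := Function.surjInv hsurj (y r (T * t)) with hA
  have eH : π Hh = hY D y (a r) (z r) := Function.surjInv_eq hsurj _
  have eA : π A = y r (T * t) := Function.surjInv_eq hsurj _
  -- the commutator of the torus elements
  have hzeta : Hh⁻¹ * (g * Hh * g⁻¹) ∈ Subgroup.center E := by
    apply central_lift π hsurj hc hperf
    have : θ (π (Hh⁻¹ * (g * Hh * g⁻¹))) = 1 := by
      simp only [map_mul, map_inv, eH, hg]
      rw [map_hY hD ax θ hθ har, map_hY hD ax θ hθ hb, hG_comm hD ax hb har hu hz]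
      group
    exact (ker_central hD hy ax θ hθ hgen this).2
  have e1 : g * Yg D y hsurj a z r t * g⁻¹ = cm (g * Hh * g⁻¹) (g * A * g⁻¹) := by
    show g * cm Hh A * g⁻¹ = _
    simp only [cm]
    group
  have e2 : g * Hh * g⁻¹ = Hh * (Hh⁻¹ * (g * Hh * g⁻¹)) := by group
  rw [e1, e2, cm_mul_central_left hzeta]
  apply cm_lift π hc rfl
  simp only [map_mul, map_inv, hg, eA]
  rw [hY_conj_all hD hy ax θ hθ hb hr hu]
  rw [Function.surjInv_eq hsurj]
  congr 1
  ring

/-- The lifted root elements have the required properties. -/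
theorem liftY_Yg (hperf : commutator Γ = ⊤) (ha : ∀ r, r < D.nroots → a r < D.nroots)
    (hz : ∀ r, r < D.nroots → z r ≠ 0) (hz2 : ∀ r, r < D.nroots → (z r) ^ D.pairing (a r) r ≠ 1)
    (hself : ∀ r, r < D.nroots → LC π y r r) :
    LiftY D π y (Yg D y hsurj a z) where
  map := fun r t hr => Yg_map hD hy ax θ hθ π hsurj hr (ha r hr) (hz r hr) (hz2 r hr) t
  add := fun r hr p q => Yg_add hD hy ax θ hθ π hsurj hc hr (ha r hr) (hz r hr) (hself r hr) p q
  equiv := fun b hb u hu g hg r hr t =>
    Yg_equiv hD hy ax θ hθ hgen π hsurj hc hperf hr (ha r hr) (hz r hr) hb hu hg t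

end main2

/-! ### The relations for the lifted elements -/

/-- How the first factor acts on the later ones. -/
def GoodPair (D : ChevalleyDatum) (Y : ℕ → F → E) (a w : ℕ) : Prop :=
  Sep D F a w ∨ (∀ t v, Y a t * Y w v = Y w v * Y a t) ∨
    (∀ t v, Y w v * Y a t = Y a t * Y w v * wY Y (D.commWord F a w t v))

section rel

variable {y : ℕ → F → Γ} (hD : IsData D) (hy : StRel D y) (ax : Ax D F) (θ : Γ →* GL D.Idx F)
  (hθ : ∀ r t, r < D.nroots → θ (y r t) = xG ax r t)
  (π : E →* Γ) (hsurj : Function.Surjective π) (hc : π.ker ≤ Subgroup.center E)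
  {Y : ℕ → F → E}

include hD hy hθ hsurj hc

/-- The lifted elements of a half-space map injectively. -/
theorem inj_goodG (Lf : LiftY D π y Y) {c : ℕ → ℤ} {L : List ℕ} (hL : GoodL D c L)
    (hP : L.Pairwise (GoodPair D Y)) :
    ∀ x ∈ Yc Y (· ∈ L), π x = 1 → x = 1 := by
  let _ := centerComm E
  have hh := tab_of_mem hD
  have hh2 := tab2_of_mem hD
  have Y0 : ∀ r, r < D.nroots → Y r 0 = 1 := by
    intro r hr
    have := Lf.add r hr 0 0
    rw [add_zero] at this
    exact mul_eq_left.mp this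
  have Yinv : ∀ r, r < D.nroots → ∀ t, (Y r t)⁻¹ = Y r (-t) := by
    intro r hr t
    apply inv_eq_of_mul_eq_one_right
    rw [Lf.add r hr, add_neg_cancel, Y0 r hr]
  induction L with
  | nil =>
    intro x hx _
    have : Yc Y (· ∈ ([] : List ℕ)) = ⊥ := by
      rw [eq_bot_iff]
      apply Yc_le
      intro r t hr
      simp at hr
    rwa [this, Subgroup.mem_bot] at hx
  | cons a L ih =>
    have hL' := hL.tail hh
    have ih' := ih hL' (List.pairwise_cons.mp hP).2
    have hP1 := (List.pairwise_cons.mp hP).1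
    obtain ⟨ha0, ha1⟩ := hL.pos a (by simp)
    have huniq : ∀ x x', x ∈ Yc Y (· ∈ L) → x' ∈ Yc Y (· ∈ L) → π x = π x' → x = x' := by
      intro x x' hx hx' he
      have := ih' (x * x'⁻¹) (Subgroup.mul_mem _ hx (Subgroup.inv_mem _ hx')) (by
        rw [map_mul, map_inv, he, mul_inv_cancel])
      exact mul_inv_eq_one.mp this
    have hex : ∀ b ∈ Yc y (· ∈ L), ∃ x ∈ Yc Y (· ∈ L), π x = b := by
      intro b hb
      rw [Yc] at hb
      induction hb using Subgroup.closure_induction with
      | mem x hx =>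
        obtain ⟨r, t, hr, rfl⟩ := hx
        exact ⟨Y r t, y_mem_Yc Y hr t, Lf.map r t (hL'.pos r hr).1⟩
      | one => exact ⟨1, Subgroup.one_mem _, map_one _⟩
      | mul a b _ _ ha hb =>
        obtain ⟨x, hx, rfl⟩ := ha
        obtain ⟨x', hx', rfl⟩ := hb
        exact ⟨x * x', Subgroup.mul_mem _ hx hx', map_mul _ _ _⟩
      | inv a _ ha =>
        obtain ⟨x, hx, rfl⟩ := ha
        exact ⟨x⁻¹, Subgroup.inv_mem _ hx, map_inv _ _⟩
    -- the first factor normalises the later ones
    have hconj : ∀ t, ∀ x ∈ Yc Y (· ∈ L), Y a t * x * (Y a t)⁻¹ ∈ Yc Y (· ∈ L) := by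
      intro t x hx
      refine conj_closure ?_ hx
      intro w v hw
      obtain ⟨hw0, hw1⟩ := hL'.pos w hw
      have has := (List.pairwise_cons.mp hL.sorted).1 w hw
      have hwa : w ≠ a := by rintro rfl; omega
      have hwn : w ≠ D.neg a := by
        rintro rfl
        rw [lin_neg hh c ha0] at hw1
        omega
      rcases hP1 w hw with ⟨a', ha', u, hu0, h0, hu1⟩ | hcom | hr2
      · -- the elements of the tail
        have hb : ∀ v, y a t * y w v * (y a t)⁻¹ ∈ Yc y (· ∈ L) := by
          intro v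
          have := head_conj_tail hy hh hL (-t) (y_mem_Yc y hw v)
          rw [← hy.inv ha0, inv_inv] at this
          exact this
        choose x' hx'1 hx'2 using fun v => hex _ (hb v)
        have hδ : ∀ v, Y a t * Y w v * (Y a t)⁻¹ * (x' v)⁻¹ ∈ Subgroup.center E := by
          intro v
          apply hc
          rw [MonoidHom.mem_ker]
          simp only [map_mul, map_inv, hx'2, Lf.map _ _ ha0, Lf.map _ _ hw0]
          group
        let f : F → Subgroup.center E := fun v => ⟨Y a t * Y w v * (Y a t)⁻¹ * (x' v)⁻¹, hδ v⟩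
        have hadd : ∀ p q, f (p + q) = f p * f q := by
          intro p q
          apply Subtype.ext
          show Y a t * Y w (p + q) * (Y a t)⁻¹ * (x' (p + q))⁻¹ =
            (Y a t * Y w p * (Y a t)⁻¹ * (x' p)⁻¹) * (Y a t * Y w q * (Y a t)⁻¹ * (x' q)⁻¹)
          have e1 : x' (p + q) = x' p * x' q := by
            apply huniq _ _ (hx'1 _) (Subgroup.mul_mem _ (hx'1 _) (hx'1 _))
            rw [map_mul, hx'2, hx'2, hx'2, ← hy.add w hw0]
            group
          rw [e1, ← Lf.add w hw0]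
          have e2 := (Subgroup.mem_center_iff.mp (hδ q) (x' p)⁻¹)
          calc Y a t * (Y w p * Y w q) * (Y a t)⁻¹ * (x' p * x' q)⁻¹
              = (Y a t * Y w p * (Y a t)⁻¹) * ((Y a t * Y w q * (Y a t)⁻¹ * (x' q)⁻¹) * (x' p)⁻¹) := by group
            _ = (Y a t * Y w p * (Y a t)⁻¹) * ((x' p)⁻¹ * (Y a t * Y w q * (Y a t)⁻¹ * (x' q)⁻¹)) := by rw [e2]
            _ = _ := by group
        obtain ⟨g, hg⟩ := hsurj (hY D y a' u)
        have hginv : ∀ x ∈ Yc Y (· ∈ L), g * x * g⁻¹ ∈ Yc Y (· ∈ L) := by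
          intro x hx
          refine conj_closure ?_ hx
          intro r t hr
          rw [Lf.equiv a' ha' u hu0 g hg r (hL'.pos r hr).1]
          exact y_mem_Yc Y hr _
        have hinv : ∀ p, f (u ^ D.pairing a' w * p) = f p := by
          intro p
          apply Subtype.ext
          show Y a t * Y w (u ^ D.pairing a' w * p) * (Y a t)⁻¹ * (x' (u ^ D.pairing a' w * p))⁻¹ =
            Y a t * Y w p * (Y a t)⁻¹ * (x' p)⁻¹
          have e1 : g * Y a t * g⁻¹ = Y a t := by
            rw [Lf.equiv a' ha' u hu0 g hg a ha0, h0, one_mul]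
          have e2 := Lf.equiv a' ha' u hu0 g hg w hw0 p
          have e3 : g * x' p * g⁻¹ = x' (u ^ D.pairing a' w * p) := by
            apply huniq _ _ (hginv _ (hx'1 _)) (hx'1 _)
            simp only [map_mul, map_inv, hx'2, hg]
            have e4 := hY_conj_all hD hy ax θ hθ ha' ha0 hu0 t
            have e5 := hY_conj_all hD hy ax θ hθ ha' hw0 hu0 p
            rw [h0, one_mul] at e4
            calc hY D y a' u * (y a t * y w p * (y a t)⁻¹) * (hY D y a' u)⁻¹
                = (hY D y a' u * y a t * (hY D y a' u)⁻¹) * (hY D y a' u * y w p * (hY D y a' u)⁻¹) *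
                  (hY D y a' u * y a t * (hY D y a' u)⁻¹)⁻¹ := by group
              _ = _ := by rw [e4, e5]
          have e6 := conj_of_central (hδ p) g
          rw [← e6, ← e3, ← e2]
          nth_rewrite 1 [← e1]
          nth_rewrite 2 [← e1]
          group
        have hf := add_fun_trivial hadd hu1 hinv v
        have hf2 : Y a t * Y w v * (Y a t)⁻¹ * (x' v)⁻¹ = 1 := congrArg Subtype.val hf
        rw [mul_inv_eq_one.mp hf2]
        exact hx'1 v
      · rw [hcom t v, mul_inv_cancel_right]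
        exact y_mem_Yc Y hw v
      · have e := hr2 (-t) v
        have e2 : Y a t * Y w v * (Y a t)⁻¹ = Y w v * wY Y (D.commWord F a w (-t) v) := by
          rw [Yinv a ha0, mul_assoc, e, ← Yinv a ha0]
          group
        rw [e2]
        apply Subgroup.mul_mem _ (y_mem_Yc Y hw v)
        apply wY_mem_Yc
        intro p hp
        obtain ⟨k, hk, rfl⟩ := commWord_mem_iff.mp hp
        have hmem := hL.closed a (by simp) w (by simp [hw]) (Ne.symm hwa) k hk
        rcases List.mem_cons.mp hmem with he | he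
        · exfalso
          obtain ⟨-, i, j, hi, hj, hv⟩ := lin_term hh c ha0 hw0 hk
          rw [he] at hv
          nlinarith
        · exact he
    -- the structure of the closure
    let S : Subgroup E :=
      { carrier := {g | ∃ e : F, ∃ x ∈ Yc Y (· ∈ L), g = Y a e * x}
        one_mem' := ⟨0, 1, Subgroup.one_mem _, by simp [Y0 a ha0]⟩
        mul_mem' := by
          rintro _ _ ⟨e, x, hx, rfl⟩ ⟨e', x', hx', rfl⟩
          refine ⟨e + e', (Y a e')⁻¹ * x * Y a e' * x', Subgroup.mul_mem _ ?_ hx', ?_⟩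
          · have := hconj (-e') x hx
            rw [← Yinv a ha0, inv_inv] at this
            exact this
          · rw [← Lf.add a ha0]
            group
        inv_mem' := by
          rintro _ ⟨e, x, hx, rfl⟩
          refine ⟨-e, Y a e * x⁻¹ * (Y a e)⁻¹, hconj e _ (Subgroup.inv_mem _ hx), ?_⟩
          rw [← Yinv a ha0]
          group }
    have hle : Yc Y (· ∈ a :: L) ≤ S := by
      apply Yc_le
      intro r t hr
      rcases List.mem_cons.mp hr with rfl | hr
      · exact ⟨t, 1, Subgroup.one_mem _, by simp⟩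
      · exact ⟨0, Y r t, y_mem_Yc Y hr t, by simp [Y0 a ha0]⟩
    intro x hx hx1
    obtain ⟨e, x₀, hx₀, rfl⟩ := hle hx
    have hclo : ∀ x ∈ Yc Y (· ∈ L), θ (π x) ∈ rootClosure ax (· ∈ L) := by
      intro x hx
      rw [Yc] at hx
      induction hx using Subgroup.closure_induction with
      | mem x hx =>
        obtain ⟨r, t, hr, rfl⟩ := hx
        rw [Lf.map r t (hL'.pos r hr).1, hθ r t (hL'.pos r hr).1]
        exact xG_mem_rootClosure ax hr t
      | one => simp
      | mul a b _ _ ha hb =>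
        rw [map_mul, map_mul]
        exact Subgroup.mul_mem _ ha hb
      | inv a _ ha =>
        rw [map_inv, map_inv]
        exact Subgroup.inv_mem _ ha
    have hbd : ∀ s ∈ L, s < D.nroots ∧ lin D c a < lin D c s := fun s hs =>
      ⟨(hL'.pos s hs).1, (List.pairwise_cons.mp hL.sorted).1 s hs⟩
    have he : e = 0 := by
      apply head_eq_zero' ax hh hh2 ha0 ha1 hbd (hclo x₀ hx₀) (Subgroup.one_mem _)
      have := congrArg θ hx1
      rw [map_mul, map_mul, Lf.map a e ha0, hθ a e ha0, map_one] at this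
      exact this
    subst he
    rw [Y0 a ha0, one_mul] at hx1 ⊢
    exact ih' x₀ hx₀ hx1

/-- One relation from a good list. -/
theorem rel_of_list (Lf : LiftY D π y Y) {c : ℕ → ℤ} {L : List ℕ} (hL : GoodL D c L)
    (hP : L.Pairwise (GoodPair D Y)) {r s : ℕ} (hr : r < D.nroots) (hs : s < D.nroots) (h3 : s ≠ r) (h4 : s ≠ D.neg r)
    (hrL : r ∈ L) (hsL : s ∈ L) (t u : F) :
    Y s u * Y r t = Y r t * Y s u * wY Y (D.commWord F r s t u) := by
  have hh := tab_of_mem hD
  have hwm : wY Y (D.commWord F r s t u) ∈ Yc Y (· ∈ L) := by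
    apply wY_mem_Yc
    intro p hp
    obtain ⟨k, hk, rfl⟩ := commWord_mem_iff.mp hp
    exact hL.closed r hrL s hsL (Ne.symm h3) k hk
  have hmapw : π (wY Y (D.commWord F r s t u)) = wY y (D.commWord F r s t u) := by
    have : ∀ w : List (ℕ × F), (∀ p ∈ w, p.1 < D.nroots) → π (wY Y w) = wY y w := by
      intro w
      induction w with
      | nil => simp
      | cons a w ih =>
        intro hw
        rw [wY_cons, wY_cons, map_mul, Lf.map _ _ (hw a (by simp)), ih fun p hp => hw p (by simp [hp])]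
    apply this
    intro p hp
    obtain ⟨k, hk, rfl⟩ := commWord_mem_iff.mp hp
    exact (commTerms_spec hh hr hs hk).1
  have hx := inj_goodG hD hy ax θ hθ π hsurj hc Lf hL hP
    ((Y s u * Y r t) * (Y r t * Y s u * wY Y (D.commWord F r s t u))⁻¹)
    (Subgroup.mul_mem _ (Subgroup.mul_mem _ (y_mem_Yc Y hsL u) (y_mem_Yc Y hrL t))
      (Subgroup.inv_mem _ (Subgroup.mul_mem _ (Subgroup.mul_mem _ (y_mem_Yc Y hrL t) (y_mem_Yc Y hsL u)) hwm)))
    (by
      simp only [map_mul, map_inv, Lf.map _ _ hr, Lf.map _ _ hs, hmapw]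
      rw [hy.comm r s hr hs h3 h4 t u, mul_inv_cancel])
  exact mul_inv_eq_one.mp hx

/-- The lifted elements satisfy the relations. -/
theorem stRel_of_pairs (Lf : LiftY D π y Y) (hW : ∀ a w, a < D.nroots → w < D.nroots → w ≠ a → w ≠ D.neg a → GoodPair D Y a w) :
    StRel D Y where
  add := Lf.add
  comm := by
    intro r s hr hs h3 h4 t u
    have hh := tab_of_mem hD
    obtain ⟨f, hf1, hf2⟩ := exists_half_pos_aux hD hy ax θ hθ r hr s hs h3 h4
    obtain ⟨c, L, hL, hmem⟩ := exists_goodL hh f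
    have hrL : r ∈ L := (hmem r).mpr ⟨hr, hf1⟩
    have hsL : s ∈ L := (hmem s).mpr ⟨hs, hf2⟩
    have hP : L.Pairwise (GoodPair D Y) := by
      have hsorted := hL.sorted
      have hpos := hL.pos
      clear hmem hrL hsL hL
      induction L with
      | nil => exact List.Pairwise.nil
      | cons a L ih =>
        obtain ⟨h5, h6⟩ := List.pairwise_cons.mp hsorted
        refine List.pairwise_cons.mpr ⟨?_, ih h6 fun r hr => hpos r (by simp [hr])⟩
        intro w hw
        obtain ⟨ha0, ha1⟩ := hpos a (by simp)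
        obtain ⟨hw0, hw1⟩ := hpos w (by simp [hw])
        have has := h5 w hw
        apply hW a w ha0 hw0
        · rintro rfl; omega
        · rintro rfl
          rw [lin_neg hh c ha0] at hw1
          omega
    exact rel_of_list hD hy ax θ hθ π hsurj hc Lf hL hP hr hs h3 h4 hrL hsL t u

end rel

end Cfsg.Agent.Lib.Steinberg.UnivG
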