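import Cfsg.Agent.Lib.Steinberg.UnivG

/-!
Central extensions for the fields with three or four elements: the commuting facts.
-/

set_option autoImplicit false
set_option linter.unusedSectionVars false
set_option linter.unusedVariables false
set_option maxRecDepth 100000

namespace Cfsg.Agent.Lib.Steinberg.UnivQ

open scoped MatrixGroups Matrix
open Cfsg _root_.Cfsg.Lie ChevalleyDatum
open Cfsg.Agent.Lib.Chev
open Tables Tables2 Raise Basic AxBasic Products Mono1 Mono2
open _root_.Cfsg.Agent.Lib.Steinberg.Rel _root_.Cfsg.Agent.Lib.Steinberg.Conj _root_.Cfsg.Agent.Lib.Steinberg.Bruhat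
open _root_.Cfsg.Agent.Lib.Steinberg.Exch _root_.Cfsg.Agent.Lib.Steinberg.AllRoots
open _root_.Cfsg.Agent.Lib.Steinberg.CExt _root_.Cfsg.Agent.Lib.Steinberg.UTab _root_.Cfsg.Agent.Lib.Steinberg.Univ
open _root_.Cfsg.Agent.Lib.Steinberg.SLaced _root_.Cfsg.Agent.Lib.Steinberg.UnivG
open Cfsg.Agent.Lib.Lie.Facts (IsData pairing_reflect pairing_simple pairing_neg_right)

universe u v w

variable {D : ChevalleyDatum} {F : Type u} [Field F] {Γ : Type v} [Group Γ] {E : Type w} [Group E]

section general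

variable {y : ℕ → F → Γ} (hD : IsData D) (hy : StRel D y) (ax : Ax D F) (θ : Γ →* GL D.Idx F)
  (hθ : ∀ r t, r < D.nroots → θ (y r t) = xG ax r t)
  (hgen : Subgroup.closure {g | ∃ (r : ℕ) (t : F), r < D.nroots ∧ g = y r t} = ⊤)
  (π : E →* Γ) (hsurj : Function.Surjective π) (hc : π.ker ≤ Subgroup.center E)

include hD hy hθ hgen hsurj hc

/-- The lifting theorem from the commuting facts. -/
theorem exists_lift_G (hperf : commutator Γ = ⊤) (hself : ∀ r, r < D.nroots → LC π y r r)
    (hA : ∀ r, r < D.nroots → ∃ a, a < D.nroots ∧ ∃ z : F, z ≠ 0 ∧ z ^ D.pairing a r ≠ 1)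
    (hW : ∀ a w, a < D.nroots → w < D.nroots → w ≠ a → w ≠ D.neg a → Sep D F a w ∨ LC π y a w) :
    ∃ Y : ℕ → F → E, StRel D Y ∧ ∀ r t, r < D.nroots → π (Y r t) = y r t := by
  classical
  choose! a ha z hz hz2 using hA
  have Lf := liftY_Yg hD hy ax θ hθ hgen π hsurj hc hperf ha hz hz2 hself
  refine ⟨_, stRel_of_pairs hD hy ax θ hθ π hsurj hc Lf ?_, Lf.map⟩
  intro r s hr hs h3 h4
  rcases hW r s hr hs h3 h4 with h | h
  · exact Or.inl h
  · exact Or.inr (Or.inl fun t v => h _ _ _ _ (Lf.map r t hr) (Lf.map s v hs))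

end general

section trans

variable {y : ℕ → F → Γ} (hD : IsData D) (hy : StRel D y) (ax : Ax D F) (θ : Γ →* GL D.Idx F)
  (hθ : ∀ r t, r < D.nroots → θ (y r t) = xG ax r t)
  (π : E →* Γ) (hsurj : Function.Surjective π) (hc : π.ker ≤ Subgroup.center E)

include hD

/-- The separation condition under a reflection. -/
lemma sep_reflect {i a w : ℕ} (hi : i < D.rank) (ha : a < D.nroots) (hw : w < D.nroots) (H : Sep D F a w) :
    Sep D F (D.reflectRoot i a) (D.reflectRoot i w) := by
  have hh := tab_of_mem hD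
  obtain ⟨a', ha', u, hu, h1, h2⟩ := H
  refine ⟨D.reflectRoot i a', hh.reflect_lt i hi a' ha', u, hu, ?_, ?_⟩
  · rwa [pairing_reflect hD i a' a hi ha' ha]
  · rwa [pairing_reflect hD i a' w hi ha' hw]

include hy hθ hsurj

/-- The induction over the first root. -/
lemma hW_induct {P : ℕ → ℕ → Prop}
    (hP : ∀ i a w, i < D.rank → a < D.nroots → w < D.nroots → P a w → P (D.reflectRoot i a) (D.reflectRoot i w))
    (hbase : ∀ i, i < D.rank → ∀ w, w < D.nroots → w ≠ D.simple i → w ≠ D.neg (D.simple i) → P (D.simple i) w) :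
    ∀ a w, a < D.nroots → w < D.nroots → w ≠ a → w ≠ D.neg a → P a w := by
  have hh := tab_of_mem hD
  intro a w ha
  revert w
  revert a
  apply root_induct hD (P := fun a => ∀ w, w < D.nroots → w ≠ a → w ≠ D.neg a → P a w)
  · intro i hi w hw h1 h2
    exact hbase i hi w hw h1 h2
  · intro i hi s hs ih w hw h1 h2
    have hw' := hh.reflect_lt i hi w hw
    have h3 : D.reflectRoot i w ≠ s := by
      intro e
      apply h1
      rw [← e, Mono1.reflect_reflect hh hi hw]
    have h4 : D.reflectRoot i w ≠ D.neg s := by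
      intro e
      apply h2
      rw [← Mono1.reflect_neg hh hi hs, ← e, Mono1.reflect_reflect hh hi hw]
    have := hP i s _ hi hs hw' (ih _ hw' h3 h4)
    rwa [Mono1.reflect_reflect hh hi hw] at this

/-- The transport of the lifted commuting facts. -/
lemma lc_walk {r s : ℕ} (hr : r < D.nroots) (hs : s < D.nroots) (H : LC π y r s) (W : List ℕ) (hW : ∀ i ∈ W, i < D.rank) :
    LC π y (W.foldr (fun j s => D.reflectRoot j s) r) (W.foldr (fun j s => D.reflectRoot j s) s) := by
  have hh := tab_of_mem hD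
  have key : (W.foldr (fun j s => D.reflectRoot j s) r) < D.nroots ∧ (W.foldr (fun j s => D.reflectRoot j s) s) < D.nroots ∧
      LC π y (W.foldr (fun j s => D.reflectRoot j s) r) (W.foldr (fun j s => D.reflectRoot j s) s) := by
    induction W with
    | nil => exact ⟨hr, hs, H⟩
    | cons j W ih =>
      obtain ⟨h1, h2, h3⟩ := ih fun x hx => hW x (by simp [hx])
      have hj := hW j (by simp)
      exact ⟨hh.reflect_lt j hj _ h1, hh.reflect_lt j hj _ h2, lc_reflect hD hy ax θ hθ π hsurj hj h1 h2 h3⟩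
  exact key.2.2

end trans

/-! ### Checks -/

/-- The data of the commutator trick. -/
def hwChk (D : ChevalleyDatum) (k w a b : ℕ) (M : ℤ) : Bool :=
  decide (a < D.nroots) && decide (b < D.nroots) && decide (w < D.nroots) && b != a && b != D.neg a &&
    a != w && a != D.neg w && b != w && b != D.neg w && D.commTerms a b == [(k, M, 1, 1)] &&
    D.commTerms w a == [] && D.commTerms w b == []

section hw

variable {y : ℕ → F → Γ} (hy : StRel D y) (π : E →* Γ) (hsurj : Function.Surjective π)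
  (hc : π.ker ≤ Subgroup.center E)

include hy hsurj hc

/-- The commutator trick from the table. -/
lemma lc_of_hwChk {k w a b : ℕ} {M : ℤ} (hM : (M : F) ≠ 0) (H : hwChk D k w a b M = true) : LC π y k w := by
  simp only [hwChk, Bool.and_eq_true, decide_eq_true_eq, bne_iff_ne, beq_iff_eq] at H
  obtain ⟨⟨⟨⟨⟨⟨⟨⟨⟨⟨⟨ha, hb⟩, hw⟩, h1⟩, h2⟩, h3⟩, h4⟩, h5⟩, h6⟩, h7⟩, h8⟩, h9⟩ := H
  exact lc_of_hw hy π hsurj hc ha hb h1 h2 h7 hM (cm_of_terms hy hw ha h3 h4 h8) (cm_of_terms hy hw hb h5 h6 h9)

omit hy hsurj hc in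
lemma cm_of_check {r s : ℕ} (hy : StRel D y) (h : (decide (r < D.nroots) && decide (s < D.nroots) && s != r && s != D.neg r && D.commTerms r s == []) = true) :
    Cm y r s := by
  simp only [Bool.and_eq_true, decide_eq_true_eq, bne_iff_ne, beq_iff_eq] at h
  obtain ⟨⟨⟨⟨h1, h2⟩, h3⟩, h4⟩, h5⟩ := h
  exact cm_of_terms hy h1 h2 h3 h4 h5

end hw

/-- The table of the commutator trick for the fundamental roots. -/
def selfChk (D : ChevalleyDatum) (c : List (ℕ × ℕ × ℤ)) : Bool :=
  allBelow D.rank fun i =>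
    let e := c.getD i (0, 0, 0)
    decide (e.2.2 = 1 ∨ e.2.2 = -1) && hwChk D (D.simple i) (D.simple i) e.1 e.2.1 e.2.2

section self

variable {y : ℕ → F → Γ} (hD : IsData D) (hy : StRel D y) (ax : Ax D F) (θ : Γ →* GL D.Idx F)
  (hθ : ∀ r t, r < D.nroots → θ (y r t) = xG ax r t)
  (π : E →* Γ) (hsurj : Function.Surjective π) (hc : π.ker ≤ Subgroup.center E)

include hD hy hθ hsurj hc

/-- Root elements commute after lifting, from the table. -/
theorem lc_self_of_chk {c : List (ℕ × ℕ × ℤ)} (H : selfChk D c = true) : ∀ r, r < D.nroots → LC π y r r := by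
  apply root_induct hD (P := fun r => LC π y r r)
  · intro i hi
    have e := allBelow_spec H i hi
    simp only [Bool.and_eq_true, decide_eq_true_eq] at e
    obtain ⟨e1, e2⟩ := e
    refine lc_of_hwChk hy π hsurj hc ?_ e2
    rcases e1 with e1 | e1 <;> rw [e1] <;> simp
  · intro i hi s hs H
    exact lc_reflect hD hy ax θ hθ π hsurj hi hs hs H

end self

theorem selfChk_D4 : selfChk chevD4 [(6, 22, 1), (1, 23, -1), (3, 22, -1), (2, 22, -1)] = true := by decide +kernel

theorem selfChk_F4 : selfChk chevF4 [(7, 44, -1), (8, 40, -1), (2, 46, -1), (1, 47, -1)] = true := by decide +kernel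

/-! ### Fields with four elements -/

/-- Bound on the values of the pairing. -/
def boundChk (D : ChevalleyDatum) : Bool :=
  allBelow D.nroots fun a => allBelow D.nroots fun b => decide (|D.pairing a b| ≤ 2)

theorem boundChk_B2 : boundChk chevB2 = true := by decide +kernel
theorem boundChk_D4 : boundChk chevD4 = true := by decide +kernel
theorem boundChk_F4 : boundChk chevF4 = true := by decide +kernel

lemma omega_zpow_ne {ω : F} (h1 : ω ^ 2 + ω + 1 = 0) (h2 : (2 : F) = 0) {A : ℤ} (h0 : A ≠ 0) (hA : |A| ≤ 2) : ω ^ A ≠ 1 := by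
  have hω0 : ω ≠ 0 := by
    rintro rfl
    simp at h1
  have e0 : ω ≠ 1 := by
    rintro rfl
    have : (3 : F) = 0 := by
      have h3 : (1 : F) ^ 2 + 1 + 1 = 3 := by norm_num
      rw [← h3, h1]
    have h4 : (1 : F) = 0 := by
      have : (1 : F) = 3 - 2 := by norm_num
      rw [this, ‹(3 : F) = 0›, h2]
      simp
    exact one_ne_zero h4
  have e1 : ω ^ 2 ≠ 1 := by
    intro e
    have h3 : ω + 2 = 0 := by
      have : ω + 2 = ω ^ 2 + ω + 1 := by rw [e]; ring
      rw [this, h1]
    rw [h2, add_zero] at h3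
    exact hω0 h3
  have hA1 : -2 ≤ A ∧ A ≤ 2 := abs_le.mp hA
  have : A = 1 ∨ A = -1 ∨ A = 2 ∨ A = -2 := by omega
  rcases this with rfl | rfl | rfl | rfl
  · simpa using e0
  · simpa using e0
  · exact_mod_cast e1
  · intro e
    apply e1
    have : ω ^ (-2 : ℤ) = (ω ^ 2)⁻¹ := by
      rw [zpow_neg]
      norm_cast
    rw [this] at e
    exact inv_eq_one.mp e

lemma sep_q4 {ω : F} (h1 : ω ^ 2 + ω + 1 = 0) (h2 : (2 : F) = 0) (hD : IsData D) (hB : boundChk D = true)
    {a w : ℕ} (ha : a < D.nroots) (hw : w < D.nroots) (h3 : w ≠ a) (h4 : w ≠ D.neg a) : Sep D F a w := by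
  obtain ⟨a', ha', e1, e2, e3⟩ := wit2_of_mem hD a w ha hw h3 h4
  have hω0 : ω ≠ 0 := by
    rintro rfl
    simp at h1
  have hb := allBelow_spec (allBelow_spec hB a' ha') w hw
  simp only [decide_eq_true_eq] at hb
  exact ⟨a', ha', ω, hω0, by rw [e1, zpow_zero], omega_zpow_ne h1 h2 e2 hb⟩

/-- Lifting over a field with four elements. -/
theorem exists_lift_q4 {ω : F} (h1 : ω ^ 2 + ω + 1 = 0) (h2 : (2 : F) = 0) {y : ℕ → F → Γ} (hD : IsData D) (hy : StRel D y)
    (ax : Ax D F) (θ : Γ →* GL D.Idx F) (hθ : ∀ r t, r < D.nroots → θ (y r t) = xG ax r t)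
    (hgen : Subgroup.closure {g | ∃ (r : ℕ) (t : F), r < D.nroots ∧ g = y r t} = ⊤)
    (π : E →* Γ) (hsurj : Function.Surjective π) (hc : π.ker ≤ Subgroup.center E)
    (hperf : commutator Γ = ⊤) (hB : boundChk D = true) (hself : ∀ r, r < D.nroots → LC π y r r) :
    ∃ Y : ℕ → F → E, StRel D Y ∧ ∀ r t, r < D.nroots → π (Y r t) = y r t := by
  have hω0 : ω ≠ 0 := by
    rintro rfl
    simp at h1
  refine exists_lift_G hD hy ax θ hθ hgen π hsurj hc hperf hself ?_ ?_
  · intro r hr
    refine ⟨r, hr, ω, hω0, ?_⟩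
    rw [pairing_self hD r hr]
    exact omega_zpow_ne h1 h2 (by norm_num) (by norm_num)
  · intro a w ha hw h3 h4
    exact Or.inl (sep_q4 h1 h2 hD hB ha hw h3 h4)

/-! ### Fields with three elements -/

section swap

variable {y : ℕ → F → Γ} (hy : StRel D y) (π : E →* Γ) (hsurj : Function.Surjective π)
  (hc : π.ker ≤ Subgroup.center E)

include hy hsurj hc

/-- The swap rule over a field with three elements. -/
lemma lc_of_swap (h3 : (3 : F) = 0) (hF : ∀ t : F, t = 0 ∨ t = 1 ∨ t = -1) {r s : ℕ} (hr : r < D.nroots) (hs : s < D.nroots)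
    (hcomm : Cm y r s) {N : Γ} {c c' : F} (hcc : c * c' = 1) (h1 : ∀ t, N * y r t * N⁻¹ = y s (c * t))
    (h2 : ∀ u, N * y s u * N⁻¹ = y r (c' * u)) : LC π y r s := by
  let _ := centerComm E
  let X : F → E := fun t => Function.surjInv hsurj (y r t)
  let X' : F → E := fun t => Function.surjInv hsurj (y s t)
  have hX : ∀ t, π (X t) = y r t := fun t => Function.surjInv_eq hsurj _
  have hX' : ∀ t, π (X' t) = y s t := fun t => Function.surjInv_eq hsurj _
  have hcm : ∀ t u, π (X t) * π (X' u) = π (X' u) * π (X t) := by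
    intro t u
    rw [hX, hX']
    exact hcomm t u
  let f : F → F → Subgroup.center E := fun t u => ⟨cm (X t) (X' u), cm_central π hc (hcm t u)⟩
  have h1' : ∀ a b u, f (a + b) u = f a u * f b u := by
    intro a b u
    apply Subtype.ext
    show cm (X (a + b)) (X' u) = cm (X a) (X' u) * cm (X b) (X' u)
    rw [← cm_mul_left π hc (hcm a u) (hcm b u)]
    apply cm_lift π hc _ rfl
    rw [map_mul, hX, hX, hX, hy.add r hr]
  have h2' : ∀ t a b, f t (a + b) = f t a * f t b := by
    intro t a b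
    apply Subtype.ext
    show cm (X t) (X' (a + b)) = cm (X t) (X' a) * cm (X t) (X' b)
    rw [← cm_mul_right π hc (hcm t a) (hcm t b)]
    apply cm_lift π hc rfl
    rw [map_mul, hX', hX', hX', hy.add s hs]
  have f0 : ∀ u, f 0 u = 1 := by
    intro u
    have := h1' 0 0 u
    rw [add_zero] at this
    exact (mul_eq_left.mp this.symm)
  have f0' : ∀ u, f u 0 = 1 := by
    intro u
    have := h2' u 0 0
    rw [add_zero] at this
    exact (mul_eq_left.mp this.symm)
  have fn : ∀ t u, f (-t) u = (f t u)⁻¹ := by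
    intro t u
    apply eq_inv_of_mul_eq_one_left
    rw [← h1', neg_add_cancel, f0]
  have fn' : ∀ t u, f t (-u) = (f t u)⁻¹ := by
    intro t u
    apply eq_inv_of_mul_eq_one_left
    rw [← h2', neg_add_cancel, f0']
  obtain ⟨g, hg⟩ := hsurj N
  have hswap : ∀ t u, f t u = (f (c' * u) (c * t))⁻¹ := by
    intro t u
    apply Subtype.ext
    show cm (X t) (X' u) = (cm (X (c' * u)) (X' (c * t)))⁻¹
    rw [← cm_conj_central π hc (g := g) (hcm t u)]
    have e1 : π (g * X t * g⁻¹) = π (X' (c * t)) := by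
      simp only [map_mul, map_inv, hg, hX, hX', h1]
    have e2 : π (g * X' u * g⁻¹) = π (X (c' * u)) := by
      simp only [map_mul, map_inv, hg, hX, hX', h2]
    rw [cm_lift π hc e1 e2]
    simp only [cm]
    group
  have hcc' : (c = 1 ∧ c' = 1) ∨ (c = -1 ∧ c' = -1) := by
    rcases hF c with e | e | e
    · rw [e, zero_mul] at hcc
      exact absurd hcc.symm one_ne_zero
    · left
      rw [e, one_mul] at hcc
      exact ⟨e, hcc⟩
    · right
      refine ⟨e, ?_⟩
      rw [e] at hcc
      have : c' = -(-1 * c') := by ring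
      rw [this, hcc]
  have hsym : ∀ t u, f t u = (f u t)⁻¹ := by
    intro t u
    rw [hswap t u]
    rcases hcc' with ⟨e1, e2⟩ | ⟨e1, e2⟩
    · rw [e1, e2, one_mul, one_mul]
    · rw [e1, e2, neg_one_mul, neg_one_mul, fn, fn', inv_inv]
  have hA3 : f 1 1 * f 1 1 * f 1 1 = 1 := by
    rw [← h1', ← h1']
    have : (1 : F) + 1 + 1 = 0 := by
      have : (1 : F) + 1 + 1 = 3 := by norm_num
      rw [this, h3]
    rw [this, f0]
  have hA2 : f 1 1 * f 1 1 = 1 := by
    have := hsym 1 1
    exact (eq_inv_iff_mul_eq_one.mp this)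
  have hA : f 1 1 = 1 := by
    rw [hA2, one_mul] at hA3
    exact hA3
  have hall : ∀ t u, f t u = 1 := by
    intro t u
    rcases hF t with rfl | rfl | rfl
    · exact f0 u
    · rcases hF u with rfl | rfl | rfl
      · exact f0' _
      · exact hA
      · rw [fn', hA, inv_one]
    · rw [fn]
      rcases hF u with rfl | rfl | rfl
      · rw [f0', inv_one]
      · rw [hA, inv_one]
      · rw [fn', hA, inv_one, inv_one]
  intro t u e e' he he'
  have h2 : cm (X t) (X' u) = 1 := congrArg Subtype.val (hall t u)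
  apply comm_of_cm
  rw [cm_lift π hc (x' := X t) (e' := X' u) (by rw [he, hX]) (by rw [he', hX']), h2]

end swap

/-- Commutation of the elements `n`. -/
lemma nY_comm {y : ℕ → F → Γ} {a b : ℕ} (h1 : Cm y a b) (h2 : Cm y a (D.neg b)) (h3 : Cm y (D.neg a) b) (h4 : Cm y (D.neg a) (D.neg b))
    (t u : F) : Commute (nY D y a t) (nY D y b u) := by
  have e1 : ∀ v, Commute (y a v) (nY D y b u) := by
    intro v
    exact ((show Commute _ _ from h1 v u).mul_right (show Commute _ _ from h2 v _)).mul_right (show Commute _ _ from h1 v u)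
  have e2 : ∀ v, Commute (y (D.neg a) v) (nY D y b u) := by
    intro v
    exact ((show Commute _ _ from h3 v u).mul_right (show Commute _ _ from h4 v _)).mul_right (show Commute _ _ from h3 v u)
  exact ((e1 t).mul_left (e2 _)).mul_left (e1 t)

section swap2

variable {y : ℕ → F → Γ} (hD : IsData D) (hy : StRel D y) (ax : Ax D F) (θ : Γ →* GL D.Idx F)
  (hθ : ∀ r t, r < D.nroots → θ (y r t) = xG ax r t)
  (π : E →* Γ) (hsurj : Function.Surjective π) (hc : π.ker ≤ Subgroup.center E)

include hD hy hθ hsurj hc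

/-- The swap rule with two commuting reflections. -/
lemma lc_swap_pair (h3 : (3 : F) = 0) (hF : ∀ t : F, t = 0 ∨ t = 1 ∨ t = -1) {i j r s : ℕ} (hi : i < D.rank) (hj : j < D.rank)
    (hr : r < D.nroots) (hs : s < D.nroots) (hcomm : Cm y r s)
    (c1 : Cm y (D.simple i) (D.simple j)) (c2 : Cm y (D.simple i) (D.neg (D.simple j)))
    (c3 : Cm y (D.neg (D.simple i)) (D.simple j)) (c4 : Cm y (D.neg (D.simple i)) (D.neg (D.simple j)))
    (h1 : D.reflectRoot i (D.reflectRoot j r) = s) (h2 : D.reflectRoot i (D.reflectRoot j s) = r)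
    (hev : Even (D.pairing (D.simple i) r + D.pairing (D.simple j) r)) : LC π y r s := by
  have hh := tab_of_mem hD
  have hm : (-1 : F) ≠ 0 := neg_ne_zero.mpr one_ne_zero
  have hr' := hh.reflect_lt j hj r hr
  have hs' := hh.reflect_lt j hj s hs
  have hsi := hh.simple_lt i hi
  have hsj := hh.simple_lt j hj
  set ni := nY D y (D.simple i) (-1) with hni
  set nj := nY D y (D.simple j) (-1) with hnj
  have conj1 : ∀ {x : ℕ}, x < D.nroots → ∀ v, (ni * nj) * y x v * (ni * nj)⁻¹ =
      y (D.reflectRoot i (D.reflectRoot j x)) (rc hD i hi (D.reflectRoot j x) (-1 : F) * (rc hD j hj x (-1 : F) * v)) := by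
    intro x hx v
    have e1 : nj * y x v * nj⁻¹ = _ := rc_all hD hy ax θ hθ hj hx hm v
    have e2 : ni * _ * ni⁻¹ = _ := rc_all hD hy ax θ hθ hi (hh.reflect_lt j hj x hx) hm (rc hD j hj x (-1 : F) * v)
    rw [← e1] at e2
    rw [← e2, mul_inv_rev]
    group
  have hcm := nY_comm (D := D) (y := y) c1 c2 c3 c4 (-1 : F) (-1 : F)
  have hNN : (ni * nj) * (ni * nj) = hY D y (D.simple i) (-1) * hY D y (D.simple j) (-1) := by
    have : (ni * nj) * (ni * nj) = (ni * ni) * (nj * nj) := by
      calc (ni * nj) * (ni * nj) = ni * (nj * ni) * nj := by group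
        _ = ni * (ni * nj) * nj := by rw [hcm.symm.eq]
        _ = _ := by group
    rw [this]
    rfl
  have hcc : (rc hD i hi (D.reflectRoot j s) (-1 : F) * rc hD j hj s (-1 : F)) *
      (rc hD i hi (D.reflectRoot j r) (-1 : F) * rc hD j hj r (-1 : F)) = 1 := by
    have e1 : ((ni * nj) * (ni * nj)) * y r 1 * ((ni * nj) * (ni * nj))⁻¹ = (ni * nj) * ((ni * nj) * y r 1 * (ni * nj)⁻¹) * (ni * nj)⁻¹ := by
      group
    rw [conj1 hr, h1, conj1 hs, h2] at e1
    have e2 : ((ni * nj) * (ni * nj)) * y r 1 * ((ni * nj) * (ni * nj))⁻¹ = y r 1 := by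
      rw [hNN]
      have e3 := hY_conj_all hD hy ax θ hθ hsj hr hm (1 : F)
      have e4 := hY_conj_all hD hy ax θ hθ hsi hr hm ((-1 : F) ^ D.pairing (D.simple j) r * (1 : F))
      rw [← e3] at e4
      rw [mul_inv_rev]
      have e5 : hY D y (D.simple i) (-1) * hY D y (D.simple j) (-1) * y r 1 * ((hY D y (D.simple j) (-1))⁻¹ * (hY D y (D.simple i) (-1))⁻¹) =
          hY D y (D.simple i) (-1) * (hY D y (D.simple j) (-1) * y r 1 * (hY D y (D.simple j) (-1))⁻¹) * (hY D y (D.simple i) (-1))⁻¹ := by group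
      rw [e5, e4]
      congr 1
      rw [← mul_assoc, ← zpow_add₀ hm, hev.neg_one_zpow, one_mul]
    rw [e2] at e1
    have := param_inj hD ax θ hθ hr e1
    linear_combination -this
  refine lc_of_swap hy π hsurj hc h3 hF hr hs hcomm (N := ni * nj) ?_ (c := rc hD i hi (D.reflectRoot j r) (-1 : F) * rc hD j hj r (-1 : F))
    (c' := rc hD i hi (D.reflectRoot j s) (-1 : F) * rc hD j hj s (-1 : F)) ?_ ?_
  · rw [mul_comm]
    exact hcc
  · intro t
    rw [conj1 hr, h1, mul_assoc]
  · intro t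
    rw [conj1 hs, h2, mul_assoc]

end swap2

/-- The parity table. -/
def parChk {α : Type} (f : α → ℕ) (D : ChevalleyDatum) (c : List (List ℕ)) (ee : List (List α)) : Bool :=
  allBelow D.rank fun i =>
    let cs := c.getD i []
    cs.all (fun a => decide (a < D.nroots) && (D.pairing a (D.simple i) % 2 == 0)) &&
    allBelow D.nroots fun w => w == D.simple i || w == D.neg (D.simple i) ||
      cs.any (fun a => D.pairing a w % 2 == 1) || (ee.getD i []).any (fun x => f x == w)

section q3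

variable {y : ℕ → F → Γ} (hD : IsData D) (hy : StRel D y) (ax : Ax D F) (θ : Γ →* GL D.Idx F)
  (hθ : ∀ r t, r < D.nroots → θ (y r t) = xG ax r t)
  (hgen : Subgroup.closure {g | ∃ (r : ℕ) (t : F), r < D.nroots ∧ g = y r t} = ⊤)
  (π : E →* Γ) (hsurj : Function.Surjective π) (hc : π.ker ≤ Subgroup.center E)

omit hD in
lemma neg_one_zpow_ne (h2 : (-1 : F) ≠ 1) {A : ℤ} (h : A % 2 = 1) : (-1 : F) ^ A ≠ 1 := by
  have : Odd A := Int.odd_iff.mpr h
  rwa [this.neg_one_zpow]

omit hD in
lemma neg_one_zpow_even {A : ℤ} (h : A % 2 = 0) : (-1 : F) ^ A = 1 := by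
  have : Even A := Int.even_iff.mpr h
  rw [this.neg_one_zpow]

include hD hy hθ hgen hsurj hc

/-- Lifting over a field with three elements, from the table. -/
theorem exists_lift_q3 {α : Type} {f : α → ℕ} (h2 : (-1 : F) ≠ 1) (hne : D ≠ chevB2) (hperf : commutator Γ = ⊤)
    (hself : ∀ r, r < D.nroots → LC π y r r)
    {c : List (List ℕ)} {ee : List (List α)} (hP : parChk f D c ee = true)
    (hex : ∀ i, i < D.rank → ∀ x ∈ ee.getD i [], LC π y (D.simple i) (f x)) :
    ∃ Y : ℕ → F → E, StRel D Y ∧ ∀ r t, r < D.nroots → π (Y r t) = y r t := by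
  have hh := tab_of_mem hD
  have hm : (-1 : F) ≠ 0 := neg_ne_zero.mpr one_ne_zero
  refine exists_lift_G hD hy ax θ hθ hgen π hsurj hc hperf hself ?_ ?_
  · apply root_induct hD (P := fun r => ∃ a, a < D.nroots ∧ ∃ z : F, z ≠ 0 ∧ z ^ D.pairing a r ≠ 1)
    · intro i hi
      obtain ⟨a, ha, e⟩ := unit_of_mem hD hne i hi
      refine ⟨a, ha, -1, hm, neg_one_zpow_ne h2 ?_⟩
      rcases e with e | e <;> rw [e] <;> norm_num
    · rintro i hi s hs ⟨a, ha, z, hz, e⟩
      refine ⟨D.reflectRoot i a, hh.reflect_lt i hi a ha, z, hz, ?_⟩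
      rwa [pairing_reflect hD i a s hi ha hs]
  · apply hW_induct hD hy ax θ hθ π hsurj (P := fun a w => Sep D F a w ∨ LC π y a w)
    · rintro i a w hi ha hw (e | e)
      · exact Or.inl (sep_reflect hD hi ha hw e)
      · exact Or.inr (lc_reflect hD hy ax θ hθ π hsurj hi ha hw e)
    · intro i hi w hw h3 h4
      have e := allBelow_spec hP i hi
      simp only [Bool.and_eq_true, List.all_eq_true, decide_eq_true_eq, beq_iff_eq] at e
      obtain ⟨e1, e2⟩ := e
      have e3 := allBelow_spec e2 w hw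
      simp only [Bool.or_eq_true, beq_iff_eq, List.any_eq_true, decide_eq_true_eq] at e3
      rcases e3 with ((e3 | e3) | ⟨a, ha, e4⟩) | ⟨x, hx, e4⟩
      · exact absurd e3 h3
      · exact absurd e3 h4
      · exact Or.inl ⟨a, (e1 a ha).1, -1, hm, neg_one_zpow_even (e1 a ha).2, neg_one_zpow_ne h2 e4⟩
      · right
        rw [← e4]
        exact hex i hi x hx

end q3

end Cfsg.Agent.Lib.Steinberg.UnivQ
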